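import Cfsg.Agent.Blocks.MajorSection
import Cfsg.Agent.Blocks.Covering
import Cfsg.Agent.Chars.Linear

/-!
Blocks with abelian defect group over a stable block of a normal subgroup of `p`-power index:
all members extend.
-/

namespace Cfsg.Agent.Blocks

open Cfsg Cfsg.Agent

set_option linter.unusedSectionVars false
set_option linter.style.haveILetI false

universe u

variable {G : Type u} [Group G] [Fintype G] {p : ℕ} [Fact p.Prime] {M : Ideal AlgInt}
  [M.IsMaximal] {N : Subgroup G} [hN : N.Normal] [Fintype N]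

/-- The twist of a character by a linear character of the quotient. -/
noncomputable def twist (l : G ⧸ N →* ℂˣ) (χ : IrrCharacter G) : IrrCharacter G :=
  ⟨_, Chars.isIrrCharacter_mul_hom χ.2 (l.comp (QuotientGroup.mk' N))⟩

theorem twist_apply (l : G ⧸ N →* ℂˣ) (χ : IrrCharacter G) (g : G) :
    (twist l χ : G → ℂ) g = (l (QuotientGroup.mk g) : ℂ) * (χ : G → ℂ) g := rfl

theorem twist_res (l : G ⧸ N →* ℂˣ) (χ : IrrCharacter G) (n : N) :
    (twist l χ : G → ℂ) n = (χ : G → ℂ) n := by
  rw [twist_apply, (QuotientGroup.eq_one_iff (n : G)).2 n.2, map_one, Units.val_one, one_mul]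

/-- Twisting by the quotient acts freely on the block. -/
theorem twist_injective (hpM : (p : AlgInt) ∈ M) {k : ℕ} (hidx : N.index = p ^ k)
    {B : Set (IrrCharacter G)} (hB : IsPBlock M B) {P : Subgroup G} (hP : IsDefectGroup p M B P)
    (hsup : N ⊔ P = ⊤) (hab : ∀ x ∈ P, ∀ y ∈ P, x * y = y * x) {χ : IrrCharacter G} (hχ : χ ∈ B) :
    Function.Injective fun l : G ⧸ N →* ℂˣ => twist l χ := by
  classical
  intro l m h
  have hP' := isPGroup_defect hP
  have hy : ∀ y ∈ P, l (QuotientGroup.mk y) = m (QuotientGroup.mk y) := by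
    intro y hy
    haveI : Fintype (Subgroup.centralizer ({y} : Set G)) := Fintype.ofFinite _
    have hyo : ∃ j : ℕ, orderOf y = p ^ j := by
      obtain ⟨j, hj⟩ := IsPGroup.iff_orderOf.1 hP' ⟨y, hy⟩
      exact ⟨j, by rwa [Subgroup.orderOf_mk] at hj⟩
    obtain ⟨b, hb, hd⟩ := exists_major hpM hB hP hy (fun x hx => hab x hx y hy) rfl
    obtain ⟨s, hs, hne⟩ := exists_apply_ne_zero hpM rfl hyo hb hd hχ
    have hsN : (s : G) ∈ N :=
      BlockChar.mem_of_isPRegular_of_index hidx
        (show ¬ p ∣ orderOf (s : G) by rwa [Subgroup.orderOf_coe])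
    have h1 := congrFun (congrArg Subtype.val h) (y * (s : G))
    simp only [twist_apply, QuotientGroup.mk_mul, (QuotientGroup.eq_one_iff (s : G)).2 hsN,
      mul_one] at h1
    exact Units.ext (mul_right_cancel₀ hne h1)
  refine MonoidHom.ext fun q => ?_
  obtain ⟨x, rfl⟩ := QuotientGroup.mk'_surjective N q
  obtain ⟨n, hn, y, hyP, rfl⟩ := Subgroup.mem_sup_of_normal_left.1 (hsup ▸ Subgroup.mem_top x)
  simp only [QuotientGroup.mk'_apply, QuotientGroup.mk_mul, (QuotientGroup.eq_one_iff n).2 hn,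
    one_mul]
  exact hy y hyP

/-- All members restrict irreducibly, with the index many extensions each. -/
theorem restrict_extend (hpM : (p : AlgInt) ∈ M) {k : ℕ} (hidx : N.index = p ^ k)
    {b : Set (IrrCharacter N)} (hb : IsPBlock M b) (hinv : ConjInv b) {B : Set (IrrCharacter G)}
    (hB : IsPBlock M B)
    (hcov : ∃ χ ∈ B, ∃ θ ∈ b, classInner (fun n : N => (χ : G → ℂ) n) (θ : N → ℂ) ≠ 0)
    {P : Subgroup G} (hP : IsDefectGroup p M B P) (hsup : N ⊔ P = ⊤)
    (hab : ∀ x ∈ P, ∀ y ∈ P, x * y = y * x) :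
    (∀ χ ∈ B, ∃ θ ∈ b, ∀ n : N, (χ : G → ℂ) n = (θ : N → ℂ) n) ∧
      ∀ θ ∈ b, Nat.card {χ : IrrCharacter G //
        χ ∈ B ∧ ∀ n : N, (χ : G → ℂ) n = (θ : N → ℂ) n} = N.index := by
  classical
  have hcomm : ∀ a c : G ⧸ N, a * c = c * a := by
    intro a c
    obtain ⟨x, rfl⟩ := QuotientGroup.mk'_surjective N a
    obtain ⟨z, rfl⟩ := QuotientGroup.mk'_surjective N c
    obtain ⟨n, hn, y, hy, rfl⟩ := Subgroup.mem_sup_of_normal_left.1 (hsup ▸ Subgroup.mem_top x)
    obtain ⟨n', hn', y', hy', rfl⟩ := Subgroup.mem_sup_of_normal_left.1 (hsup ▸ Subgroup.mem_top z)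
    simp only [QuotientGroup.mk'_apply, QuotientGroup.mk_mul, (QuotientGroup.eq_one_iff n).2 hn,
      (QuotientGroup.eq_one_iff n').2 hn', one_mul]
    rw [← QuotientGroup.mk_mul, hab y hy y' hy', QuotientGroup.mk_mul]
  have hcard : Nat.card (G ⧸ N →* ℂˣ) = N.index := by
    rw [Nat.card_congr Chars.homEquivLinear, Chars.card_linear,
      show commutator (G ⧸ N) = ⊥ by
        rw [_root_.commutator_def, eq_bot_iff, Subgroup.commutator_le]
        intro a _ c _
        rw [Subgroup.mem_bot, commutatorElement_eq_one_iff_mul_comm, hcomm],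
      Subgroup.index_bot]
    rfl
  haveI : Finite (G ⧸ N →* ℂˣ) :=
    Nat.finite_of_card_ne_zero (hcard ▸ Subgroup.index_ne_zero_of_finite)
  haveI : Fintype (G ⧸ N →* ℂˣ) := Fintype.ofFinite _
  have key : ∀ θ ∈ b, ∀ χ ∈ B, classInner (fun n : N => (χ : G → ℂ) n) (θ : N → ℂ) ≠ 0 →
      (∀ n : N, (χ : G → ℂ) n = (θ : N → ℂ) n) ∧ Nat.card {χ : IrrCharacter G //
        χ ∈ B ∧ ∀ n : N, (χ : G → ℂ) n = (θ : N → ℂ) n} = N.index := by
    intro θ hθ χ hχ hcon
    choose c hc using fun φ : IrrCharacter G => Chars.exists_classInner_eq_nat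
      (Chars.isCharacter_restrict (Chars.irr_isCharacter φ) N) (Chars.irr_isCharacter θ)
    set d : IrrCharacter G → ℕ := fun φ => charDegree (φ : G → ℂ) with hd
    have hdφ : ∀ φ : IrrCharacter G, (φ : G → ℂ) 1 = (d φ : ℂ) := fun φ => (charDegree_eq φ.2).1
    have hI : N.index * charDegree (θ : N → ℂ) = ∑ φ : IrrCharacter G, c φ * d φ := by
      have h1 := congrFun (Chars.eq_sum_classInner (Chars.isClassFunction_indFun N (θ : N → ℂ))) 1
      have hcf : ∀ φ : IrrCharacter G,
          classInner (θ : N → ℂ) (fun n : N => (φ : G → ℂ) n) = (c φ : ℂ) := fun φ => by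
        rw [← Chars.classInner_conj_symm, hc, Complex.conj_natCast]
      rw [Chars.indFun_apply_one, Finset.sum_apply, (charDegree_eq θ.2).1] at h1
      simp only [Pi.smul_apply, smul_eq_mul, Chars.classInner_indFun N _ (Chars.isClassFunction_irr _),
        hcf, hdφ] at h1
      exact_mod_cast h1
    set S : Finset (IrrCharacter G) := Finset.univ.image fun l : G ⧸ N →* ℂˣ => twist l χ with hS
    have hScard : S.card = N.index := by
      rw [hS, Finset.card_image_of_injective _ (twist_injective hpM hidx hB hP hsup hab hχ),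
        Finset.card_univ, ← Nat.card_eq_fintype_card, hcard]
    have hSterm : ∀ φ ∈ S, c φ * d φ = c χ * d χ := by
      intro φ hφ
      obtain ⟨l, -, rfl⟩ := Finset.mem_image.1 hφ
      have e1 : c (twist l χ) = c χ := by
        have h1 : ((c (twist l χ) : ℕ) : ℂ) = c χ := by
          rw [← hc, ← hc]; simp only [twist_res]
        exact_mod_cast h1
      have e2 : d (twist l χ) = d χ := by
        have h1 : (d (twist l χ) : ℂ) = d χ := by
          rw [← hdφ, ← hdφ]; simpa using twist_res l χ 1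
        exact_mod_cast h1
      rw [e1, e2]
    have hSsum : ∑ φ ∈ S, c φ * d φ = N.index * (c χ * d χ) := by
      rw [Finset.sum_congr rfl hSterm, Finset.sum_const, hScard, smul_eq_mul]
    have hidx0 : 0 < N.index := Nat.pos_of_ne_zero Subgroup.index_ne_zero_of_finite
    have hle : c χ * d χ ≤ charDegree (θ : N → ℂ) := by
      refine Nat.le_of_mul_le_mul_left ?_ hidx0
      rw [hI, ← hSsum]
      exact Finset.sum_le_sum_of_subset (Finset.subset_univ _)
    obtain ⟨e, he⟩ := Chars2.exists_multiplicities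
      (Chars.isCharacter_restrict (Chars.irr_isCharacter χ) N)
    have hres : d χ = ∑ ψ : IrrCharacter N, e ψ * charDegree (ψ : N → ℂ) := by
      have h1 := Chars2.apply_eq_sum (H := N) (Chars.isClassFunction_of_isCharacter
        (Chars.isCharacter_restrict (Chars.irr_isCharacter χ) N)) 1
      simp only [he, OneMemClass.coe_one, hdφ, fun ψ : IrrCharacter N => (charDegree_eq ψ.2).1] at h1
      exact_mod_cast h1
    have hec : e θ = c χ := by
      have h1 : ((e θ : ℕ) : ℂ) = c χ := by rw [← he, ← hc]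
      exact_mod_cast h1
    have hc0 : 1 ≤ c χ := Nat.one_le_iff_ne_zero.2 fun h => hcon (by rw [hc χ, h, Nat.cast_zero])
    have hθd := (charDegree_eq θ.2).2
    have hge : c χ * charDegree (θ : N → ℂ) ≤ d χ := by
      rw [hres, ← hec]
      exact Finset.single_le_sum (f := fun ψ : IrrCharacter N => e ψ * charDegree (ψ : N → ℂ))
        (fun _ _ => Nat.zero_le _) (Finset.mem_univ θ)
    have h5 : charDegree (θ : N → ℂ) ≤ c χ * charDegree (θ : N → ℂ) := Nat.le_mul_of_pos_left _ hc0
    have h6 : d χ ≤ c χ * d χ := Nat.le_mul_of_pos_left _ hc0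
    have hd1 : d χ = charDegree (θ : N → ℂ) := by omega
    have hc1 : c χ = 1 := by
      have : c χ * charDegree (θ : N → ℂ) ≤ 1 * charDegree (θ : N → ℂ) := by omega
      exact le_antisymm (Nat.le_of_mul_le_mul_right this hθd) hc0
    have hrest : ∀ ψ : IrrCharacter N, ψ ≠ θ → e ψ = 0 := by
      intro ψ hψ
      by_contra h0
      have h1 := Finset.sum_le_sum_of_subset (f := fun ψ : IrrCharacter N =>
        e ψ * charDegree (ψ : N → ℂ)) (Finset.subset_univ ({θ, ψ} : Finset (IrrCharacter N)))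
      rw [Finset.sum_pair hψ.symm, ← hres, hec, hc1, one_mul, hd1] at h1
      have := Nat.mul_pos (Nat.pos_of_ne_zero h0) (charDegree_eq ψ.2).2
      omega
    have hext : ∀ n : N, (χ : G → ℂ) n = (θ : N → ℂ) n := by
      intro n
      rw [Chars2.apply_eq_sum (H := N) (Chars.isClassFunction_of_isCharacter
        (Chars.isCharacter_restrict (Chars.irr_isCharacter χ) N)) n,
        Fintype.sum_eq_single θ fun ψ hψ => by rw [he, hrest ψ hψ, Nat.cast_zero, zero_mul],
        he, hec, hc1, Nat.cast_one, one_mul]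
    refine ⟨hext, ?_⟩
    rw [← hScard, ← Nat.card_eq_finsetCard]
    refine Nat.card_congr (Equiv.subtypeEquivRight fun φ => ⟨fun ⟨_, hφ⟩ => ?_, fun hφ => ?_⟩)
    · have hcφ : c φ = 1 := by
        have h1 : ((c φ : ℕ) : ℂ) = 1 := by
          rw [← hc, show (fun n : N => (φ : G → ℂ) n) = (θ : N → ℂ) from funext hφ,
            Chars.classInner_self_irr θ.2]
        exact_mod_cast h1
      by_contra hn
      have h1 : ∑ ψ ∈ insert φ S, c ψ * d ψ ≤ ∑ ψ : IrrCharacter G, c ψ * d ψ :=
        Finset.sum_le_sum_of_subset (Finset.subset_univ _)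
      rw [Finset.sum_insert hn, hSsum, ← hI, hcφ, hc1, one_mul, one_mul, hd1] at h1
      have := (charDegree_eq φ.2).2
      have : 0 < d φ := this
      omega
    · obtain ⟨l, -, rfl⟩ := Finset.mem_image.1 hφ
      have hr : ∀ n : N, (twist l χ : G → ℂ) n = (θ : N → ℂ) n := fun n => by
        rw [twist_res]; exact hext n
      refine ⟨?_, hr⟩
      have hcl : classInner (fun n : N => (twist l χ : G → ℂ) n) (θ : N → ℂ) ≠ 0 := by
        simpa only [twist_res] using hcon
      rw [(existsUnique_covering hpM hidx hb).unique ⟨hB, χ, hχ, θ, hθ, hcon⟩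
        ⟨isPBlock_blockOf _, twist l χ, mem_blockOf_self _, θ, hθ, hcl⟩]
      exact mem_blockOf_self _
  refine ⟨fun χ hχ => ?_, fun θ hθ => ?_⟩
  · obtain ⟨θ, hθ⟩ := exists_constituent (N := N) χ
    obtain ⟨χ₁, hχ₁, θ₁, hθ₁, hcon₁⟩ := hcov
    obtain ⟨g, hg⟩ := covered_conjugate hpM hb (sameBlock_of_mem hB hχ₁ hχ) hθ₁ hcon₁ hθ
    have hθb : θ ∈ b := by
      have := hinv _ g⁻¹ hg
      rwa [conjIrr_conjIrr, inv_mul_cancel, conjIrr_one] at this
    exact ⟨θ, hθb, (key θ hθb χ hχ hθ).1⟩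
  · obtain ⟨χ, hχ⟩ := exists_over (G := G) θ
    refine (key θ hθ χ ?_ hχ).2
    rw [(existsUnique_covering hpM hidx hb).unique ⟨hB, hcov⟩
      ⟨isPBlock_blockOf χ, χ, mem_blockOf_self χ, θ, hθ, hχ⟩]
    exact mem_blockOf_self χ

end Cfsg.Agent.Blocks
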