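import Cfsg.Agent.Blocks.EigenLift
import Cfsg.Agent.Blocks.BlockSimple
import Cfsg.Agent.BlockChar.RankBounds
import Cfsg.Agent.Chars2.RootLift
import Cfsg.Agent.Chars2.SplitBN.BrauerCount

/-!
The irreducible Brauer characters of a block: as many as its regular rank, independent, with
natural decomposition numbers, and integral combinations of the restrictions of its members.
-/

set_option autoImplicit false
set_option linter.unusedSectionVars false
set_option linter.style.haveILetI false
set_option synthInstance.maxHeartbeats 400000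
set_option maxHeartbeats 1000000

namespace Cfsg.Agent.Blocks.BrauerBlock

open Cfsg Cfsg.Agent Cfsg.Agent.BlockChar Cfsg.Agent.Blocks
open Cfsg.Agent.Blocks.EigenLift Cfsg.Agent.Blocks.IdemRank
open scoped MonoidAlgebra ComplexConjugate

universe u

variable {p : ℕ} [Fact p.Prime] {M : Ideal AlgInt} [M.IsMaximal]

section transfer

variable {A : Type*} [Ring A] [Algebra (Res M) A] {H : Type u} [Group H] [Fintype H]

theorem bchar_eq_sum (hpM : (p : AlgInt) ∈ M) (f : H →* A) {s : ℕ} {d : Fin s → ℕ}
    (π : A →ₐ[Res M] Π i, Matrix (Fin (d i)) (Fin (d i)) (Res M)) {n : ℕ}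
    (Ψ : A →ₐ[Res M] Matrix (Fin n) (Fin n) (Res M)) (m : Fin s → ℕ)
    (hm : ∀ e : A, IsIdempotentElem e → (Ψ e).rank = ∑ i, m i * (π e i).rank) (g : H) :
    bchar p M (Ψ.toMonoidHom.comp f) g =
      ∑ i, (m i : ℂ) * bchar p M (((Pi.evalAlgHom (Res M)
        (fun j => Matrix (Fin (d j)) (Fin (d j)) (Res M)) i).comp π).toMonoidHom.comp f) g := by
  classical
  by_cases h : p ∣ orderOf g
  · rw [bchar_of_dvd _ h, Finset.sum_eq_zero fun i _ => by rw [bchar_of_dvd _ h, mul_zero]]
  have hζ := isPrimitiveRoot_res (M := M) hpM h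
  have ho := cast_ne_zero (M := M) hpM h
  have key : ∀ j : Fin (orderOf g),
      (eMat (Ψ.toMonoidHom.comp f) g (res M (zetaO (orderOf g)) ^ (j : ℕ))).rank =
      ∑ i, m i * (eMat (((Pi.evalAlgHom (Res M)
        (fun j => Matrix (Fin (d j)) (Fin (d j)) (Res M)) i).comp π).toMonoidHom.comp f) g
          (res M (zetaO (orderOf g)) ^ (j : ℕ))).rank := by
    intro j
    set a := res M (zetaO (orderOf g)) ^ (j : ℕ) with ha
    set z : A := a⁻¹ • f g with hz
    have hz1 : z ^ orderOf g = 1 := by
      rw [hz, smul_pow, ← map_pow, pow_orderOf_eq_one, map_one, inv_pow, ha, ← pow_mul, mul_comm,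
        pow_mul, hζ.pow_eq_one, one_pow, inv_one, one_smul]
    set S := ∑ l ∈ Finset.range (orderOf g), z ^ l with hS
    have hzS : z * S = S := by
      have h2 := mul_neg_geom_sum z (orderOf g)
      rw [hz1, sub_self, ← hS, sub_mul, one_mul, sub_eq_zero] at h2
      exact h2.symm
    have hzlS : ∀ l : ℕ, z ^ l * S = S := by
      intro l
      induction l with
      | zero => rw [pow_zero, one_mul]
      | succ l ih => rw [pow_succ, mul_assoc, hzS, ih]
    set e : A := (orderOf g : Res M)⁻¹ • S with he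
    have hee : IsIdempotentElem e := by
      show e * e = e
      rw [he, smul_mul_smul_comm]
      conv_lhs => arg 2; arg 1; rw [hS]
      rw [Finset.sum_mul, Finset.sum_congr rfl fun l _ => hzlS l, Finset.sum_const,
        Finset.card_range, ← Nat.cast_smul_eq_nsmul (Res M), smul_smul, mul_assoc,
        inv_mul_cancel₀ ho, mul_one]
    have hmap : ∀ {r : ℕ} (Φ : A →ₐ[Res M] Matrix (Fin r) (Fin r) (Res M)),
        eMat (Φ.toMonoidHom.comp f) g a = Φ e := by
      intro r Φ
      rw [he, hS, map_smul, map_sum, eMat]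
      refine congrArg _ (Finset.sum_congr rfl fun l _ => ?_)
      rw [map_pow, hz, map_smul]
      rfl
    rw [hmap, hm e hee]
    refine Finset.sum_congr rfl fun i _ => ?_
    rw [hmap ((Pi.evalAlgHom (Res M) (fun j => Matrix (Fin (d j)) (Fin (d j)) (Res M)) i).comp π)]
    rfl
  simp only [bchar, if_neg h, key]
  push_cast
  simp only [Finset.sum_mul, Finset.mul_sum]
  rw [Finset.sum_comm]
  exact Finset.sum_congr rfl fun i _ => Finset.sum_congr rfl fun j _ => by ring

end transfer

/-- The reduction of an integral representation. -/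
noncomputable def redHom {G : Type u} [Group G] {n : ℕ} (ρ : G →* Matrix (Fin n) (Fin n) ℂ)
    (hρ : ∀ g a b, MemLocalRing M (ρ g a b)) : G →* Matrix (Fin n) (Fin n) (Res M) where
  toFun g := Chars2.Cyc.resMat M (ρ g)
  map_one' := by rw [map_one, Chars2.Cyc.resMat_one]
  map_mul' a b := by rw [map_mul, Chars2.Cyc.resMat_mul (hρ a) (hρ b)]

/-- On a group of order prime to `p` the lifted eigenvalue sums are generalized characters. -/
theorem isGen_bchar_of_coprime (hpM : (p : AlgInt) ∈ M) {Q : Type u} [Group Q] [Fintype Q]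
    (hQ : ¬ p ∣ Nat.card Q) {n : ℕ} (σ : Q →* Matrix (Fin n) (Fin n) (Res M)) :
    IsGeneralizedCharacter Q (bchar p M σ) := by
  classical
  set N := Fintype.card (IrrCharacter Q)
  set χ : Fin N → IrrCharacter Q := fun i => (Fintype.equivFin (IrrCharacter Q)).symm i
  choose d ρ hd hd1 htr hρ hs using fun i => exists_locRep hpM (χ i).2
  haveI : ∀ i, NeZero (d i) := fun i => ⟨(hd i).ne'⟩
  have hirr : ∀ i, IsIrrCharacter Q fun g => (ρ i g).trace := fun i => by
    rw [funext (htr i)]; exact (χ i).2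
  set π₀ : (Res M)[Q] →ₐ[Res M] Π i, Matrix (Fin (d i)) (Fin (d i)) (Res M) :=
    AlgHom.pi fun i => MonoidAlgebra.lift (Res M) (Matrix (Fin (d i)) (Fin (d i)) (Res M)) Q
      (redHom (ρ i) (hρ i)) with hπ₀
  have hQ0 : (Nat.card Q : ℂ) ≠ 0 := Chars.card_ne_zero
  have hπs : Function.Surjective π₀ := by
    intro y
    choose Z hZ using fun i a b => BlockChar.res_surjective (M := M) (y i a b)
    let Z' : ∀ i, Matrix (Fin (d i)) (Fin (d i)) ℂ := fun i => Matrix.of fun a b => (Z i a b : ℂ)
    let F : Q → ℂ := fun g => ∑ i, ((d i : ℂ) * (Nat.card Q : ℂ)⁻¹) * (Z' i * ρ i g⁻¹).trace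
    have hF : ∀ g, MemLocalRing M (F g) := fun g => memR_sum _ _ fun i _ =>
      memR_mul (memR_mul (memR_natCast _) (memR_inv_natCast hpM hQ))
        (Chars2.Cyc.memR_trace (Chars2.Cyc.memR_mul_entries (fun a b => memR_of_algInt _) (hρ i _)))
    have key : ∀ j, ∑ g, F g • ρ j g = Z' j := by
      intro j
      simp only [F, Finset.sum_smul]
      rw [Finset.sum_comm, Finset.sum_eq_single j]
      · simp only [mul_smul, ← Finset.smul_sum]
        rw [Chars2.Cyc.coeff_orth_self (ρ j) (hirr j), smul_smul, smul_smul,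
          show (d j : ℂ) * (Nat.card Q : ℂ)⁻¹ * ((Nat.card Q : ℂ) / (d j : ℂ)) = 1 by
            have : (d j : ℂ) ≠ 0 := Nat.cast_ne_zero.2 (hd j).ne'
            field_simp, one_smul]
      · intro i _ hij
        simp only [mul_smul, ← Finset.smul_sum]
        rw [Chars2.Cyc.coeff_orth_ne (ρ j) (ρ i) (hirr j) (hirr i), smul_zero, smul_zero]
        intro heq
        rw [funext (htr j), funext (htr i)] at heq
        exact hij ((Fintype.equivFin (IrrCharacter Q)).symm.injective (Subtype.ext heq)).symm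
      · simp
    refine ⟨∑ g, MonoidAlgebra.single g (res M (F g)), funext fun j => ?_⟩
    ext a b
    rw [map_sum, Finset.sum_apply, Matrix.sum_apply, ← hZ, show (Z j a b : ℂ) = Z' j a b from rfl,
      ← key j, Matrix.sum_apply, res_sum _ _ fun g _ => by
        rw [Matrix.smul_apply, smul_eq_mul]; exact memR_mul (hF g) (hρ j g a b)]
    refine Finset.sum_congr rfl fun g _ => ?_
    rw [Matrix.smul_apply, smul_eq_mul, res_mul (hF g) (hρ j g a b), hπ₀, AlgHom.pi_apply,
      MonoidAlgebra.lift_single, Matrix.smul_apply, smul_eq_mul]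
    rfl
  have hdim : Module.finrank (Res M) (Res M)[Q] =
      Module.finrank (Res M) (Π i, Matrix (Fin (d i)) (Fin (d i)) (Res M)) := by
    rw [Module.finrank_eq_card_basis (MonoidAlgebra.basis Q (Res M)), Module.finrank_pi_fintype]
    simp only [Module.finrank_matrix, Fintype.card_fin, Module.finrank_self, mul_one]
    have h1 := Chars.sum_sq_apply_one (G := Q)
    rw [Nat.card_eq_fintype_card] at h1
    apply Nat.cast_injective (R := ℂ)
    rw [← h1, Nat.cast_sum, ← Equiv.sum_comp (Fintype.equivFin (IrrCharacter Q)).symm]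
    refine Finset.sum_congr rfl fun i _ => ?_
    show ((χ i : IrrCharacter Q) : Q → ℂ) 1 ^ 2 = _
    rw [hd1 i, Nat.cast_mul, sq]
  have hinj : Function.Injective π₀ := by
    have := (LinearMap.injective_iff_surjective_of_finrank_eq_finrank
      (f := π₀.toLinearMap) hdim).2 hπs
    exact this
  obtain ⟨m, hm⟩ := exists_mult π₀ hπs (fun i => inferInstance)
    (fun x hx => by rw [(map_eq_zero_iff π₀ hinj).1 hx]; exact IsNilpotent.zero)
    (MonoidAlgebra.lift (Res M) (Matrix (Fin n) (Fin n) (Res M)) Q σ)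
  have hσ : (MonoidAlgebra.lift (Res M) (Matrix (Fin n) (Fin n) (Res M)) Q σ).toMonoidHom.comp
      (MonoidAlgebra.of (Res M) Q) = σ := MonoidHom.ext fun g => by
    show MonoidAlgebra.lift (Res M) _ Q σ (MonoidAlgebra.single g 1) = _
    rw [MonoidAlgebra.lift_single, one_smul]
  have hval : bchar p M σ = ∑ i, (m i : ℂ) • ((χ i : IrrCharacter Q) : Q → ℂ) := by
    funext g
    have hg : ¬ p ∣ orderOf g := fun h => hQ (h.trans (orderOf_dvd_natCard g))
    rw [← hσ, bchar_eq_sum hpM (MonoidAlgebra.of (Res M) Q) π₀ _ m hm g, Finset.sum_apply]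
    refine Finset.sum_congr rfl fun i _ => ?_
    rw [Pi.smul_apply, smul_eq_mul, ← htr i g]
    congr 1
    refine bchar_reduction hpM (ρ i) (hρ i) _ (fun x a b => ?_) hg
    show π₀ (MonoidAlgebra.single x 1) i a b = _
    rw [hπ₀, AlgHom.pi_apply, MonoidAlgebra.lift_single, one_smul]
    rfl
  rw [hval]
  exact Chars.isGen_sum _ _ fun i _ => Chars.isGen_natCast_smul
    (Chars.isGen_of_isCharacter (Chars.irr_isCharacter _)) _

variable {G : Type u} [Group G] [Fintype G]

open Chars2.SplitBN.BrauerCount in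
/-- The extension of a lifted eigenvalue sum through the `p'`-parts is a generalized character. -/
theorem isGen_bchar_pr (hpM : (p : AlgInt) ∈ M) {n : ℕ}
    (σ : G →* Matrix (Fin n) (Fin n) (Res M)) :
    IsGeneralizedCharacter G fun g => bchar p M σ (pr p g) := by
  classical
  refine Chars.isGen_of_elementary (fun g c => by
    show bchar p M σ (pr p (c * g * c⁻¹)) = _
    rw [pr_conj, bchar_conj]) fun E q hq hE => ?_
  haveI := Fact.mk hq
  obtain ⟨x, hxc, hxq, j, hj⟩ := hE
  obtain ⟨R⟩ : Nonempty (Sylow q E) := inferInstance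
  have hxn : ¬ q ∣ orderOf x := fun h => hq.coprime_iff_not_dvd.1 hxq.symm h
  have hcard : Nat.card (Subgroup.zpowers x) * Nat.card (R : Subgroup E) = Nat.card E := by
    have h1 := Subgroup.card_mul_index (Subgroup.zpowers x)
    rw [hj, Nat.card_zpowers] at h1
    rw [Nat.card_zpowers, R.card_eq_multiplicity, ← h1, Nat.factorization_mul
      (orderOf_pos x).ne' (pow_ne_zero _ hq.ne_zero), Finsupp.add_apply,
      Nat.factorization_eq_zero_of_not_dvd hxn, zero_add, hq.factorization_pow,
      Finsupp.single_eq_same]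
  have hcompl : Subgroup.IsComplement' (Subgroup.zpowers x) (R : Subgroup E) := by
    refine Subgroup.isComplement'_of_coprime hcard ?_
    rw [Nat.card_zpowers, R.card_eq_multiplicity]
    exact Nat.Coprime.pow_right _ hxq
  haveI : (Subgroup.zpowers x).Normal := ⟨fun a ha b => by
    obtain ⟨i, rfl⟩ := Subgroup.mem_zpowers_iff.1 ha
    rw [(Subgroup.mem_center_iff.1 ((Subgroup.center E).zpow_mem hxc i) b), mul_inv_cancel_right]
    exact ⟨i, rfl⟩⟩
  have hdec : ∀ a : E, ∃ (i : ℤ) (r : E), r ∈ (R : Subgroup E) ∧ x ^ i * r = a := fun a => by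
    obtain ⟨y, hy, r, hr, rfl⟩ := Subgroup.mem_sup_of_normal_left.1
      (show a ∈ Subgroup.zpowers x ⊔ (R : Subgroup E) by
        rw [hcompl.sup_eq_top]; exact Subgroup.mem_top a)
    obtain ⟨i, rfl⟩ := Subgroup.mem_zpowers_iff.1 hy
    exact ⟨i, r, hr, rfl⟩
  set K := regExp p G with hK
  have hr : ∀ r ∈ (R : Subgroup E), r ^ K = if q = p then 1 else r := by
    intro r hr
    obtain ⟨t, ht⟩ := R.isPGroup' ⟨r, hr⟩
    have ht' : (r : G) ^ q ^ t = 1 := by
      have := congrArg (fun y : (R : Subgroup E) => ((y : E) : G)) ht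
      simpa using this
    obtain ⟨l, -, hl⟩ := (Nat.dvd_prime_pow hq).1 (orderOf_dvd_of_pow_eq_one ht')
    apply Subtype.ext
    show (r : G) ^ K = _
    split_ifs with hqp
    · subst hqp
      have h2 : (r : G) ^ q ^ (Nat.card G).factorization q = 1 :=
        orderOf_dvd_iff_pow_eq_one.1 (hl ▸ pow_dvd_pow q
          ((hq.pow_dvd_iff_le_factorization Nat.card_pos.ne').1
            (hl ▸ orderOf_dvd_natCard (r : G))))
      rw [pow_eq_of_modEq h2 (regExp_spec q (G := G)).1, pow_zero]
      rfl
    · have hc : (orderOf (r : G)).Coprime p := by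
        rw [hl]; exact Nat.Coprime.pow_left _ ((Nat.coprime_primes hq Fact.out).2 hqp)
      rw [pow_eq_of_modEq (pow_ordCompl_of_coprime p hc) (regExp_spec p (G := G)).2, pow_one]
  have hxK : ∀ (i : ℤ) (r : E), r ∈ (R : Subgroup E) →
      (x ^ i * r) ^ K = (x ^ i) ^ K * (if q = p then 1 else r) := fun i r hrR => by
    have : Commute (x ^ i) r :=
      (Subgroup.mem_center_iff.1 ((Subgroup.center E).zpow_mem hxc i) r).symm
    rw [this.mul_pow, hr r hrR]
  let prE : E →* E :=
    { toFun := fun a => a ^ K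
      map_one' := one_pow K
      map_mul' := fun a b => by
        obtain ⟨i, r, hrR, rfl⟩ := hdec a
        obtain ⟨i', r', hrR', rfl⟩ := hdec b
        have hc1 : Commute (x ^ i') r :=
          (Subgroup.mem_center_iff.1 ((Subgroup.center E).zpow_mem hxc i') r).symm
        have hc2 : ∀ (v : E), Commute ((x ^ i') ^ K) v := fun v =>
          (Subgroup.mem_center_iff.1
            ((Subgroup.center E).pow_mem ((Subgroup.center E).zpow_mem hxc i') K) v).symm
        rw [hxK i r hrR, hxK i' r' hrR',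
          show x ^ i * r * (x ^ i' * r') = x ^ (i + i') * (r * r') by
            rw [_root_.zpow_add, mul_assoc (x ^ i) r, ← mul_assoc r, ← hc1.eq]; group,
          hxK _ _ (mul_mem hrR hrR'), _root_.zpow_add,
          ((Commute.refl x).zpow_zpow i i').mul_pow, mul_assoc, mul_assoc, ← mul_assoc _ ((x ^ i') ^ K),
          ← (hc2 _).eq]
        split_ifs
        · simp [(hc2 ((x ^ i) ^ K)).eq]
        · rw [← mul_assoc r, ← (hc2 r).eq, mul_assoc ((x ^ i') ^ K) r, ← mul_assoc ((x ^ i') ^ K),
            (hc2 ((x ^ i) ^ K)).eq]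
          simp only [mul_assoc] }
  haveI : Fintype prE.range := Fintype.ofFinite _
  have hQ : ¬ p ∣ Nat.card prE.range := by
    intro hd
    obtain ⟨⟨y, a, rfl⟩, hy⟩ := exists_prime_orderOf_dvd_card' (G := prE.range) p hd
    rw [← Subgroup.orderOf_coe, ← Subgroup.orderOf_coe] at hy
    have h1 := pr_coprime p ((a : G))
    rw [pr] at h1
    rw [show ((prE a : E) : G) = (a : G) ^ K from rfl] at hy
    rw [hy] at h1
    exact (Fact.out : p.Prime).ne_one ((Nat.coprime_self p).1 h1)
  have h := Chars.isGen_comp (isGen_bchar_of_coprime hpM hQ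
    ((σ.comp E.subtype).comp prE.range.subtype)) prE.rangeRestrict
  convert h using 1
  funext a
  show bchar p M σ (pr p (a : G)) = bchar p M _ (prE.rangeRestrict a)
  rw [bchar_comp _ _ (Subgroup.orderOf_coe _), bchar_comp σ _ (Subgroup.orderOf_coe _)]
  rfl

/-- The irreducible Brauer characters of a block. -/
theorem exists_ibr_full (hpM : (p : AlgInt) ∈ M) {B : Set (IrrCharacter G)} (hB : IsPBlock M B) :
    ∃ (φ : Fin (blockRank p B) → G → ℂ) (d : Fin (blockRank p B) → ℕ)
      (m : IrrCharacter G → Fin (blockRank p B) → ℕ) (z : Fin (blockRank p B) → IrrCharacter G → ℤ),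
      (∀ i g, p ∣ orderOf g → φ i g = 0) ∧ (∀ i, φ i 1 = d i ∧ 0 < d i) ∧
      (∀ i g c, φ i (c * g * c⁻¹) = φ i g) ∧
      LinearIndependent ℂ φ ∧
      (∀ χ ∈ B, pRegularPart p (χ : G → ℂ) = ∑ i, (m χ i : ℂ) • φ i) ∧
      (∀ i, φ i = ∑ χ ∈ bf B, (z i χ : ℂ) • pRegularPart p (χ : G → ℂ)) ∧
      (∀ i, ∃ (n : ℕ) (σ : G →* Matrix (Fin n) (Fin n) (Res M)), φ i = bchar p M σ ∧
        MonoidAlgebra.lift (Res M) (Matrix (Fin n) (Fin n) (Res M)) G σ (idemG M B) = 1) ∧
      ∀ (n : ℕ) (σ : G →* Matrix (Fin n) (Fin n) (Res M)),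
        MonoidAlgebra.lift (Res M) (Matrix (Fin n) (Fin n) (Res M)) G σ (idemG M B) = 1 →
        ∃ N : Fin (blockRank p B) → ℕ, bchar p M σ = ∑ i, (N i : ℂ) • φ i := by
  classical
  haveI := charP_res (p := p) hpM
  set k := Res M
  set b := idemG M B with hb
  have hbb : IsBlk (⊤ : Subgroup G) b := isBlk_idemG hpM hB
  have hcomm : ∀ r : k[G], b * r = r * b := fun r =>
    hbb.central.comm (fun g hg => absurd (Subgroup.mem_top g) hg)
  haveI : (TwoChars.annOf b).IsTwoSided := ⟨fun {x} r hx => by
    rw [TwoChars.mem_annOf] at hx ⊢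
    rw [mul_assoc, ← hcomm r, ← mul_assoc, hx, zero_mul]⟩
  set R := k[G] ⧸ TwoChars.annOf b with hR
  set q := Ideal.Quotient.mkₐ k (TwoChars.annOf b) with hq
  have hqs : Function.Surjective q := Ideal.Quotient.mk_surjective
  have hq0 : ∀ x, q x = 0 ↔ x * b = 0 := fun x => Ideal.Quotient.eq_zero_iff_mem
  have hqb : q b = 1 := by
    rw [← sub_eq_zero, ← map_one q, ← map_sub, hq0, sub_mul, one_mul, hbb.idem, sub_self]
  haveI : Module.Finite k R := Module.Finite.of_surjective q.toLinearMap hqs
  haveI : IsArtinianRing R := IsArtinianRing.of_finite k R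
  haveI : IsSemisimpleRing (R ⧸ Ring.jacobson R) := IsSemiprimaryRing.isSemisimpleRing
  obtain ⟨s, d, hd, ⟨ee⟩⟩ :=
    IsSemisimpleRing.exists_algEquiv_pi_matrix_of_isAlgClosed k (R ⧸ Ring.jacobson R)
  haveI := hd
  set π : R →ₐ[k] Π i, Matrix (Fin (d i)) (Fin (d i)) k :=
    ee.toAlgHom.comp (Ideal.Quotient.mkₐ k (Ring.jacobson R)) with hπ
  have hπs : Function.Surjective π := fun y => by
    obtain ⟨r, hr⟩ := Ideal.Quotient.mk_surjective (ee.symm y)
    exact ⟨r, by simp [hπ, hr]⟩
  obtain ⟨nJ, hnJ⟩ : IsNilpotent (Ring.jacobson R) := IsSemiprimaryRing.isNilpotent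
  have hnil : ∀ r, π r = 0 → IsNilpotent r := fun r hr => ⟨nJ, by
    have h := Ideal.pow_mem_pow (Ideal.Quotient.eq_zero_iff_mem.1
      (ee.injective (by simpa [hπ] using hr) : Ideal.Quotient.mk (Ring.jacobson R) r = 0)) nJ
    rw [hnJ] at h
    simpa using h⟩
  set f : G →* R := q.toMonoidHom.comp (MonoidAlgebra.of k G) with hf
  set σ : ∀ i, G →* Matrix (Fin (d i)) (Fin (d i)) k := fun i =>
    ((Pi.evalAlgHom k (fun i => Matrix (Fin (d i)) (Fin (d i)) k) i).comp π).toMonoidHom.comp f
    with hσ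
  set φ : Fin s → G → ℂ := fun i => bchar p M (σ i) with hφ
  have hfac : ∀ (n : ℕ) (τ : G →* Matrix (Fin n) (Fin n) k),
      MonoidAlgebra.lift k (Matrix (Fin n) (Fin n) k) G τ b = 1 →
      ∃ N : Fin s → ℕ, bchar p M τ = ∑ i, (N i : ℂ) • φ i := by
    intro n τ hb1
    set Φ₀ := MonoidAlgebra.lift k (Matrix (Fin n) (Fin n) k) G τ with hΦ₀
    set Ψ : R →ₐ[k] Matrix (Fin n) (Fin n) k := Ideal.Quotient.liftₐ (TwoChars.annOf b) Φ₀
      (fun x hx => by
        rw [TwoChars.mem_annOf] at hx
        rw [← mul_one (Φ₀ x), ← hb1, ← map_mul, hx, map_zero]) with hΨ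
    obtain ⟨m, hm⟩ := exists_mult π hπs hd hnil Ψ
    refine ⟨m, funext fun g => ?_⟩
    have hτ : Ψ.toMonoidHom.comp f = τ := MonoidHom.ext fun x => by
      show Φ₀ (MonoidAlgebra.single x 1) = _
      rw [hΦ₀, MonoidAlgebra.lift_single, one_smul]
    rw [Finset.sum_apply, ← hτ]
    simp only [Pi.smul_apply, smul_eq_mul]
    exact bchar_eq_sum hpM f π Ψ m hm g
  have hσb : ∀ i, MonoidAlgebra.lift k (Matrix (Fin (d i)) (Fin (d i)) k) G (σ i) b = 1 := by
    intro i
    have h1 : MonoidAlgebra.lift k (Matrix (Fin (d i)) (Fin (d i)) k) G (σ i) =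
        ((Pi.evalAlgHom k (fun i => Matrix (Fin (d i)) (Fin (d i)) k) i).comp π).comp q :=
      MonoidAlgebra.algHom_ext (fun g => by
        rw [MonoidAlgebra.lift_single, one_smul]
        rfl) (Subsingleton.elim _ _)
    rw [h1, AlgHom.comp_apply, hqb, map_one]
  -- decomposition
  have hdec : ∀ χ ∈ B, ∃ m : Fin s → ℕ,
      pRegularPart p (χ : G → ℂ) = ∑ i, (m i : ℂ) • φ i := by
    intro χ hχ
    obtain ⟨n, ρ, hn, h1, htr, hρ, hs⟩ := exists_locRep hpM χ.2
    set Φ₀ := MonoidAlgebra.lift k (Matrix (Fin n) (Fin n) k) G (redHom ρ hρ) with hΦ₀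
    have hb1 : Φ₀ b = 1 := by
      have hER : RFun M (blockCoeff B) := rFun_blockCoeff hpM hB
      have hexp : b = ∑ g, b.coeff g • MonoidAlgebra.single g (1 : k) := by
        ext a
        simp [MonoidAlgebra.coeff_sum, Finsupp.single_apply]
      rw [hexp, map_sum]
      ext i j
      rw [Matrix.sum_apply]
      have hact := act_eq_omega ρ htr hs hn h1 (isClassFunction_blockCoeff B)
      rw [omega_blockCoeff_mem hχ, one_smul] at hact
      calc ∑ g, (Φ₀ (b.coeff g • MonoidAlgebra.single g (1 : k))) i j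
          = ∑ g, res M (blockCoeff B g) * res M (ρ g i j) :=
            Finset.sum_congr rfl fun g _ => by
              rw [map_smul, hΦ₀, MonoidAlgebra.lift_single, one_smul, Matrix.smul_apply,
                smul_eq_mul, hb, show (idemG M B).coeff g = res M (blockCoeff B g) from
                  coeff_red (ι := MonoidHom.id G) Function.injective_id _ g]
              rfl
        _ = res M (∑ g, blockCoeff B g * ρ g i j) := by
            rw [res_sum _ _ fun g _ => memR_mul (hER g) (hρ g i j)]
            exact Finset.sum_congr rfl fun g _ => (res_mul (hER g) (hρ g i j)).symm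
        _ = _ := by
            rw [← act_apply, hact]
            by_cases hij : i = j
            · subst hij; rw [Matrix.one_apply_eq, Matrix.one_apply_eq, res_one]
            · rw [Matrix.one_apply_ne hij, Matrix.one_apply_ne hij, res_zero]
    obtain ⟨m, hm⟩ := hfac n (redHom ρ hρ) hb1
    refine ⟨m, funext fun g => ?_⟩
    rw [← hm]
    by_cases hg : p ∣ orderOf g
    · rw [bchar_of_dvd _ hg]; simp [pRegularPart, IsPRegular, hg]
    · rw [bchar_reduction hpM ρ hρ (redHom ρ hρ) (fun x i j => rfl) hg, htr]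
      simp [pRegularPart, IsPRegular, hg]
  -- traces
  set T : Fin s → k[G] →ₗ[k] k := fun i =>
    (Matrix.traceLinearMap (Fin (d i)) k k).comp
      ((LinearMap.proj i).comp (π.comp q).toLinearMap) with hT
  have hTa : ∀ i x, T i x = Matrix.trace (π (q x) i) := fun i x => rfl
  have hTi : LinearIndependent k T := by
    rw [Fintype.linearIndependent_iff]
    intro c hc i
    obtain ⟨r, hr⟩ := hπs fun j => Matrix.single (0 : Fin (d j)) 0
      (if j = i then (1 : k) else 0)
    obtain ⟨x, rfl⟩ := hqs r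
    have h1 := LinearMap.congr_fun hc x
    simp only [LinearMap.coe_sum, Finset.sum_apply, LinearMap.smul_apply, hTa, hr,
      Matrix.trace_single_eq_same, smul_eq_mul, mul_ite, mul_one, mul_zero,
      Finset.sum_ite_eq', Finset.mem_univ, if_true, LinearMap.zero_apply] at h1
    exact h1
  have hTs : ∀ i (u t : G), Commute u t → (∃ m : ℕ, u ^ p ^ m = 1) →
      T i (MonoidAlgebra.single (u * t) 1) = T i (MonoidAlgebra.single t 1) := by
    intro i u t hut hu
    obtain ⟨m, hm⟩ := hu
    exact BlockSimple.trace_mul_of_pElement (σ i) hut hm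
  have hsl : s ≤ blockRank p B := BlockSimple.card_le_blockRank hpM hB T hTi
    (fun i x => by rw [hTa, hTa, map_mul q, hqb, mul_one])
    (fun i x y => by
      rw [hTa, hTa, map_mul, map_mul, map_mul, map_mul, Pi.mul_apply, Pi.mul_apply,
        Matrix.trace_mul_comm]) hTs
  -- independence
  have hφi : LinearIndependent ℂ φ := by
    refine BlockDim.linearIndependent_of_red φ (fun i g => bchar_memR (σ i) g) ?_
    rw [Fintype.linearIndependent_iff]
    intro c hc i
    refine Fintype.linearIndependent_iff.1 hTi c (LinearMap.ext fun x => ?_) i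
    have hreg : ∀ t : G, ¬ p ∣ orderOf t →
        ∑ j, c j * T j (MonoidAlgebra.single t 1) = 0 := by
      intro t ht
      have h1 := congrArg (fun w : k[G] => w.coeff t) hc
      simp only [MonoidAlgebra.coeff_sum, Finsupp.finsetSum_apply, MonoidAlgebra.coeff_smul,
        Finsupp.smul_apply, MonoidAlgebra.coeff_zero, Finsupp.coe_zero, Pi.zero_apply] at h1
      refine Eq.trans (Finset.sum_congr rfl fun j _ => ?_) h1
      rw [show (red M (MonoidHom.id G) (φ j)).coeff t = res M (φ j t) from
        coeff_red (ι := MonoidHom.id G) Function.injective_id _ t, hφ, res_bchar _ hpM ht,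
        smul_eq_mul]
      rfl
    have hx : x = ∑ g, x.coeff g • MonoidAlgebra.single g (1 : k) := by
      ext a
      simp [MonoidAlgebra.coeff_sum, Finsupp.single_apply]
    rw [hx]
    simp only [LinearMap.coe_sum, Finset.sum_apply, LinearMap.smul_apply, LinearMap.zero_apply,
      map_sum, map_smul, smul_eq_mul, Finset.mul_sum]
    refine Finset.sum_congr rfl fun g _ => ?_
    congr 1
    obtain ⟨y, hy1, hy2, ⟨m, hm⟩, hy4⟩ := isPPart_ppart (p := p) g
    rw [← hy1, Finset.sum_congr rfl fun j _ => by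
        rw [hTs j _ y hy2 ⟨m, by rw [← hm]; exact pow_orderOf_eq_one _⟩],
      hreg y hy4]
  choose m hm using hdec
  set V := Submodule.span ℂ ((fun χ : IrrCharacter G => pRegularPart p (χ : G → ℂ)) '' B) with hV
  have hVle : V ≤ Submodule.span ℂ (Set.range φ) := by
    rw [hV, Submodule.span_le]
    rintro _ ⟨χ, hχ, rfl⟩
    show pRegularPart p (χ : G → ℂ) ∈ _
    rw [hm χ hχ]
    exact Submodule.sum_mem _ fun i _ =>
      Submodule.smul_mem _ _ (Submodule.subset_span (Set.mem_range_self i))
  have hspan : Module.finrank ℂ (Submodule.span ℂ (Set.range φ)) = s := by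
    rw [finrank_span_eq_card hφi, Fintype.card_fin]
  have hls : blockRank p B ≤ s := hspan ▸ Submodule.finrank_mono hVle
  obtain rfl : s = blockRank p B := le_antisymm hsl hls
  have hVeq : V = Submodule.span ℂ (Set.range φ) :=
    Submodule.eq_of_le_of_finrank_le hVle (le_of_eq hspan)
  have hz : ∀ i, ∃ z : IrrCharacter G → ℤ,
      φ i = ∑ χ ∈ bf B, (z χ : ℂ) • pRegularPart p (χ : G → ℂ) := by
    intro i
    set θ : G → ℂ := fun g => bchar p M (σ i) (Chars2.SplitBN.BrauerCount.pr p g) with hθ
    have hgen : IsGeneralizedCharacter G θ := isGen_bchar_pr hpM (σ i)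
    choose z hz using fun χ : IrrCharacter G => Chars.exists_classInner_eq_int hgen
      (Chars.isGen_of_isCharacter (Chars.irr_isCharacter χ))
    have hexp := Chars.eq_sum_classInner (Chars.isClassFunction_of_isGen hgen)
    simp only [hz] at hexp
    have hall : φ i = ∑ χ : IrrCharacter G, (z χ : ℂ) • pRegularPart p (χ : G → ℂ) := by
      funext g
      rw [Finset.sum_apply]
      by_cases hg : p ∣ orderOf g
      · rw [show φ i g = 0 from bchar_of_dvd _ hg]
        simp [pRegularPart, IsPRegular, hg]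
      · have h1 := congrFun hexp g
        rw [Finset.sum_apply, hθ] at h1
        have hcop : (orderOf g).Coprime p :=
          ((Fact.out : p.Prime).coprime_iff_not_dvd.2 hg).symm
        rw [show φ i g = bchar p M (σ i) g from rfl]
        simp only [Chars2.SplitBN.BrauerCount.pr_of_coprime p hcop] at h1
        rw [h1]
        simp [pRegularPart, IsPRegular, hg]
    refine ⟨z, ?_⟩
    set w := φ i - ∑ χ ∈ bf B, (z χ : ℂ) • pRegularPart p (χ : G → ℂ) with hw
    have hwV : w ∈ V := by
      refine V.sub_mem (hVeq ▸ Submodule.subset_span (Set.mem_range_self i)) ?_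
      exact Submodule.sum_mem _ fun χ hχ => Submodule.smul_mem _ _
        (Submodule.subset_span ⟨χ, mem_bf.1 hχ, rfl⟩)
    have hwout : w = ∑ χ ∈ Finset.univ \ bf B, (z χ : ℂ) • pRegularPart p (χ : G → ℂ) := by
      rw [hw, hall, ← Finset.sum_sdiff (Finset.subset_univ (bf B)), add_sub_cancel_right]
    have horth : ∀ v ∈ V, ∑ g, w g * conj (v g) = 0 := by
      intro v hv
      induction hv using Submodule.span_induction with
      | mem v hv =>
        obtain ⟨ψ, hψ, rfl⟩ := hv
        rw [hwout]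
        simp only [Finset.sum_apply, Pi.smul_apply, smul_eq_mul, Finset.sum_mul]
        rw [Finset.sum_comm]
        refine Finset.sum_eq_zero fun χ hχ => ?_
        have h0 := regInner_eq_zero hpM (χ := χ) (ψ := ψ) fun h =>
          (Finset.mem_sdiff.1 hχ).2 (mem_bf.2 (mem_of_sameBlock hB hψ (fun g => by
            have := memI_neg (h g); rwa [neg_sub] at this)))
        rw [regInner, mul_eq_zero, or_iff_right (inv_ne_zero Chars.card_ne_zero)] at h0
        have : ∑ g, pRegularPart p (χ : G → ℂ) g * conj (pRegularPart p (ψ : G → ℂ) g) = 0 := by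
          rw [← h0, regs, Finset.sum_filter]
          refine Finset.sum_congr rfl fun g _ => ?_
          by_cases hg : p ∣ orderOf g <;> simp [pRegularPart, IsPRegular, hg]
        simp only [mul_assoc, ← Finset.mul_sum, this, mul_zero]
      | zero => simp
      | add a b _ _ iha ihb =>
        simp only [Pi.add_apply, map_add, mul_add, Finset.sum_add_distrib, iha, ihb, add_zero]
      | smul c a _ iha =>
        simp only [Pi.smul_apply, smul_eq_mul, map_mul, mul_left_comm _ (conj c), ← Finset.mul_sum,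
          iha, mul_zero]
    have h0 := horth w hwV
    have : w = 0 := by
      funext g
      have hre : ∑ x, Complex.normSq (w x) = 0 := by
        apply Complex.ofReal_injective
        push_cast
        simpa [Complex.mul_conj] using h0
      exact Complex.normSq_eq_zero.1 ((Finset.sum_eq_zero_iff_of_nonneg
        fun x _ => Complex.normSq_nonneg _).1 hre g (Finset.mem_univ g))
    rwa [hw, sub_eq_zero] at this
  choose z hz using hz
  refine ⟨φ, d, fun χ i => if hχ : χ ∈ B then m χ hχ i else 0, z,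
    fun i g hg => bchar_of_dvd _ hg, fun i => ⟨bchar_one _, Nat.pos_of_ne_zero (hd i).out⟩,
    fun i g c => bchar_conj _ c g, hφi, fun χ hχ => ?_, hz, fun i => ⟨d i, σ i, rfl, hσb i⟩, hfac⟩
  rw [hm χ hχ]
  exact Finset.sum_congr rfl fun i _ => by simp [dif_pos hχ]

/-- The irreducible Brauer characters of a block. -/
theorem exists_ibr (hpM : (p : AlgInt) ∈ M) {B : Set (IrrCharacter G)} (hB : IsPBlock M B) :
    ∃ (φ : Fin (blockRank p B) → G → ℂ) (d : Fin (blockRank p B) → ℕ)
      (m : IrrCharacter G → Fin (blockRank p B) → ℕ) (z : Fin (blockRank p B) → IrrCharacter G → ℤ),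
      (∀ i g, p ∣ orderOf g → φ i g = 0) ∧ (∀ i, φ i 1 = d i ∧ 0 < d i) ∧
      (∀ i g c, φ i (c * g * c⁻¹) = φ i g) ∧
      LinearIndependent ℂ φ ∧
      (∀ χ ∈ B, pRegularPart p (χ : G → ℂ) = ∑ i, (m χ i : ℂ) • φ i) ∧
      ∀ i, φ i = ∑ χ ∈ bf B, (z i χ : ℂ) • pRegularPart p (χ : G → ℂ) := by
  obtain ⟨φ, d, m, z, h1, h2, h3, h4, h5, h6, -, -⟩ := exists_ibr_full hpM hB
  exact ⟨φ, d, m, z, h1, h2, h3, h4, h5, h6⟩

end Cfsg.Agent.Blocks.BrauerBlock
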