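import Mathlib

/-!
# Linear algebra for the Brauer–Feit theorem

Reducible step, scalars, simultaneous eigencharacters.
-/

namespace Cfsg.Agent.BrauerFeit

open Module
open scoped commutatorElement

set_option linter.style.haveILetI false

universe u v

/-- A `p`-group whose order divides `|G|` has order at most `p ^ m`. -/
theorem card_pgroup_le {p m : ℕ} [hp : Fact p.Prime] {G X : Type*} [Group G] [Finite G]
    [Group X] [Finite X] (hX : IsPGroup p X) (hdvd : Nat.card X ∣ Nat.card G)
    (hm : (Nat.card G).factorization p ≤ m) : Nat.card X ≤ p ^ m := by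
  obtain ⟨k, hk⟩ := IsPGroup.iff_card.1 hX
  rw [hk] at hdvd ⊢
  refine Nat.pow_le_pow_right hp.out.pos (le_trans ?_ hm)
  exact (hp.out.pow_dvd_iff_le_factorization Nat.card_pos.ne').1 hdvd

/-- `Good p m n b`: the bound `b` works in dimension `n`. -/
def Good (p m n b : ℕ) : Prop :=
  ∀ (G : Type u) [Group G] [Finite G] (K : Type v) [Field K] [IsAlgClosed K] [CharP K p]
    (V : Type v) [AddCommGroup V] [Module K V] [FiniteDimensional K V]
    (π : G →* Module.End K V), Function.Injective π → finrank K V = n →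
    (Nat.card G).factorization p ≤ m → ∃ A : Subgroup G, A.Normal ∧ IsMulCommutative A ∧ A.index ≤ b

variable {G : Type u} [Group G] [Finite G] {K : Type v} [Field K]
variable {V : Type v} [AddCommGroup V] [Module K V] [FiniteDimensional K V]

theorem exists_of_hom {p m n' b : ℕ} [Fact p.Prime] [IsAlgClosed K] [CharP K p]
    (hgood : Good.{u, v} p m n' b) (hm : (Nat.card G).factorization p ≤ m)
    (π : G →* Module.End K V) (hn : finrank K V = n') :
    ∃ A : Subgroup G, A.Normal ∧ A.index ≤ b ∧ ∀ x ∈ A, ∀ y ∈ A, π ⁅x, y⁆ = 1 := by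
  classical
  let πq : G ⧸ π.ker →* Module.End K V := QuotientGroup.lift π.ker π le_rfl
  have hinj : Function.Injective πq := by
    intro a b hab
    induction a using QuotientGroup.induction_on with
    | H x =>
    induction b using QuotientGroup.induction_on with
    | H y =>
      have hxy : π x = π y := hab
      rw [QuotientGroup.eq, MonoidHom.mem_ker, map_mul, ← hxy, ← map_mul, inv_mul_cancel, map_one]
  have hm' : (Nat.card (G ⧸ π.ker)).factorization p ≤ m :=
    le_trans ((Nat.factorization_le_iff_dvd Nat.card_pos.ne' Nat.card_pos.ne').2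
      (Subgroup.card_quotient_dvd_card π.ker) p) hm
  obtain ⟨A, hA, hAc, hAi⟩ := hgood (G ⧸ π.ker) K V πq hinj hn hm'
  refine ⟨A.comap (QuotientGroup.mk' π.ker), hA.comap _, ?_, fun x hx y hy => ?_⟩
  · rwa [Subgroup.index_comap_of_surjective _ (QuotientGroup.mk'_surjective _)]
  · have : ⁅QuotientGroup.mk' π.ker x, QuotientGroup.mk' π.ker y⁆ = 1 :=
      commutatorElement_eq_one_iff_mul_comm.2
        (congrArg Subtype.val (hAc.is_comm.comm ⟨_, hx⟩ ⟨_, hy⟩))
    rw [← map_commutatorElement] at this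
    exact (MonoidHom.mem_ker).1 ((QuotientGroup.eq_one_iff _).1 this)

omit [FiniteDimensional K V] in
theorem one_add_pow {N : Module.End K V} (hN : N * N = 0) (k : ℕ) :
    (1 + N) ^ k = 1 + (k : K) • N := by
  induction k with
  | zero => simp
  | succ k ih =>
    rw [pow_succ, ih, add_mul, one_mul, smul_mul_assoc, mul_add, mul_one, hN, add_zero,
      Nat.cast_succ, add_smul, one_smul]
    abel

/-- The reducible step. -/
theorem good_of_invariant {p m n b : ℕ} [hp : Fact p.Prime] [IsAlgClosed K] [CharP K p]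
    (hgood : ∀ n' < n, ∃ b' ≤ b, Good.{u, v} p m n' b')
    (π : G →* Module.End K V) (hπ : Function.Injective π) (hn : finrank K V = n)
    (hm : (Nat.card G).factorization p ≤ m) (W : Submodule K V) (hW0 : W ≠ ⊥) (hW1 : W ≠ ⊤)
    (hW : ∀ g : G, ∀ w ∈ W, π g w ∈ W) :
    ∃ A : Subgroup G, A.Normal ∧ IsMulCommutative A ∧
      A.index ≤ b ^ 2 * (p ^ m).factorial * p ^ m := by
  classical
  let π₁ : G →* Module.End K W :=
    { toFun := fun g => (π g).restrict (hW g)
      map_one' := by ext w; simp [LinearMap.restrict_apply]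
      map_mul' := fun g h => by ext w; simp [LinearMap.restrict_apply] }
  let π₂ : G →* Module.End K (V ⧸ W) :=
    { toFun := fun g => W.mapQ W (π g) (fun w hw => hW g w hw)
      map_one' := by ext w; simp
      map_mul' := fun g h => by ext w; simp }
  obtain ⟨b₁, hb₁, hg₁⟩ := hgood (finrank K W) (by rw [← hn]; exact Submodule.finrank_lt hW1)
  obtain ⟨b₂, hb₂, hg₂⟩ := hgood (finrank K (V ⧸ W)) (by
    rw [← hn, ← Submodule.finrank_quotient_add_finrank W]
    have : 0 < finrank K W := Nat.pos_of_ne_zero fun h => hW0 (Submodule.finrank_eq_zero.1 h)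
    omega)
  obtain ⟨A₁, hA₁, hi₁, hc₁⟩ := exists_of_hom hg₁ hm π₁ rfl
  obtain ⟨A₂, hA₂, hi₂, hc₂⟩ := exists_of_hom hg₂ hm π₂ rfl
  let U : Subgroup G := π₁.ker ⊓ π₂.ker
  have hUp : ∀ u ∈ U, u ^ p = 1 := by
    intro u hu
    apply hπ
    have hN : (π u - 1) * (π u - 1) = 0 := by
      ext v
      have h2 : π u v - v ∈ W := by
        have := LinearMap.congr_fun (MonoidHom.mem_ker.1 hu.2) (Submodule.Quotient.mk v)
        simp only [π₂, MonoidHom.coe_mk, OneHom.coe_mk, Submodule.mapQ_apply,
          Module.End.one_apply, Submodule.Quotient.eq] at this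
        exact this
      have h1 := LinearMap.congr_fun (MonoidHom.mem_ker.1 hu.1) ⟨_, h2⟩
      simp only [π₁, MonoidHom.coe_mk, OneHom.coe_mk, Module.End.one_apply,
        LinearMap.restrict_apply, Subtype.ext_iff] at h1
      simp only [Module.End.mul_apply, LinearMap.sub_apply, Module.End.one_apply,
        LinearMap.zero_apply]
      rw [h1, sub_self]
    have := one_add_pow hN p
    rw [CharP.cast_eq_zero, zero_smul, add_zero, add_sub_cancel] at this
    rw [map_pow, map_one, this]
  have hUpg : IsPGroup p U := fun u => ⟨1, by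
    apply Subtype.ext; simpa using hUp u u.2⟩
  haveI hUn : U.Normal := inferInstanceAs (π₁.ker ⊓ π₂.ker).Normal
  have hUcard : Nat.card U ≤ p ^ m := card_pgroup_le hUpg (Subgroup.card_subgroup_dvd_card U) hm
  -- the centraliser of U
  let φ : G →* MulAut U := MulAut.conjNormal
  have hφi : φ.ker.index ≤ (p ^ m).factorial := by
    rw [Subgroup.index_ker]
    refine le_trans (le_trans (Nat.card_le_card_of_injective (fun e => (e.1.toEquiv : Equiv.Perm U))
      ?_) (le_of_eq Nat.card_perm)) (Nat.factorial_le hUcard)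
    intro a b hab
    exact Subtype.ext (MulEquiv.ext fun x => Equiv.congr_fun hab x)
  haveI := hA₁; haveI := hA₂
  let C : Subgroup G := A₁ ⊓ A₂ ⊓ φ.ker
  haveI hCn : C.Normal := inferInstanceAs (A₁ ⊓ A₂ ⊓ φ.ker).Normal
  have hCU : ∀ c ∈ C, ∀ u ∈ U, c * u = u * c := by
    intro c hc u hu
    have := congrArg Subtype.val (MulEquiv.congr_fun (MonoidHom.mem_ker.1 hc.2) ⟨u, hu⟩)
    simp only [φ, MulAut.conjNormal_apply, MulAut.one_apply] at this
    exact mul_inv_eq_iff_eq_mul.1 this
  let A : Subgroup G := C ⊓ Subgroup.centralizer (C : Set G)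
  haveI hAn : A.Normal := by
    haveI : (Subgroup.centralizer (C : Set G)).Normal := by
      constructor
      intro z hz g
      rw [Subgroup.mem_centralizer_iff] at hz ⊢
      intro y hy
      have := hz (g⁻¹ * y * g) (by simpa using hCn.conj_mem y hy g⁻¹)
      calc y * (g * z * g⁻¹) = g * (g⁻¹ * y * g * z) * g⁻¹ := by group
        _ = g * (z * (g⁻¹ * y * g)) * g⁻¹ := by rw [this]
        _ = g * z * g⁻¹ * y := by group
    exact inferInstanceAs (C ⊓ Subgroup.centralizer (C : Set G)).Normal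
  refine ⟨A, hAn, ⟨⟨fun x y => Subtype.ext ((Subgroup.mem_centralizer_iff.1 y.2.2) x.1 x.2.1)⟩⟩, ?_⟩
  have hpow : ∀ c ∈ C, c ^ p ∈ A := by
    intro c hc
    refine ⟨C.pow_mem hc p, Subgroup.mem_centralizer_iff.2 fun d hd => ?_⟩
    have hzU : ⁅c, d⁆ ∈ U := ⟨MonoidHom.mem_ker.2 (hc₁ c hc.1.1 d hd.1.1),
      MonoidHom.mem_ker.2 (hc₂ c hc.1.2 d hd.1.2)⟩
    have hzc : c * ⁅c, d⁆ = ⁅c, d⁆ * c := hCU c hc _ hzU
    have hk : ∀ k : ℕ, c ^ k * d = ⁅c, d⁆ ^ k * d * c ^ k := by
      intro k
      induction k with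
      | zero => simp
      | succ k ih =>
        have hzk : Commute c (⁅c, d⁆ ^ k) := (show Commute c ⁅c, d⁆ from hzc).pow_right k
        have hcd : c * d = ⁅c, d⁆ * d * c := by simp [commutatorElement_def, mul_assoc]
        calc c ^ (k + 1) * d = c * (c ^ k * d) := by rw [pow_succ', mul_assoc]
          _ = (c * ⁅c, d⁆ ^ k) * d * c ^ k := by rw [ih]; simp [mul_assoc]
          _ = ⁅c, d⁆ ^ k * (c * d) * c ^ k := by rw [hzk.eq]; simp [mul_assoc]
          _ = ⁅c, d⁆ ^ (k + 1) * d * c ^ (k + 1) := by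
            rw [hcd, pow_succ, pow_succ' c k]; simp [mul_assoc]
    rw [hk p, hUp _ hzU, one_mul]
  have hrel : A.relIndex C ≤ p ^ m := by
    haveI : (A.subgroupOf C).Normal := hAn.subgroupOf C
    refine card_pgroup_le (X := C ⧸ A.subgroupOf C) ?_ ?_ hm
    · intro x
      induction x using QuotientGroup.induction_on with
      | H c => exact ⟨1, by
          rw [pow_one, ← QuotientGroup.mk_pow, QuotientGroup.eq_one_iff]
          exact hpow c c.2⟩
    · exact (Subgroup.card_quotient_dvd_card _).trans (Subgroup.card_subgroup_dvd_card C)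
  have hCi : C.index ≤ b ^ 2 * (p ^ m).factorial := by
    refine le_trans Subgroup.index_inf_le (Nat.mul_le_mul ?_ hφi)
    rw [sq]
    exact le_trans Subgroup.index_inf_le (Nat.mul_le_mul (hi₁.trans hb₁) (hi₂.trans hb₂))
  calc A.index = A.relIndex C * C.index := (Subgroup.relIndex_mul_index inf_le_left).symm
    _ ≤ p ^ m * (b ^ 2 * (p ^ m).factorial) := Nat.mul_le_mul hrel hCi
    _ = _ := by ring

/-- The scalar elements. -/
def scalars (π : G →* Module.End K V) : Subgroup G where
  carrier := {x | ∃ a : K, π x = a • (1 : Module.End K V)}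
  one_mem' := ⟨1, by simp⟩
  mul_mem' := by
    rintro x y ⟨a, ha⟩ ⟨b, hb⟩
    exact ⟨a * b, by rw [map_mul, ha, hb, smul_mul_smul_comm, mul_one]⟩
  inv_mem' := by
    rintro x ⟨a, ha⟩
    refine ⟨a ^ (orderOf x - 1), ?_⟩
    have : x⁻¹ = x ^ (orderOf x - 1) := by
      apply inv_eq_of_mul_eq_one_right
      rw [← pow_succ', Nat.sub_add_cancel (orderOf_pos x), pow_orderOf_eq_one]
    rw [this, map_pow, ha, smul_pow, one_pow]

omit [FiniteDimensional K V] in
theorem scalars_comm {π : G →* Module.End K V} (hπ : Function.Injective π) {z : G}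
    (hz : z ∈ scalars π) (g : G) : g * z = z * g := by
  obtain ⟨a, ha⟩ := hz
  apply hπ
  rw [map_mul, map_mul, ha, mul_smul_comm, mul_one, smul_mul_assoc, one_mul]

omit [FiniteDimensional K V] in
theorem scalars_le_centralizer {π : G →* Module.End K V} (hπ : Function.Injective π) (s : Set G) :
    scalars π ≤ Subgroup.centralizer s :=
  fun _ hz => Subgroup.mem_centralizer_iff.2 fun g _ => scalars_comm hπ hz g

/-- The centraliser of a non-scalar element is reducible. -/
theorem exists_invariant [IsAlgClosed K] (π : G →* Module.End K V) {x : G} (hx : x ∉ scalars π) :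
    ∃ W : Submodule K V, W ≠ ⊥ ∧ W ≠ ⊤ ∧ ∀ g : G, g * x = x * g → ∀ w ∈ W, π g w ∈ W := by
  haveI : Nontrivial V := by
    by_contra h
    rw [not_nontrivial_iff_subsingleton] at h
    exact hx ⟨1, Subsingleton.elim _ _⟩
  obtain ⟨μ, hμ⟩ := Module.End.exists_eigenvalue (π x)
  refine ⟨(π x).eigenspace μ, hμ, fun htop => hx ⟨μ, LinearMap.ext fun v => ?_⟩, ?_⟩
  · have : v ∈ (π x).eigenspace μ := htop ▸ Submodule.mem_top
    simpa using Module.End.mem_eigenspace_iff.1 this
  · intro g hg w hw
    rw [Module.End.mem_eigenspace_iff] at hw ⊢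
    rw [← Module.End.mul_apply, ← map_mul, ← hg, map_mul, Module.End.mul_apply, hw, map_smul]

/-- An element annihilated by an exponent prime to `p` is semisimple. -/
theorem isSemisimple_of_pow {π : G →* Module.End K V} {N : ℕ} (hN : (N : K) ≠ 0) {t : G}
    (ht : t ^ N = 1) : (π t).IsSemisimple := by
  refine Module.End.isSemisimple_of_squarefree_aeval_eq_zero
    (p := Polynomial.X ^ N - Polynomial.C (1 : K)) ?_ ?_
  · exact (Polynomial.separable_X_pow_sub_C (1 : K) hN one_ne_zero).squarefree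
  · rw [map_sub, map_pow, Polynomial.aeval_X, Polynomial.aeval_C, map_one, ← map_pow, ht, map_one,
      sub_self]

/-- The group of elements preserving an abelian diagonalisable subgroup acts on its
eigencharacters with kernel the centraliser. -/
theorem relIndex_centralizer_le [IsAlgClosed K] {n : ℕ} {π : G →* Module.End K V}
    (hπ : Function.Injective π) (hn : finrank K V = n) {N : ℕ} (hN : (N : K) ≠ 0) (T H : Subgroup G)
    (hTc : ∀ s ∈ T, ∀ t ∈ T, s * t = t * s) (hTN : ∀ t ∈ T, t ^ N = 1)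
    (hH : ∀ h ∈ H, ∀ t ∈ T, h * t * h⁻¹ ∈ T) :
    (Subgroup.centralizer (T : Set G)).relIndex H ≤ n.factorial := by
  classical
  let E : (T → K) → Submodule K V := fun θ => ⨅ t : T, (π t).maxGenEigenspace (θ t)
  have hcomm : ∀ i j : T, Commute (π i) (π j) := fun i j => by
    rw [commute_iff_eq, ← map_mul, ← map_mul, hTc i i.2 j j.2]
  have hEeq : ∀ (t : T) (μ : K), (π t).maxGenEigenspace μ = (π t).eigenspace μ := fun t μ =>
    ((isSemisimple_of_pow hN (hTN t t.2)).isFinitelySemisimple).maxGenEigenspace_eq_eigenspace μ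
  have hmem : ∀ θ v, v ∈ E θ ↔ ∀ t : T, π t v = θ t • v := fun θ v => by
    simp only [E, Submodule.mem_iInf, hEeq, Module.End.mem_eigenspace_iff]
  have htop : ⨆ θ, E θ = ⊤ :=
    Module.End.iSup_iInf_maxGenEigenspace_eq_top_of_iSup_maxGenEigenspace_eq_top_of_commute _
      (fun i j _ => hcomm i j) (fun i => Module.End.iSup_maxGenEigenspace_eq_top _)
  have hindep : iSupIndep E :=
    Module.End.independent_iInf_maxGenEigenspace_of_forall_mapsTo _
      (fun i j φ => Module.End.mapsTo_maxGenEigenspace_of_comm (hcomm j i) φ)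
  let Λ := {θ : T → K // E θ ≠ ⊥}
  haveI : Fintype Λ := hindep.fintypeNeBotOfFiniteDimensional
  have hΛ : Fintype.card Λ ≤ n := hn ▸ hindep.subtype_ne_bot_le_finrank
  let c : H → T → T := fun h t => ⟨(h : G) * t * (h : G)⁻¹, hH h h.2 t t.2⟩
  have hmv : ∀ (h : H) (θ : T → K), ∀ v ∈ E θ, π h v ∈ E fun t => θ (c h⁻¹ t) := by
    intro h θ v hv
    rw [hmem] at hv ⊢
    intro t
    rw [← map_smul, ← hv (c h⁻¹ t), ← Module.End.mul_apply, ← map_mul, ← Module.End.mul_apply,
      ← map_mul]
    congr 2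
    simp [c, mul_assoc]
  have hne : ∀ (h : H) (θ : T → K), E θ ≠ ⊥ → E (fun t => θ (c h⁻¹ t)) ≠ ⊥ := by
    intro h θ hθ
    obtain ⟨v, hv, hv0⟩ := Submodule.exists_mem_ne_zero_of_ne_bot hθ
    refine fun hbot => hv0 ?_
    have h1 : π h v = 0 := (Submodule.mem_bot K).1 (hbot ▸ hmv h θ v hv)
    have h2 : π ((h : G)⁻¹ * h) v = 0 := by rw [map_mul, Module.End.mul_apply, h1, map_zero]
    simpa using h2
  let φ₀ : H → Λ → Λ := fun h θ => ⟨fun t => θ.1 (c h⁻¹ t), hne h θ.1 θ.2⟩
  have hφmul : ∀ a b : H, ∀ θ, φ₀ (a * b) θ = φ₀ a (φ₀ b θ) := fun a b θ => by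
    apply Subtype.ext; funext t; simp [φ₀, c, mul_assoc]
  have hφone : ∀ θ, φ₀ 1 θ = θ := fun θ => by
    apply Subtype.ext; funext t; simp [φ₀, c]
  letI : MulAction H Λ := { smul := φ₀, one_smul := hφone, mul_smul := hφmul }
  have hker : (MulAction.toPermHom H Λ).ker ≤
      (Subgroup.centralizer (T : Set G)).subgroupOf H := by
    intro h hh
    rw [Subgroup.mem_subgroupOf, Subgroup.mem_centralizer_iff]
    intro t ht
    apply hπ
    have key : π (c h⁻¹ ⟨t, ht⟩ : G) = π t := by
      refine LinearMap.ext fun v => ?_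
      have : v ∈ ⨆ θ, E θ := htop ▸ Submodule.mem_top
      induction this using Submodule.iSup_induction' with
      | mem θ v hv =>
        rcases eq_or_ne v 0 with rfl | hv0
        · simp
        have hθ : E θ ≠ ⊥ := fun h0 => hv0 ((Submodule.mem_bot K).1 (h0 ▸ hv))
        have := congrFun (congrArg Subtype.val
          (show φ₀ h ⟨θ, hθ⟩ = ⟨θ, hθ⟩ from Equiv.congr_fun (MonoidHom.mem_ker.1 hh) ⟨θ, hθ⟩))
          ⟨t, ht⟩
        rw [(hmem θ v).1 hv (c h⁻¹ ⟨t, ht⟩), ← show π ((⟨t, ht⟩ : T) : G) v = π t v from rfl,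
          (hmem θ v).1 hv ⟨t, ht⟩]
        exact congrArg (· • v) this
      | zero => simp
      | add x y _ _ hx hy => rw [map_add, map_add, hx, hy]
    have := congrArg (fun f => π h * f) key
    simp only [← map_mul] at this
    rw [← this]
    congr 1
    simp [c, mul_assoc]
  calc (Subgroup.centralizer (T : Set G)).relIndex H
      = ((Subgroup.centralizer (T : Set G)).subgroupOf H).index := rfl
    _ ≤ (MulAction.toPermHom H Λ).ker.index :=
        Nat.le_of_dvd (Nat.pos_of_ne_zero Subgroup.index_ne_zero_of_finite)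
          (Subgroup.index_dvd_of_le hker)
    _ ≤ Nat.card (Equiv.Perm Λ) := by
        rw [Subgroup.index_ker]
        exact Nat.card_le_card_of_injective _ Subtype.val_injective
    _ ≤ n.factorial := by
        rw [Nat.card_perm, Nat.card_eq_fintype_card]
        exact Nat.factorial_le hΛ

/-- At most `n` conjugates of a non-scalar `x` are scalar multiples of it. -/
theorem card_twist_le {n : ℕ} [IsAlgClosed K] {π : G →* Module.End K V} (hπ : Function.Injective π)
    (hn : finrank K V = n) {x : G} (hx : x ∉ scalars π) :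
    Nat.card {y : G // IsConj x y ∧ x⁻¹ * y ∈ scalars π} ≤ n := by
  classical
  haveI : Nontrivial V := by
    by_contra h
    rw [not_nontrivial_iff_subsingleton] at h
    exact hx ⟨1, Subsingleton.elim _ _⟩
  obtain ⟨μ, hμ⟩ := Module.End.exists_eigenvalue (π x)
  let R := {r : K // (π x).HasEigenvalue r}
  have hμ0 : μ ≠ 0 := by
    rintro rfl
    obtain ⟨v, hv⟩ := hμ.exists_hasEigenvector
    refine hv.2 ?_
    have h1 : π x v = 0 := by rw [hv.apply_eq_smul, zero_smul]
    have h2 : π (x⁻¹ * x) v = 0 := by rw [map_mul, Module.End.mul_apply, h1, map_zero]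
    simpa using h2
  have hkey : ∀ y : {y : G // IsConj x y ∧ x⁻¹ * y ∈ scalars π},
      ∃ (a : K) (r : R), π y = a • π x ∧ a * (r : K) = μ := by
    rintro ⟨y, hc, a, ha⟩
    have hy : π y = a • π x := by
      have : π y = π x * π (x⁻¹ * y) := by rw [← map_mul, mul_inv_cancel_left]
      rw [this, ha, mul_smul_comm, mul_one]
    obtain ⟨g, hg⟩ := isConj_iff.1 hc
    obtain ⟨v, hv⟩ := hμ.exists_hasEigenvector
    have h1 : π y (π g v) = μ • π g v := by
      rw [← hg, ← Module.End.mul_apply, ← map_mul, inv_mul_cancel_right, map_mul,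
        Module.End.mul_apply, hv.apply_eq_smul, map_smul]
    have hgv : π g v ≠ 0 := fun h0 => hv.2 (by
      have h2 : π (g⁻¹ * g) v = 0 := by rw [map_mul, Module.End.mul_apply, h0, map_zero]
      simpa using h2)
    rw [hy, LinearMap.smul_apply] at h1
    have ha0 : a ≠ 0 := by
      rintro rfl
      rw [zero_smul] at h1
      exact hgv ((smul_eq_zero.1 h1.symm).resolve_left hμ0)
    refine ⟨a, ⟨a⁻¹ * μ, Module.End.hasEigenvalue_of_hasEigenvector
      ⟨Module.End.mem_eigenspace_iff.2 ?_, hgv⟩⟩, hy, by simp [ha0]⟩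
    rw [mul_smul, ← h1, smul_smul, inv_mul_cancel₀ ha0, one_smul]
  choose a r hy har using hkey
  haveI : Finite R := Module.End.finite_hasEigenvalue (π x)
  refine le_trans (Nat.card_le_card_of_injective r fun y₁ y₂ h => ?_) ?_
  · apply Subtype.ext; apply hπ
    have e1 := har y₁; have e2 := har y₂
    rw [← h] at e2
    have hr0 : (r y₁ : K) ≠ 0 := fun h0 => hμ0 (by rw [← e1, h0, mul_zero])
    rw [hy y₁, hy y₂, mul_right_cancel₀ hr0 (e1.trans e2.symm)]
  · calc Nat.card R ≤ Nat.card {r : K // r ∈ (π x).charpoly.roots.toFinset} :=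
          Nat.card_le_card_of_injective (fun r => ⟨r.1, by
            rw [Multiset.mem_toFinset, Polynomial.mem_roots (LinearMap.charpoly_monic _).ne_zero]
            exact (Module.End.hasEigenvalue_iff_isRoot_charpoly _ _).1 r.2⟩)
            (fun r s h => Subtype.ext (Subtype.ext_iff.1 h :))
      _ ≤ n := by
          rw [Nat.card_eq_fintype_card, Fintype.card_coe, ← hn, ← LinearMap.charpoly_natDegree (π x)]
          exact le_trans (Multiset.toFinset_card_le _) (Polynomial.card_roots' _)

end Cfsg.Agent.BrauerFeit
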