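import Cfsg.Agent.Blocks.BrauerFeitEgypt
import Cfsg.Agent.Blocks.BrauerFeitLinear

/-!
# The Brauer–Feit theorem on modular linear groups

Stable abelian `p'`-subgroups of centralisers partition the non-scalar elements with large
centralisers, and the resulting class equation bounds the index of an abelian normal subgroup.
-/

namespace Cfsg.Agent.BrauerFeit

open Module
open scoped commutatorElement

set_option linter.style.haveILetI false

universe u v

variable {G : Type u} [Group G] [Finite G] {K : Type v} [Field K]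
variable {V : Type v} [AddCommGroup V] [Module K V] [FiniteDimensional K V]

/-- A stable non-scalar abelian subgroup of exponent dividing `N`. -/
def IsTor (π : G →* Module.End K V) (N b : ℕ) (X : Subgroup G) : Prop :=
  (∀ s ∈ X, ∀ t ∈ X, s * t = t * s) ∧ (∀ t ∈ X, t ^ N = 1) ∧ ¬ X ≤ scalars π ∧
    ∀ W ≤ X, W.relIndex X ≤ b → Subgroup.centralizer (W : Set G) = Subgroup.centralizer (X : Set G)

/-- The endomorphisms commuting with `π X`. -/
noncomputable def commutant (π : G →* Module.End K V) (X : Subgroup G) :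
    Submodule K (Module.End K V) :=
  (Subalgebra.centralizer K (π '' (X : Set G))).toSubmodule

omit [Finite G] [FiniteDimensional K V] in
theorem mem_commutant {π : G →* Module.End K V} {X : Subgroup G} {f : Module.End K V} :
    f ∈ commutant π X ↔ ∀ t ∈ X, π t * f = f * π t := by
  simp [commutant, Subalgebra.mem_centralizer_iff]

theorem exists_stable {n : ℕ} {π : G →* Module.End K V} (hπ : Function.Injective π)
    (hn : finrank K V = n) (b : ℕ) (hb : 1 ≤ b) :
    ∀ (d : ℕ) (X : Subgroup G), n * n - finrank K (commutant π X) ≤ d →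
      ∃ Y ≤ X, Y.relIndex X ≤ b ^ d ∧
        ∀ W ≤ Y, W.relIndex Y ≤ b →
          Subgroup.centralizer (W : Set G) = Subgroup.centralizer (Y : Set G) := by
  have hE : ∀ Y : Subgroup G, finrank K (commutant π Y) ≤ n * n := fun Y => by
    refine le_trans (Submodule.finrank_le _) (le_of_eq ?_)
    rw [Module.finrank_linearMap, hn]
  intro d
  induction d using Nat.strong_induction_on with
  | _ d ih =>
    intro X hd
    by_cases h : ∀ W ≤ X, W.relIndex X ≤ b →
        Subgroup.centralizer (W : Set G) = Subgroup.centralizer (X : Set G)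
    · exact ⟨X, le_rfl, by rw [Subgroup.relIndex_self]; exact Nat.one_le_pow _ _ hb, h⟩
    push Not at h
    obtain ⟨W, hWX, hWb, hne⟩ := h
    have hle : Subgroup.centralizer (X : Set G) ≤ Subgroup.centralizer (W : Set G) :=
      Subgroup.centralizer_le hWX
    obtain ⟨g, hgW, hgX⟩ := SetLike.exists_of_lt (lt_of_le_of_ne hle (Ne.symm hne))
    have hlt : commutant π X < commutant π W := by
      refine lt_of_le_of_ne (fun f hf => mem_commutant.2 fun t ht =>
        mem_commutant.1 hf t (hWX ht)) fun he => hgX ?_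
      have : π g ∈ commutant π X := he ▸ mem_commutant.2 fun t ht => by
        rw [← map_mul, ← map_mul, Subgroup.mem_centralizer_iff.1 hgW t ht]
      exact Subgroup.mem_centralizer_iff.2 fun t ht => hπ (by
        rw [map_mul, map_mul]; exact mem_commutant.1 this t ht)
    have h1 := Submodule.finrank_lt_finrank_of_lt hlt
    have h2 := hE W
    obtain ⟨Y, hYW, hYi, hY⟩ := ih (d - 1) (by omega) W (by omega)
    refine ⟨Y, hYW.trans hWX, ?_, hY⟩
    rw [← Subgroup.relIndex_mul_relIndex Y W X hYW hWX,
      show d = (d - 1) + 1 by omega, pow_succ]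
    exact Nat.mul_le_mul hYi hWb

/-- The subgroup of stabilised subgroups under conjugation. -/
def conjStab (T : Subgroup G) : Subgroup G where
  carrier := {g | T.map (MulAut.conj g).toMonoidHom = T}
  one_mem' := by
    ext x; simp
  mul_mem' := by
    intro a c ha hc
    simp only [Set.mem_setOf_eq] at ha hc ⊢
    conv_rhs => rw [← ha]
    conv_rhs => rw [← hc, Subgroup.map_map]
    congr 1
    ext x; simp [mul_assoc]
  inv_mem' := by
    intro a ha
    simp only [Set.mem_setOf_eq] at ha ⊢
    conv_lhs => rw [← ha, Subgroup.map_map]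
    conv_rhs => rw [← Subgroup.map_id T]
    congr 1
    ext x; simp [mul_assoc]

theorem exists_good (p m : ℕ) [hp : Fact p.Prime] : ∀ n, ∃ b, Good.{u, v} p m n b := by
  classical
  intro n
  induction n using Nat.strong_induction_on with
  | _ n ih =>
  choose bf hbf using fun i : Fin n => ih i i.2
  set b₀ := (Finset.univ.sup bf) + 1 with hb₀
  set R := b₀ ^ 2 * (p ^ m).factorial * p ^ m with hR
  set b := R * p ^ m with hb
  set K₀ := b * b ^ (n * n) with hK₀
  set L := (n * K₀).factorial with hL
  suffices h : ∀ (ι : Type u), ∃ B, ∀ (g s : ℕ) (S : Finset ι) (w c a t : ι → ℕ),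
      S.card ≤ 2 * n.factorial → g ∣ L * s →
      (∀ i ∈ S, 1 ≤ w i ∧ w i ≤ n.factorial ∧ t i * (w i * c i) = g ∧ 1 ≤ a i) →
      g = 1 + s + ∑ i ∈ S, t i * (a i * c i - 1) → g ≤ B ∨ ∃ i ∈ S, g ≤ B * c i by
    obtain ⟨B, hB⟩ := h (ULift.{u} ℕ)
    refine ⟨B + (B * R).factorial, fun G _ _ K _ _ _ V _ _ _ π hπ hn hm => ?_⟩
    -- numerical constants
    have hb₀pos : 1 ≤ b₀ := by omega
    have hRpos : 1 ≤ R := Nat.mul_pos (Nat.mul_pos (pow_pos hb₀pos 2) (Nat.factorial_pos _))
      (pow_pos hp.out.pos m)
    have hbpos : 1 ≤ b := Nat.mul_pos hRpos (pow_pos hp.out.pos m)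
    have hgood : ∀ n' < n, ∃ b' ≤ b₀, Good.{u, v} p m n' b' := fun n' hn' =>
      ⟨bf ⟨n', hn'⟩, le_trans (Finset.le_sup (Finset.mem_univ _)) (Nat.le_succ _), hbf ⟨n', hn'⟩⟩
    set Z := scalars π with hZdef
    haveI hZn : Z.Normal := ⟨fun z hz g => by
      rw [scalars_comm hπ hz g, mul_inv_cancel_right]; exact hz⟩
    have hZA : IsMulCommutative Z :=
      ⟨⟨fun x y => Subtype.ext (scalars_comm hπ y.2 x.1)⟩⟩
    set q := p ^ (Nat.card G).factorization p with hq
    set N := Nat.card G / q with hN'
    have hqN : q * N = Nat.card G := Nat.ordProj_mul_ordCompl_eq_self _ _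
    have hN : (N : K) ≠ 0 := by
      rw [Ne, CharP.cast_eq_zero_iff K p]
      exact Nat.not_dvd_ordCompl hp.out Nat.card_pos.ne'
    -- abelian `p'`-subgroup in a centraliser
    have hcent : ∀ x : G, x ∉ Z → ∃ X : Subgroup G, X ≤ Subgroup.centralizer {x} ∧
        (∀ s ∈ X, ∀ t ∈ X, s * t = t * s) ∧ (∀ t ∈ X, t ^ N = 1) ∧
        X.relIndex (Subgroup.centralizer {x}) ≤ b := by
      intro x hx
      obtain ⟨W, hW0, hW1, hW⟩ := exists_invariant π hx
      set C := Subgroup.centralizer ({x} : Set G) with hC
      have hmC : (Nat.card C).factorization p ≤ m :=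
        le_trans ((Nat.factorization_le_iff_dvd Nat.card_pos.ne' Nat.card_pos.ne').2
          (Subgroup.card_subgroup_dvd_card C) p) hm
      obtain ⟨A, -, hAc, hAi⟩ := good_of_invariant hgood (π.comp C.subtype)
        (hπ.comp C.subtype_injective) hn hmC W hW0 hW1
        (fun g => hW g (Subgroup.mem_centralizer_singleton_iff.1 g.2))
      letI : CommGroup A := { (inferInstance : Group A) with mul_comm := fun a b => hAc.is_comm.comm a b }
      let f : A →* C := A.subtype.comp (powMonoidHom q)
      refine ⟨f.range.map C.subtype, Subgroup.map_subtype_le _, ?_, ?_, ?_⟩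
      · rintro _ ⟨_, ⟨a, rfl⟩, rfl⟩ _ ⟨_, ⟨a', rfl⟩, rfl⟩
        rw [← map_mul, ← map_mul, ← map_mul, ← map_mul, mul_comm a a']
      · rintro _ ⟨_, ⟨a, rfl⟩, rfl⟩
        simp only [f, MonoidHom.coe_comp, Function.comp_apply, powMonoidHom_apply,
          Subgroup.coe_subtype, SubgroupClass.coe_pow]
        rw [← pow_mul, hqN, pow_card_eq_one']
      · have e0 : (f.range.map C.subtype).relIndex C = f.range.index := by
          rw [Subgroup.relIndex, Subgroup.subgroupOf,
            Subgroup.comap_map_eq_self_of_injective C.subtype_injective]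
        have e1 : f.range = (powMonoidHom q : A →* A).range.map A.subtype :=
          MonoidHom.range_comp _ _
        have e2 : (powMonoidHom q : A →* A).range.index ≤ p ^ m := by
          have hk : (powMonoidHom q : A →* A).range.index = Nat.card (powMonoidHom q : A →* A).ker := by
            have h1 := Subgroup.card_mul_index (powMonoidHom q : A →* A).range
            have h2 := Subgroup.card_mul_index (powMonoidHom q : A →* A).ker
            rw [Subgroup.index_ker] at h2
            rw [mul_comm] at h2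
            exact Nat.eq_of_mul_eq_mul_left Nat.card_pos (h1.trans h2.symm)
          rw [hk]
          refine card_pgroup_le ?_ ?_ hm
          · intro a
            exact ⟨_, Subtype.ext (by rw [SubgroupClass.coe_pow]; exact a.2)⟩
          · exact (Subgroup.card_subgroup_dvd_card _).trans
              ((Subgroup.card_subgroup_dvd_card A).trans (Subgroup.card_subgroup_dvd_card C))
        rw [e0, e1, Subgroup.index_map_subtype, hb, mul_comm R]
        exact Nat.mul_le_mul e2 hAi
    -- stable subgroups
    have hcomm : ∀ (x : G) (T T' : Subgroup G), x ∉ Z → IsTor π N b T → IsTor π N b T' →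
        T ≤ Subgroup.centralizer {x} → T' ≤ Subgroup.centralizer {x} →
        ∀ s ∈ T, ∀ t ∈ T', s * t = t * s := by
      intro x T T' hx hT hT' hTx hT'x
      obtain ⟨X, hXC, hXc, -, hXi⟩ := hcent x hx
      have key : ∀ S : Subgroup G, IsTor π N b S → S ≤ Subgroup.centralizer {x} →
          Subgroup.centralizer ((S ⊓ X : Subgroup G) : Set G) = Subgroup.centralizer (S : Set G) := by
        intro S hS hSx
        refine hS.2.2.2 _ inf_le_left ?_
        rw [Subgroup.inf_relIndex_left]
        exact le_trans (Subgroup.relIndex_le_of_le_right hSx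
          Subgroup.index_ne_zero_of_finite) hXi
      have h1 : ∀ u ∈ T' ⊓ X, ∀ s ∈ T, s * u = u * s := by
        intro u hu s hs
        have : u ∈ Subgroup.centralizer ((T ⊓ X : Subgroup G) : Set G) :=
          Subgroup.mem_centralizer_iff.2 fun w hw => hXc w hw.2 u hu.2
        rw [key T hT hTx] at this
        exact Subgroup.mem_centralizer_iff.1 this s hs
      intro s hs t ht
      have : s ∈ Subgroup.centralizer ((T' ⊓ X : Subgroup G) : Set G) :=
        Subgroup.mem_centralizer_iff.2 fun u hu => (h1 u hu s hs).symm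
      rw [key T' hT' hT'x] at this
      exact (Subgroup.mem_centralizer_iff.1 this t ht).symm
    have hexists : ∀ x : G, x ∉ Z → K₀ < Z.relIndex (Subgroup.centralizer {x}) →
        ∃ Y : Subgroup G, IsTor π N b Y ∧ Y ≤ Subgroup.centralizer {x} := by
      intro x hx hbig
      obtain ⟨X, hXC, hXc, hXN, hXi⟩ := hcent x hx
      obtain ⟨Y, hYX, hYi, hY⟩ := exists_stable hπ hn b hbpos (n * n) X (Nat.sub_le _ _)
      refine ⟨Y, ⟨fun s hs t ht => hXc s (hYX hs) t (hYX ht), fun t ht => hXN t (hYX ht),
        fun hle => ?_, hY⟩, hYX.trans hXC⟩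
      have h1 : Z.relIndex (Subgroup.centralizer {x}) ≤ Y.relIndex (Subgroup.centralizer {x}) :=
        Subgroup.relIndex_le_of_le_left hle Subgroup.index_ne_zero_of_finite
      rw [← Subgroup.relIndex_mul_relIndex Y X _ hYX hXC] at h1
      have h2 := Nat.mul_le_mul hYi hXi
      rw [hK₀, mul_comm b] at hbig
      omega
    have hnon : ∀ T : Subgroup G, IsTor π N b T → ∃ t ∈ T, t ∉ Z := fun T hT =>
      SetLike.not_le_iff_exists.1 hT.2.2.1
    -- join
    have hjoin : ∀ T T' : Subgroup G, IsTor π N b T → IsTor π N b T' →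
        (∀ s ∈ T, ∀ t ∈ T', s * t = t * s) → IsTor π N b (T ⊔ T') := by
      intro T T' hT hT' hc
      have hT1 : T ≤ Subgroup.centralizer (T : Set G) := fun s hs =>
        Subgroup.mem_centralizer_iff.2 fun t ht => hT.1 t ht s hs
      have hT2 : T' ≤ Subgroup.centralizer (T' : Set G) := fun s hs =>
        Subgroup.mem_centralizer_iff.2 fun t ht => hT'.1 t ht s hs
      have hT3 : T ≤ Subgroup.centralizer (T' : Set G) := fun s hs =>
        Subgroup.mem_centralizer_iff.2 fun t ht => (hc s hs t ht).symm
      have hT4 : T' ≤ Subgroup.centralizer (T : Set G) := fun t ht =>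
        Subgroup.mem_centralizer_iff.2 fun s hs => hc s hs t ht
      have hall : T ⊔ T' ≤ Subgroup.centralizer ((T ⊔ T' : Subgroup G) : Set G) := by
        refine sup_le (Subgroup.le_centralizer_iff.1 (sup_le hT1 hT4))
          (Subgroup.le_centralizer_iff.1 (sup_le hT3 hT2))
      have hab : ∀ s ∈ T ⊔ T', ∀ t ∈ T ⊔ T', s * t = t * s := fun s hs t ht =>
        Subgroup.mem_centralizer_iff.1 (hall ht) s hs
      refine ⟨hab, fun x hx => ?_, fun hle => hT.2.2.1 (le_sup_left.trans hle), fun W hW hWi => ?_⟩
      · let S : Subgroup G :=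
          { carrier := {x | x ∈ T ⊔ T' ∧ x ^ N = 1}
            one_mem' := ⟨one_mem _, one_pow _⟩
            mul_mem' := fun {a c} ha hc => ⟨mul_mem ha.1 hc.1, by
              rw [Commute.mul_pow (hab a ha.1 c hc.1), ha.2, hc.2, one_mul]⟩
            inv_mem' := fun {a} ha => ⟨inv_mem ha.1, by rw [inv_pow, ha.2, inv_one]⟩ }
        exact ((sup_le (fun t ht => ⟨Subgroup.mem_sup_left ht, hT.2.1 t ht⟩)
          (fun t ht => ⟨Subgroup.mem_sup_right ht, hT'.2.1 t ht⟩) : T ⊔ T' ≤ S) hx).2
      · refine le_antisymm ?_ (Subgroup.centralizer_le hW)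
        have k : ∀ S : Subgroup G, IsTor π N b S → S ≤ T ⊔ T' →
            Subgroup.centralizer (W : Set G) ≤ Subgroup.centralizer (S : Set G) := by
          intro S hS hSle
          rw [← hS.2.2.2 (S ⊓ W) inf_le_left (by
            rw [Subgroup.inf_relIndex_left]
            exact le_trans (Subgroup.relIndex_le_of_le_right hSle
              Subgroup.index_ne_zero_of_finite) hWi)]
          exact Subgroup.centralizer_le inf_le_right
        exact Subgroup.le_centralizer_iff.1 (sup_le
          (Subgroup.le_centralizer_iff.1 (k T hT le_sup_left))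
          (Subgroup.le_centralizer_iff.1 (k T' hT' le_sup_right)))
    -- conjugation
    have hconj : ∀ (g : G) (T : Subgroup G), IsTor π N b T →
        IsTor π N b (T.map (MulAut.conj g).toMonoidHom) := by
      intro g T hT
      set φ := (MulAut.conj g).toMonoidHom with hφ
      have hφi : Function.Injective φ := (MulAut.conj g).injective
      refine ⟨?_, ?_, ?_, ?_⟩
      · rintro _ ⟨s, hs, rfl⟩ _ ⟨t, ht, rfl⟩
        rw [← map_mul, hT.1 s hs t ht, map_mul]
      · rintro _ ⟨t, ht, rfl⟩
        rw [← map_pow, hT.2.1 t ht, map_one]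
      · intro hle
        obtain ⟨t, ht, htZ⟩ := hnon T hT
        refine htZ ?_
        have := hle ⟨t, ht, rfl⟩
        have h2 := hZn.conj_mem _ this g⁻¹
        simpa [φ, mul_assoc] using h2
      · intro W hW hWi
        have h1 : W.comap φ ≤ T := fun x hx => by
          obtain ⟨t, ht, htx⟩ := hW hx
          exact hφi htx ▸ ht
        have h2 : W = (W.comap φ).map φ :=
          (Subgroup.map_comap_eq_self_of_surjective (MulAut.conj g).surjective W).symm
        have h3 := hT.2.2.2 _ h1 (by
          rw [← Subgroup.relIndex_map_map_of_injective _ _ hφi, ← h2]; exact hWi)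
        have k : ∀ S : Subgroup G, Subgroup.centralizer ((S.map φ : Subgroup G) : Set G) =
            (Subgroup.centralizer (S : Set G)).map φ := fun S => by
          ext x
          constructor
          · intro hx
            obtain ⟨y, rfl⟩ := (MulAut.conj g).surjective x
            refine ⟨y, Subgroup.mem_centralizer_iff.2 fun t ht => hφi ?_, rfl⟩
            rw [map_mul, map_mul]
            exact Subgroup.mem_centralizer_iff.1 hx _ ⟨t, ht, rfl⟩
          · rintro ⟨y, hy, rfl⟩
            refine Subgroup.mem_centralizer_iff.2 ?_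
            rintro _ ⟨t, ht, rfl⟩
            rw [← map_mul, ← map_mul, Subgroup.mem_centralizer_iff.1 hy t ht]
        rw [h2, k, k, h3]
    -- maximal ones
    let 𝒯 := {T : Subgroup G // Maximal (IsTor π N b) T}
    have huniq : ∀ (x : G) (T T' : 𝒯), x ∉ Z → T.1 ≤ Subgroup.centralizer {x} →
        T'.1 ≤ Subgroup.centralizer {x} → T = T' := by
      intro x T T' hx hTx hT'x
      have hJ := hjoin _ _ T.2.1 T'.2.1 (hcomm x _ _ hx T.2.1 T'.2.1 hTx hT'x)
      exact Subtype.ext (le_antisymm (le_sup_left.trans (T'.2.2 hJ le_sup_right))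
        (le_sup_right.trans (T.2.2 hJ le_sup_left)))
    have huniq' : ∀ (T : 𝒯) (Y : Subgroup G) (T' : 𝒯), IsTor π N b Y → Y ≤ T.1 →
        Y ≤ T'.1 → T = T' := by
      intro T Y T' hY hYT hYT'
      obtain ⟨y, hy, hyZ⟩ := hnon Y hY
      exact huniq y T T' hyZ
        (fun t ht => Subgroup.mem_centralizer_singleton_iff.2 (T.2.1.1 t ht y (hYT hy)))
        (fun t ht => Subgroup.mem_centralizer_singleton_iff.2 (T'.2.1.1 t ht y (hYT' hy)))
    letI act : MulAction G 𝒯 :=
      { smul := fun g T => ⟨T.1.map (MulAut.conj g).toMonoidHom, hconj g _ T.2.1, fun S hS hle => by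
          have := T.2.2 (hconj g⁻¹ S hS) (fun t ht => ⟨_, hle ⟨t, ht, rfl⟩, by simp [mul_assoc]⟩)
          intro s hs
          exact ⟨_, this ⟨s, hs, rfl⟩, by simp [mul_assoc]⟩⟩
        one_smul := fun T => Subtype.ext (by
          show T.1.map _ = T.1
          ext x; simp)
        mul_smul := fun g h T => Subtype.ext (by
          show T.1.map _ = (T.1.map _).map _
          rw [Subgroup.map_map]; congr 1; ext x; simp [mul_assoc]) }
    haveI : Fintype 𝒯 := Fintype.ofFinite 𝒯
    -- the sets attached to maximal stable subgroups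
    let E : 𝒯 → Set G := fun T => {x | ∃ Y : Subgroup G, IsTor π N b Y ∧ Y ≤ T.1 ∧
      Y ≤ Subgroup.centralizer {x}}
    have hZE : ∀ T, ∀ z ∈ Z, z ∈ E T := fun T z hz => ⟨T.1, T.2.1, le_rfl, fun t _ =>
      Subgroup.mem_centralizer_singleton_iff.2 (scalars_comm hπ hz t)⟩
    have hEC : ∀ T, ∀ x ∈ E T, ∀ c ∈ Subgroup.centralizer (T.1 : Set G), x * c ∈ E T := by
      rintro T x ⟨Y, hY, hYT, hYx⟩ c hc
      refine ⟨Y, hY, hYT, fun y hy => Subgroup.mem_centralizer_singleton_iff.2 ?_⟩
      have h1 : Commute y x := Subgroup.mem_centralizer_singleton_iff.1 (hYx hy)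
      have h2 : Commute y c := Subgroup.mem_centralizer_iff.1 hc y (hYT hy)
      exact h1.mul_right h2
    have hEN : ∀ T, ∀ x ∈ E T, x ∈ MulAction.stabilizer G T := by
      rintro T x ⟨Y, hY, hYT, hYx⟩
      refine MulAction.mem_stabilizer_iff.2 (huniq' _ Y _ hY (fun y hy => ?_) hYT)
      refine ⟨y, hYT hy, ?_⟩
      have := Subgroup.mem_centralizer_singleton_iff.1 (hYx hy)
      simp [← this]
    have hdisj : ∀ T T', ∀ x, x ∉ Z → x ∈ E T → x ∈ E T' → T = T' := by
      rintro T T' x hx ⟨Y, hY, hYT, hYx⟩ ⟨Y', hY', hY'T, hY'x⟩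
      obtain ⟨y, hy, hyZ⟩ := hnon Y hY
      have hJ := hjoin _ _ hY hY' (hcomm x _ _ hx hY hY' hYx hY'x)
      obtain ⟨T'', hle, hT''⟩ :=
        (Set.toFinite {S : Subgroup G | IsTor π N b S}).exists_le_maximal hJ
      have e1 := huniq' T Y ⟨T'', hT''⟩ hY hYT (le_sup_left.trans hle)
      have e2 := huniq' T' Y' ⟨T'', hT''⟩ hY' hY'T (le_sup_right.trans hle)
      rw [e1, e2]
    -- the quotient by the scalars
    set mk := QuotientGroup.mk' Z with hmk
    haveI : Fintype (G ⧸ Z) := Fintype.ofFinite _
    set g := Z.index with hg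
    have hgcard : Nat.card (G ⧸ Z) = g := rfl
    let c : 𝒯 → ℕ := fun T => Z.relIndex (Subgroup.centralizer (T.1 : Set G))
    let Cb : 𝒯 → Subgroup (G ⧸ Z) := fun T => (Subgroup.centralizer (T.1 : Set G)).map mk
    have hCb : ∀ T, Nat.card (Cb T) = c T := by
      intro T
      show Nat.card ((Subgroup.centralizer (T.1 : Set G)).map mk) = _
      show _ = Z.relIndex (Subgroup.centralizer (T.1 : Set G))
      conv_rhs => rw [← QuotientGroup.ker_mk' Z, Subgroup.relIndex_ker]
    have hC1 : ∀ T, 2 ≤ c T := by
      intro T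
      by_contra h
      have h1 : Z.relIndex (Subgroup.centralizer (T.1 : Set G)) = 1 := by
        have : Z.relIndex (Subgroup.centralizer (T.1 : Set G)) ≠ 0 :=
          Subgroup.index_ne_zero_of_finite
        simp only [c] at h
        omega
      obtain ⟨t, ht, htZ⟩ := hnon T.1 T.2.1
      exact htZ (Subgroup.relIndex_eq_one.1 h1
        (Subgroup.mem_centralizer_iff.2 fun u hu => T.2.1.1 u hu t ht))
    let w : 𝒯 → ℕ := fun T =>
      (Subgroup.centralizer (T.1 : Set G)).relIndex (MulAction.stabilizer G T)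
    have hCN : ∀ T : 𝒯, Subgroup.centralizer (T.1 : Set G) ≤ MulAction.stabilizer G T := by
      intro T x hx
      exact hEN T x ⟨T.1, T.2.1, le_rfl, fun t ht =>
        Subgroup.mem_centralizer_singleton_iff.2 (Subgroup.mem_centralizer_iff.1 hx t ht)⟩
    have hw : ∀ T : 𝒯, 1 ≤ w T ∧ w T ≤ n.factorial ∧
        (MulAction.stabilizer G T).index * (w T * c T) = g := by
      intro T
      refine ⟨Nat.one_le_iff_ne_zero.2 Subgroup.index_ne_zero_of_finite,
        relIndex_centralizer_le hπ hn hN T.1 _ T.2.1.1 T.2.1.2.1 (fun h hh t ht => ?_), ?_⟩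
      · have : T.1.map (MulAut.conj h).toMonoidHom = T.1 :=
          congrArg Subtype.val (MulAction.mem_stabilizer_iff.1 hh)
        rw [← this]
        exact ⟨t, ht, by simp⟩
      · have h1 : c T * w T = Z.relIndex (MulAction.stabilizer G T) :=
          Subgroup.relIndex_mul_relIndex Z _ _ (scalars_le_centralizer hπ _) (hCN T)
        have h2 := Subgroup.relIndex_mul_index (H := Z) (K := MulAction.stabilizer G T)
          ((scalars_le_centralizer hπ _).trans (hCN T))
        rw [mul_comm (w T), h1, mul_comm]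
        exact h2
    -- their images in the quotient
    let Eb : 𝒯 → Finset (G ⧸ Z) := fun T => Finset.univ.filter fun u => ∃ x ∈ E T, mk x = u
    have hmkE : ∀ T x, mk x ∈ Eb T → x ∈ E T := by
      intro T x hx
      obtain ⟨y, hy, hyx⟩ := (Finset.mem_filter.1 hx).2
      have hz : y⁻¹ * x ∈ Z := QuotientGroup.eq.1 hyx
      have := hEC T y hy _ (scalars_le_centralizer hπ _ hz)
      rwa [mul_inv_cancel_left] at this
    have hcoset : ∀ T, ∃ a, 1 ≤ a ∧ (Eb T).card = a * c T := by
      intro T
      haveI : Fintype ((G ⧸ Z) ⧸ Cb T) := Fintype.ofFinite _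
      refine ⟨((Eb T).image (QuotientGroup.mk : G ⧸ Z → (G ⧸ Z) ⧸ Cb T)).card,
        Finset.card_pos.2 (Finset.Nonempty.image ⟨1, Finset.mem_filter.2
          ⟨Finset.mem_univ _, 1, hZE T 1 (one_mem _), map_one _⟩⟩ _), ?_⟩
      rw [mul_comm]
      have hfib : ∀ u ∈ (Eb T).image (QuotientGroup.mk : G ⧸ Z → (G ⧸ Z) ⧸ Cb T),
          ((Eb T).filter fun v => (QuotientGroup.mk v : (G ⧸ Z) ⧸ Cb T) = u).card = c T := by
        intro u hu
        obtain ⟨e, he, rfl⟩ := Finset.mem_image.1 hu
        rw [← hCb T, ← Nat.card_eq_finsetCard]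
        have key : ∀ v : G ⧸ Z, v ∈ Cb T → e * v ∈ (Eb T).filter fun z =>
            (QuotientGroup.mk z : (G ⧸ Z) ⧸ Cb T) = QuotientGroup.mk e := by
          intro v hv
          refine Finset.mem_filter.2 ⟨?_, ?_⟩
          · obtain ⟨x, hx, rfl⟩ := hv
            obtain ⟨y, hy, rfl⟩ := (Finset.mem_filter.1 he).2
            exact Finset.mem_filter.2 ⟨Finset.mem_univ _, y * x, hEC T y hy x hx, map_mul _ _ _⟩
          · rw [QuotientGroup.eq]
            simpa [mul_assoc] using inv_mem hv
        let f : Cb T → {z : G ⧸ Z // z ∈ (Eb T).filter fun z =>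
            (QuotientGroup.mk z : (G ⧸ Z) ⧸ Cb T) = QuotientGroup.mk e} :=
          fun v => ⟨e * v.1, key v.1 v.2⟩
        refine (Nat.card_congr (Equiv.ofBijective f ⟨?_, ?_⟩)).symm
        · intro v₁ v₂ h
          exact Subtype.ext (mul_left_cancel (Subtype.ext_iff.1 h))
        · rintro ⟨v, hv⟩
          refine ⟨⟨e⁻¹ * v, ?_⟩, Subtype.ext (mul_inv_cancel_left _ _)⟩
          exact QuotientGroup.eq.1 (Finset.mem_filter.1 hv).2.symm
      rw [Finset.card_eq_sum_card_image (QuotientGroup.mk : G ⧸ Z → (G ⧸ Z) ⧸ Cb T) (Eb T),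
        Finset.sum_congr rfl hfib, Finset.sum_const, smul_eq_mul, mul_comm]
    choose a ha haE using hcoset
    -- the class equation
    let Sm : Finset (G ⧸ Z) := Finset.univ.filter fun u => u ≠ 1 ∧ ∀ T, u ∉ Eb T
    have h1E : ∀ T, (1 : G ⧸ Z) ∈ Eb T := fun T =>
      Finset.mem_filter.2 ⟨Finset.mem_univ _, 1, hZE T 1 (one_mem _), map_one _⟩
    have hsum : g = 1 + Sm.card + ∑ T, (a T * c T - 1) := by
      have hu : (Finset.univ : Finset (G ⧸ Z)) =
          insert 1 (Sm ∪ Finset.univ.biUnion fun T => (Eb T).erase 1) := by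
        ext u
        simp only [Finset.mem_univ, Finset.mem_insert, Finset.mem_union, Finset.mem_biUnion,
          Finset.mem_erase, Sm, Finset.mem_filter, true_and, true_iff]
        by_cases h1 : u = 1
        · exact Or.inl h1
        · by_cases h2 : ∃ T, u ∈ Eb T
          · obtain ⟨T, hT⟩ := h2; exact Or.inr (Or.inr ⟨T, h1, hT⟩)
          · push Not at h2; exact Or.inr (Or.inl ⟨h1, h2⟩)
      have hpd : (↑(Finset.univ : Finset 𝒯) : Set 𝒯).PairwiseDisjoint
          (fun T => (Eb T).erase 1) := by
        intro T _ T' _ hne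
        rw [Function.onFun, Finset.disjoint_left]
        intro u hu hu'
        induction u using QuotientGroup.induction_on with
        | H x =>
          refine hne (hdisj T T' x (fun hx => (Finset.mem_erase.1 hu).1
            ((QuotientGroup.eq_one_iff x).2 hx)) (hmkE T x (Finset.mem_erase.1 hu).2)
            (hmkE T' x (Finset.mem_erase.1 hu').2))
      rw [← hgcard, Nat.card_eq_fintype_card, ← Finset.card_univ, hu, Finset.card_insert_of_notMem,
        Finset.card_union_of_disjoint, Finset.card_biUnion hpd]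
      · rw [Finset.sum_congr rfl (g := fun T => a T * c T - 1) fun T _ => by
          rw [Finset.card_erase_of_mem (h1E T), haE]]
        omega
      · rw [Finset.disjoint_left]
        intro u hu hu'
        obtain ⟨T, -, hT⟩ := Finset.mem_biUnion.1 hu'
        exact (Finset.mem_filter.1 hu).2.2 T (Finset.mem_erase.1 hT).2
      · simp [Sm]
    -- invariance under conjugation
    have hEconj : ∀ (h x : G) (T : 𝒯), x ∈ E T → h * x * h⁻¹ ∈ E (h • T) := by
      rintro h x T ⟨Y, hY, hYT, hYx⟩
      refine ⟨Y.map (MulAut.conj h).toMonoidHom, hconj h Y hY, Subgroup.map_mono hYT, ?_⟩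
      rintro _ ⟨y, hy, rfl⟩
      refine Subgroup.mem_centralizer_singleton_iff.2 ?_
      have := Subgroup.mem_centralizer_singleton_iff.1 (hYx hy)
      simp only [MulEquiv.coe_toMonoidHom, MulAut.conj_apply]
      calc h * y * h⁻¹ * (h * x * h⁻¹) = h * (y * x) * h⁻¹ := by group
        _ = h * (x * y) * h⁻¹ := by rw [this]
        _ = h * x * h⁻¹ * (h * y * h⁻¹) := by group
    -- divisibility for the small classes
    have hSmdvd : g ∣ L * Sm.card := by
      let act' : MulAction G {u // u ∈ Sm} :=
        { smul := fun h u => ⟨mk h * u.1 * (mk h)⁻¹, by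
            obtain ⟨-, hu1, hu2⟩ := Finset.mem_filter.1 u.2
            refine Finset.mem_filter.2 ⟨Finset.mem_univ _,
              fun h1 => hu1 (conj_eq_one_iff.1 h1), fun T hT => ?_⟩
            obtain ⟨x, hxu⟩ := QuotientGroup.mk'_surjective Z u.1
            rw [← hxu, ← map_inv, ← map_mul, ← map_mul] at hT
            have := hEconj h⁻¹ _ T (hmkE T _ hT)
            refine hu2 (h⁻¹ • T) (Finset.mem_filter.2 ⟨Finset.mem_univ _, x, ?_, hxu⟩)
            simpa [mul_assoc] using this⟩
          one_smul := fun u => Subtype.ext (by show mk 1 * u.1 * (mk 1)⁻¹ = u.1; simp)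
          mul_smul := fun h k u => Subtype.ext (by
            show mk (h * k) * u.1 * (mk (h * k))⁻¹ = mk h * (mk k * u.1 * (mk k)⁻¹) * (mk h)⁻¹
            simp [mul_assoc]) }
      letI := act'
      haveI : Fintype (Quotient (MulAction.orbitRel G {u // u ∈ Sm})) := Fintype.ofFinite _
      rw [← Nat.card_eq_finsetCard, Nat.card_congr (MulAction.selfEquivSigmaOrbits G {u // u ∈ Sm}),
        Nat.card_sigma, Finset.mul_sum]
      refine Finset.dvd_sum fun o _ => ?_
      set u := o.out with hu
      have hidx : Nat.card (MulAction.orbit G u) = (MulAction.stabilizer G u).index :=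
        (MulAction.index_stabilizer G u).symm.trans rfl |>.symm |>.symm
      obtain ⟨x, hxu⟩ := QuotientGroup.mk'_surjective Z u.1
      have hx : x ∉ Z := fun hx => (Finset.mem_filter.1 u.2).2.1
        (hxu ▸ (QuotientGroup.eq_one_iff x).2 hx)
      have hsmall : Z.relIndex (Subgroup.centralizer {x}) ≤ K₀ := by
        by_contra hlt
        obtain ⟨Y, hY, hYx⟩ := hexists x hx (not_le.1 hlt)
        obtain ⟨T, hle, hT⟩ :=
          (Set.toFinite {S : Subgroup G | IsTor π N b S}).exists_le_maximal hY
        exact (Finset.mem_filter.1 u.2).2.2 ⟨T, hT⟩ (Finset.mem_filter.2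
          ⟨Finset.mem_univ _, x, ⟨Y, hY, hle, hYx⟩, hxu⟩)
      set M := MulAction.stabilizer G u with hM
      have hCM : Subgroup.centralizer ({x} : Set G) ≤ M := by
        intro h hh
        refine MulAction.mem_stabilizer_iff.2 (Subtype.ext ?_)
        show mk h * u.1 * (mk h)⁻¹ = u.1
        rw [← hxu, ← map_inv, ← map_mul, ← map_mul, Subgroup.mem_centralizer_singleton_iff.1 hh,
          mul_inv_cancel_right]
      have hMn : (Subgroup.centralizer ({x} : Set G)).relIndex M ≤ n := by
        refine le_trans (Nat.card_le_card_of_injective (fun q => (⟨(q.out : G) * x * (q.out : G)⁻¹,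
          isConj_iff.2 ⟨_, rfl⟩, ?_⟩ : {y : G // IsConj x y ∧ x⁻¹ * y ∈ Z})) ?_)
          (card_twist_le hπ hn hx)
        · have := congrArg Subtype.val (MulAction.mem_stabilizer_iff.1 q.out.2)
          change mk _ * u.1 * (mk _)⁻¹ = u.1 at this
          rw [← hxu, ← map_inv, ← map_mul, ← map_mul] at this
          exact QuotientGroup.eq.1 this.symm
        · intro q₁ q₂ h
          have h1 := congrArg Subtype.val h
          simp only at h1
          rw [← q₁.out_eq, ← q₂.out_eq]
          refine QuotientGroup.eq.2 (Subgroup.mem_subgroupOf.2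
            (Subgroup.mem_centralizer_singleton_iff.2 ?_))
          simp only [Subgroup.coe_mul, InvMemClass.coe_inv]
          calc (q₁.out : G)⁻¹ * q₂.out * x
              = (q₁.out : G)⁻¹ * ((q₂.out : G) * x * (q₂.out : G)⁻¹) * q₂.out := by group
            _ = (q₁.out : G)⁻¹ * ((q₁.out : G) * x * (q₁.out : G)⁻¹) * q₂.out := by rw [h1]
            _ = x * ((q₁.out : G)⁻¹ * q₂.out) := by group
      have h1 : Z.relIndex M ≤ n * K₀ := by
        rw [← Subgroup.relIndex_mul_relIndex Z _ M (scalars_le_centralizer hπ _) hCM, mul_comm n]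
        exact Nat.mul_le_mul hsmall hMn
      have h2 := Subgroup.relIndex_mul_index (H := Z) (K := M)
        ((scalars_le_centralizer hπ _).trans hCM)
      obtain ⟨e, he⟩ := Nat.dvd_factorial (Nat.pos_of_ne_zero Subgroup.index_ne_zero_of_finite) h1
      refine ⟨e, ?_⟩
      rw [show Nat.card ↑(MulAction.orbit G o.out) = M.index from hidx, hL, he, hg, ← h2]
      simp only [Subgroup.relIndex]
      ring
    -- orbit representatives
    haveI : Fintype (Quotient (MulAction.orbitRel G 𝒯)) := Fintype.ofFinite _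
    have hacT : ∀ (h : G) (T : 𝒯), a (h • T) * c (h • T) = a T * c T := by
      intro h T
      rw [← haE, ← haE]
      refine (Finset.card_bij (fun u _ => mk h * u * (mk h)⁻¹) ?_ ?_ ?_).symm
      · intro u hu
        obtain ⟨x, hx, rfl⟩ := (Finset.mem_filter.1 hu).2
        exact Finset.mem_filter.2 ⟨Finset.mem_univ _, h * x * h⁻¹, hEconj h x T hx, by simp⟩
      · intro u₁ _ u₂ _ he
        exact mul_left_cancel (mul_right_cancel he)
      · intro u hu
        obtain ⟨x, hx, rfl⟩ := (Finset.mem_filter.1 hu).2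
        have := hEconj h⁻¹ x _ hx
        rw [inv_smul_smul] at this
        exact ⟨_, Finset.mem_filter.2 ⟨Finset.mem_univ _, _, this, rfl⟩, by simp [mul_assoc]⟩
    let t : 𝒯 → ℕ := fun T => (MulAction.stabilizer G T).index
    let rep : Quotient (MulAction.orbitRel G 𝒯) → 𝒯 := Quotient.out
    have hsum2 : ∑ T, (a T * c T - 1) = ∑ o, t (rep o) * (a (rep o) * c (rep o) - 1) := by
      rw [← (MulAction.selfEquivSigmaOrbits G 𝒯).symm.sum_comp, Fintype.sum_sigma]
      refine Finset.sum_congr rfl fun o _ => ?_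
      rw [Finset.sum_congr rfl (g := fun _ => a (rep o) * c (rep o) - 1), Finset.sum_const,
        smul_eq_mul, Finset.card_univ, ← Nat.card_eq_fintype_card]
      · congr 1
        exact (MulAction.index_stabilizer G (rep o)).symm
      · rintro ⟨T, h, rfl⟩ -
        show a (h • o.out) * c (h • o.out) - 1 = _
        rw [hacT]
    have hk : Fintype.card (Quotient (MulAction.orbitRel G 𝒯)) ≤ 2 * n.factorial := by
      by_contra hlt
      push Not at hlt
      have h1 : ∀ o, g ≤ 2 * n.factorial * (t (rep o) * (a (rep o) * c (rep o) - 1)) := by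
        intro o
        obtain ⟨hw1, hwW, hwg⟩ := hw (rep o)
        have hc2 := hC1 (rep o)
        have ha1 := ha (rep o)
        have hac : c (rep o) ≤ 2 * (a (rep o) * c (rep o) - 1) := by
          have := Nat.le_mul_of_pos_left (c (rep o)) ha1
          omega
        calc g = t (rep o) * (w (rep o) * c (rep o)) := hwg.symm
          _ ≤ t (rep o) * (n.factorial * (2 * (a (rep o) * c (rep o) - 1))) :=
            Nat.mul_le_mul_left _ (Nat.mul_le_mul hwW hac)
          _ = _ := by ring
      have h2 := Finset.sum_le_sum (s := Finset.univ) fun o _ => h1 o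
      rw [Finset.sum_const, ← Finset.mul_sum, ← hsum2, Finset.card_univ, smul_eq_mul] at h2
      have hgpos : 0 < g := Nat.pos_of_ne_zero Subgroup.index_ne_zero_of_finite
      have h3 : (2 * n.factorial + 1) * g ≤
          Fintype.card (Quotient (MulAction.orbitRel G 𝒯)) * g :=
        Nat.mul_le_mul_right _ hlt
      have h4 : ∑ T, (a T * c T - 1) ≤ g := by omega
      have h5 := Nat.mul_le_mul_left (2 * n.factorial) h4
      rw [add_mul, one_mul] at h3
      omega
    rw [hsum2] at hsum
    let emb : Quotient (MulAction.orbitRel G 𝒯) ↪ ULift.{u} ℕ :=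
      ((Fintype.equivFin _).toEmbedding.trans Fin.valEmbedding).trans Equiv.ulift.symm.toEmbedding
    let fn : (Quotient (MulAction.orbitRel G 𝒯) → ℕ) → ULift.{u} ℕ → ℕ :=
      fun f => Function.extend emb f 0
    have hfn : ∀ f o, fn f (emb o) = f o := fun f o => emb.injective.extend_apply _ _ _
    rcases hB g Sm.card (Finset.univ.map emb) (fn (w ∘ rep)) (fn (c ∘ rep)) (fn (a ∘ rep))
      (fn (t ∘ rep)) (by rw [Finset.card_map, Finset.card_univ]; exact hk) hSmdvd
      (by
        intro i hi
        obtain ⟨o, -, rfl⟩ := Finset.mem_map.1 hi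
        simp only [hfn, Function.comp_apply]
        exact ⟨(hw _).1, (hw _).2.1, (hw _).2.2, ha _⟩)
      (by rw [Finset.sum_map]; simpa only [hfn, Function.comp_apply] using hsum) with hgB | ⟨i, hi, hgB⟩
    · exact ⟨Z, hZn, hZA, le_trans hgB (Nat.le_add_right _ _)⟩
    · obtain ⟨o, -, rfl⟩ := Finset.mem_map.1 hi
      simp only [hfn, Function.comp_apply] at hgB
      set C := Subgroup.centralizer ((rep o).1 : Set G) with hC
      have hCB : C.index ≤ B := by
        have h := Subgroup.relIndex_mul_index (H := Z) (K := C) (scalars_le_centralizer hπ _)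
        have hc0 : 0 < c (rep o) := lt_of_lt_of_le two_pos (hC1 _)
        refine Nat.le_of_mul_le_mul_left ?_ hc0
        calc c (rep o) * C.index = g := h
          _ ≤ B * c (rep o) := hgB
          _ = c (rep o) * B := mul_comm _ _
      obtain ⟨x, hx, hxZ⟩ := hnon _ (rep o).2.1
      obtain ⟨W, hW0, hW1, hW⟩ := exists_invariant π hxZ
      have hmC : (Nat.card C).factorization p ≤ m :=
        le_trans ((Nat.factorization_le_iff_dvd Nat.card_pos.ne' Nat.card_pos.ne').2
          (Subgroup.card_subgroup_dvd_card C) p) hm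
      obtain ⟨A, -, hAc, hAi⟩ := good_of_invariant hgood (π.comp C.subtype)
        (hπ.comp C.subtype_injective) hn hmC W hW0 hW1
        (fun h => hW h (Subgroup.mem_centralizer_iff.1 h.2 x hx).symm)
      refine ⟨(A.map C.subtype).normalCore, inferInstance, ⟨⟨fun u v => Subtype.ext ?_⟩⟩, ?_⟩
      · obtain ⟨u', hu', hu⟩ := Subgroup.normalCore_le _ u.2
        obtain ⟨v', hv', hv⟩ := Subgroup.normalCore_le _ v.2
        show (u : G) * v = v * u
        rw [← hu, ← hv, ← map_mul, ← map_mul]
        exact congrArg _ (congrArg Subtype.val (hAc.is_comm.comm ⟨u', hu'⟩ ⟨v', hv'⟩))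
      · refine le_trans ?_ (Nat.le_add_left _ _)
        rw [Subgroup.normalCore_eq_ker, Subgroup.index_ker]
        refine le_trans (Nat.card_le_card_of_injective _ Subtype.val_injective) ?_
        rw [Nat.card_perm]
        refine Nat.factorial_le ?_
        show (A.map C.subtype).index ≤ _
        rw [Subgroup.index_map_subtype, mul_comm B]
        exact Nat.mul_le_mul hAi hCB
  intro ι
  exact egypt n.factorial (2 * n.factorial) L (Nat.factorial_pos _)

end Cfsg.Agent.BrauerFeit
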