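import Mathlib

/-!
# The Egyptian-fraction step for the Brauer–Feit bound

If `g = 1 + s + ∑ tᵢ (aᵢ cᵢ - 1)` with `g ∣ L * s`, `tᵢ wᵢ cᵢ = g`, boundedly many terms and
bounded `wᵢ`, then `g` is bounded or some `cᵢ` is proportional to `g`.
-/

namespace Cfsg.Agent.BrauerFeit

theorem egypt {ι : Type*} (W : ℕ) :
    ∀ k L : ℕ, 0 < L → ∃ B : ℕ, ∀ (g s : ℕ) (S : Finset ι) (w c a t : ι → ℕ),
      S.card ≤ k → g ∣ L * s → (∀ i ∈ S, 1 ≤ w i ∧ w i ≤ W ∧ t i * (w i * c i) = g ∧ 1 ≤ a i) →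
      g = 1 + s + ∑ i ∈ S, t i * (a i * c i - 1) →
      g ≤ B ∨ ∃ i ∈ S, g ≤ B * c i := by
  classical
  intro k
  induction k with
  | zero =>
    intro L hL
    refine ⟨L, fun g s S w c a t hS hgs _ hg => Or.inl ?_⟩
    have hS0 : S = ∅ := Finset.card_eq_zero.1 (by omega)
    rw [hS0, Finset.sum_empty, add_zero] at hg
    have : g ∣ L * g := dvd_mul_left _ _
    have h2 : g ∣ L := by
      rw [hg, mul_add, mul_one] at this
      rw [← hg] at this
      exact (Nat.dvd_add_left hgs).1 this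
    exact Nat.le_of_dvd hL h2
  | succ k ih =>
    intro L hL
    set D := L * W.factorial with hD
    have hDpos : 0 < D := Nat.mul_pos hL W.factorial_pos
    obtain ⟨B₁, hB₁⟩ := ih (L * ((D * (k + 1)).factorial * W.factorial))
      (Nat.mul_pos hL (Nat.mul_pos (Nat.factorial_pos _) W.factorial_pos))
    refine ⟨D + W + B₁, fun g s S w c a t hS hgs hi hg => ?_⟩
    have hg1 : 1 ≤ g := by omega
    have ht : ∀ i ∈ S, 1 ≤ t i ∧ 1 ≤ c i := by
      intro i hiS
      obtain ⟨-, -, h, -⟩ := hi i hiS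
      constructor <;> (by_contra hc0; push Not at hc0; simp [Nat.lt_one_iff.1 hc0] at h; omega)
    -- the divisibility
    have hkey : (g : ℤ) ∣ (D : ℤ) * ((∑ i ∈ S, (t i : ℤ)) - 1) := by
      have e1 : (D : ℤ) * ((∑ i ∈ S, (t i : ℤ)) - 1) =
          (D : ℤ) * s + ∑ i ∈ S, (D : ℤ) * (t i * (a i * c i)) - (D : ℤ) * g := by
        have hgz : (g : ℤ) = 1 + s + ∑ i ∈ S, ((t i : ℤ) * (a i * c i) - t i) := by
          conv_lhs => rw [hg]
          push_cast
          refine congrArg _ (Finset.sum_congr rfl fun i hiS => ?_)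
          have : 1 ≤ a i * c i := Nat.mul_pos (hi i hiS).2.2.2 (ht i hiS).2
          rw [Nat.cast_sub this]; push_cast; ring
        rw [hgz, Finset.sum_sub_distrib, ← Finset.mul_sum]; ring
      rw [e1]
      refine Int.dvd_sub (Int.dvd_add ?_ (Finset.dvd_sum fun i hiS => ?_)) (dvd_mul_left _ _)
      · have : g ∣ D * s := by
          rw [hD, mul_comm L, mul_assoc]; exact dvd_mul_of_dvd_right hgs _
        exact_mod_cast this
      · obtain ⟨hw1, hwW, htw, -⟩ := hi i hiS
        obtain ⟨e, he⟩ := Nat.dvd_factorial hw1 hwW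
        have : g ∣ D * (t i * (a i * c i)) := ⟨L * e * a i, by rw [← htw, hD, he]; ring⟩
        exact_mod_cast this
    rcases S.eq_empty_or_nonempty with hS0 | hSne
    · left
      rw [hS0, Finset.sum_empty, zero_sub, mul_neg, mul_one, Int.dvd_neg] at hkey
      have := Nat.le_of_dvd hDpos (Int.natCast_dvd_natCast.1 hkey)
      omega
    obtain ⟨i₀, hi₀, hmax⟩ := S.exists_max_image t hSne
    obtain ⟨hw1, hwW, htw, ha⟩ := hi i₀ hi₀
    have hsum1 : 1 ≤ ∑ i ∈ S, t i :=
      le_trans (ht i₀ hi₀).1 (Finset.single_le_sum (fun _ _ => Nat.zero_le _) hi₀)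
    rcases Nat.eq_or_lt_of_le hsum1 with h1 | h1
    · right
      refine ⟨i₀, hi₀, ?_⟩
      have ht1 : t i₀ = 1 := le_antisymm
        (h1 ▸ Finset.single_le_sum (fun _ _ => Nat.zero_le _) hi₀) (ht i₀ hi₀).1
      rw [← htw, ht1, one_mul]
      exact Nat.mul_le_mul_right _ (by omega)
    · -- g ≤ D * (k+1) * t i₀
      have hle : g ≤ D * ((k + 1) * t i₀) := by
        have hd : g ∣ D * ((∑ i ∈ S, t i) - 1) := by
          have : ((D * ((∑ i ∈ S, t i) - 1) : ℕ) : ℤ) = (D : ℤ) * ((∑ i ∈ S, (t i : ℤ)) - 1) := by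
            rw [Nat.cast_mul, Nat.cast_sub hsum1]; push_cast; ring
          exact Int.natCast_dvd_natCast.1 (this ▸ hkey)
        refine le_trans (Nat.le_of_dvd (Nat.mul_pos hDpos (by omega)) hd) (Nat.mul_le_mul_left _ ?_)
        have : ∑ i ∈ S, t i ≤ S.card * t i₀ := by
          simpa using Finset.sum_le_card_nsmul S t (t i₀) hmax
        have := Nat.mul_le_mul_right (t i₀) hS
        omega
      have hc : c i₀ ≤ D * (k + 1) := by
        by_contra hlt; push Not at hlt
        have : g < t i₀ * (w i₀ * c i₀) := by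
          calc g ≤ D * (k + 1) * t i₀ := by rw [mul_assoc]; exact hle
            _ < c i₀ * t i₀ := Nat.mul_lt_mul_of_pos_right hlt (ht i₀ hi₀).1
            _ ≤ t i₀ * (w i₀ * c i₀) := by
              rw [mul_comm]; exact Nat.mul_le_mul_left _ (Nat.le_mul_of_pos_left _ hw1)
        omega
      have hs' : g ∣ L * ((D * (k + 1)).factorial * W.factorial) *
          (s + t i₀ * (a i₀ * c i₀ - 1)) := by
        rw [mul_add]
        refine dvd_add ?_ ?_
        · rw [mul_assoc, mul_comm ((D * (k + 1)).factorial * W.factorial), ← mul_assoc]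
          exact dvd_mul_of_dvd_left hgs _
        · obtain ⟨e, he⟩ := Nat.dvd_factorial hw1 hwW
          obtain ⟨e', he'⟩ := Nat.dvd_factorial (ht i₀ hi₀).2 hc
          exact ⟨L * e * e' * (a i₀ * c i₀ - 1), by rw [← htw, he, he']; ring⟩
      have hcard : (S.erase i₀).card ≤ k := by rw [Finset.card_erase_of_mem hi₀]; omega
      rcases hB₁ g (s + t i₀ * (a i₀ * c i₀ - 1)) (S.erase i₀) w c a t hcard hs'
        (fun i hiS => hi i (Finset.mem_of_mem_erase hiS))
        (by rw [hg, ← Finset.add_sum_erase S _ hi₀]; ring) with h | ⟨i, hiS, h⟩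
      · left; omega
      · exact Or.inr ⟨i, Finset.mem_of_mem_erase hiS,
          le_trans h (Nat.mul_le_mul_right _ (by omega))⟩

end Cfsg.Agent.BrauerFeit
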