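import Cfsg.Agent.Blocks.Covering
import Cfsg.Agent.Blocks.Height
import Cfsg.Agent.Chars.RegularPart
import Cfsg.Agent.S0941
import Cfsg.Prelude.Def_BlockRank

/-! Blocks of a group `G = D C_G(D)` with defect group `D`. -/

set_option autoImplicit false
set_option linter.style.haveILetI false
set_option linter.unusedSectionVars false

namespace Cfsg.Agent.Blocks

open Cfsg Cfsg.Agent
open scoped ComplexConjugate

universe u

theorem exists_pprojection {E : Type u} [Group E] [Fintype E] {p q : ℕ} [Fact p.Prime]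
    (hq : q.Prime) (hE : IsElementary q E) :
    ∃ (P : Sylow p E) (H : Subgroup E) (πP : E →* (P : Subgroup E)) (πH : E →* H),
      (∀ r : E, r ∈ H → ¬ p ∣ orderOf r) ∧
      (∀ e : E, (πP e : E) = ppart p e ∧ (πP e : E) * (πH e : E) = e ∧
        Commute (πP e : E) (πH e : E)) ∧
      (∀ x : (P : Subgroup E), ∀ r : H, πP ((x : E) * (r : E)) = x ∧ πH ((x : E) * (r : E)) = r) ∧
      Function.Bijective (fun e : E => (πP e, πH e)) := by
  classical
  have hp := (Fact.out : p.Prime)
  obtain ⟨H, hmem, hidx, -⟩ := Chars.exists_regular_subgroup hq hE hp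
  obtain ⟨x, hxc, -, k, hk⟩ := hE
  haveI : Fact q.Prime := ⟨hq⟩
  haveI : (Subgroup.zpowers x).Normal := ⟨fun n hn g => by
    obtain ⟨j, rfl⟩ := hn
    rw [Subgroup.mem_center_iff.1 (Subgroup.zpow_mem _ hxc j) g, mul_inv_cancel_right]
    exact ⟨j, rfl⟩⟩
  haveI : Group.IsNilpotent (E ⧸ Subgroup.zpowers x) :=
    (IsPGroup.of_card (n := k) (by rw [← Subgroup.index_eq_card, hk])).isNilpotent
  haveI : Group.IsNilpotent E := Subgroup.isNilpotent_of_ker_le_center
    (QuotientGroup.mk' (Subgroup.zpowers x)) (by rw [QuotientGroup.ker_mk', Subgroup.zpowers_le]; exact hxc)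
  let P : Sylow p E := default
  haveI : (P : Subgroup E).Normal := inferInstance
  haveI hHn : H.Normal := ⟨fun n hn g => by
    rw [hmem] at hn ⊢
    rwa [← MulAut.conj_apply, MulEquiv.orderOf_eq]⟩
  have hPo : ∀ y ∈ (P : Subgroup E), ∃ j : ℕ, orderOf y = p ^ j := fun y hy => by
    obtain ⟨j, hj⟩ := IsPGroup.iff_orderOf.1 P.isPGroup' ⟨y, hy⟩
    exact ⟨j, by rw [← hj, Subgroup.orderOf_mk]⟩
  have hdisj : Disjoint (P : Subgroup E) H := by
    rw [Subgroup.disjoint_def]
    intro y hy hyH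
    obtain ⟨j, hj⟩ := hPo y hy
    rcases j with _ | j
    · exact orderOf_eq_one_iff.1 hj
    · exact absurd (hj ▸ dvd_pow_self p j.succ_ne_zero) ((hmem y).1 hyH)
  have hcomm : ∀ a ∈ (P : Subgroup E), ∀ b ∈ H, Commute a b :=
    fun a ha b hb => Subgroup.commute_of_normal_of_disjoint _ _ inferInstance hHn hdisj a b ha hb
  have hPmem : ∀ e : E, ppart p e ∈ (P : Subgroup E) := by
    intro e
    obtain ⟨j, hj⟩ := exists_orderOf_ppart (p := p) e
    have hz : IsPGroup p (Subgroup.zpowers (ppart p e)) :=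
      IsPGroup.of_card (n := j) (by rw [Nat.card_zpowers, hj])
    obtain ⟨Q, hQ⟩ := hz.exists_le_sylow
    haveI : Subsingleton (Sylow p E) := by
      haveI := Sylow.unique_of_normal P inferInstance
      infer_instance
    rw [Subsingleton.elim P Q]
    exact hQ (Subgroup.mem_zpowers _)
  have hHmem : ∀ e : E, (ppart p e)⁻¹ * e ∈ H := fun e => by
    obtain ⟨y, hy, -, -, hyr⟩ := isPPart_ppart (p := p) e
    rw [show (ppart p e)⁻¹ * e = y from inv_mul_eq_of_eq_mul hy.symm]
    exact (hmem y).2 hyr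
  have hsplit : ∀ a ∈ (P : Subgroup E), ∀ b ∈ H, ppart p (a * b) = a := fun a ha b hb =>
    ppart_mul (hcomm a ha b hb) (hPo a ha) ((hmem b).1 hb)
  have hmul : ∀ e f : E, e * f = (ppart p e * ppart p f) * (((ppart p e)⁻¹ * e) * ((ppart p f)⁻¹ * f)) := by
    intro e f
    calc e * f = (ppart p e * ((ppart p e)⁻¹ * e)) * (ppart p f * ((ppart p f)⁻¹ * f)) := by group
      _ = ppart p e * (((ppart p e)⁻¹ * e) * ppart p f) * ((ppart p f)⁻¹ * f) := by
          simp only [mul_assoc]
      _ = _ := by rw [← (hcomm _ (hPmem f) _ (hHmem e)).eq]; simp only [mul_assoc]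
  have hpm : ∀ e f : E, ppart p (e * f) = ppart p e * ppart p f := fun e f => by
    conv_lhs => rw [hmul e f]
    exact hsplit _ (Subgroup.mul_mem _ (hPmem e) (hPmem f)) _ (H.mul_mem (hHmem e) (hHmem f))
  let πP : E →* (P : Subgroup E) := MonoidHom.mk' (fun e => ⟨ppart p e, hPmem e⟩)
    fun e f => Subtype.ext (hpm e f)
  let πH : E →* H := MonoidHom.mk' (fun e => ⟨(ppart p e)⁻¹ * e, hHmem e⟩) fun e f => Subtype.ext (by
    show (ppart p (e * f))⁻¹ * (e * f) = _
    conv_lhs => rw [hpm, hmul e f, inv_mul_cancel_left]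
    rfl)
  have hback : ∀ (a : (P : Subgroup E)) (b : H), πP ((a : E) * (b : E)) = a ∧ πH ((a : E) * (b : E)) = b := by
    intro a b
    refine ⟨Subtype.ext (hsplit a a.2 b b.2), Subtype.ext ?_⟩
    show (ppart p ((a : E) * (b : E)))⁻¹ * ((a : E) * (b : E)) = b
    rw [hsplit a a.2 b b.2, inv_mul_cancel_left]
  refine ⟨P, H, πP, πH, fun r hr => (hmem r).1 hr, fun e => ⟨rfl, mul_inv_cancel_left _ _,
    hcomm _ (hPmem e) _ (hHmem e)⟩, hback, ?_, ?_⟩
  · intro e f h
    simp only [Prod.mk.injEq] at h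
    calc e = (πP e : E) * (πH e : E) := (mul_inv_cancel_left _ _).symm
      _ = (πP f : E) * (πH f : E) := by rw [h.1, h.2]
      _ = f := mul_inv_cancel_left _ _
  · rintro ⟨a, b⟩
    exact ⟨(a : E) * (b : E), Prod.ext (hback a b).1 (hback a b).2⟩

variable {G : Type u} [Group G] [Fintype G] {p : ℕ} [Fact p.Prime] {M : Ideal AlgInt} [M.IsMaximal]

/-- The hypotheses: `G = D C_G(D)` and `θ` trivial on `D` of full degree. -/
structure IsCanonical (p : ℕ) (D : Subgroup G) (θ : IrrCharacter G) : Prop where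
  pgroup : IsPGroup p D
  normal : D.Normal
  cover : ∀ g : G, ∃ d ∈ D, ∃ c ∈ Subgroup.centralizer (D : Set G), g = d * c
  regular : ∀ r : G, ¬ p ∣ orderOf r → r ∈ Subgroup.centralizer (D : Set G)
  ker : ∀ y ∈ D, (θ : G → ℂ) y = (θ : G → ℂ) 1
  deg : (charDegree (θ : G → ℂ)).factorization p = D.index.factorization p

/-- The character of the block belonging to `ζ`. -/
noncomputable def canonFun (p : ℕ) (D : Subgroup G) (θ : IrrCharacter G) (ζ : D → ℂ) : G → ℂ :=
  fun z => extendByZero D ζ (ppart p z) * (θ : G → ℂ) z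

variable {D : Subgroup G} {θ : IrrCharacter G}

theorem canonFun_of_not_mem (ζ : D → ℂ) {z : G} (hz : ppart p z ∉ D) :
    canonFun p D θ ζ z = 0 := by
  rw [canonFun, extendByZero, Function.extend_apply' _ _ _ (fun ⟨y, hy⟩ => hz (hy ▸ y.2))]
  simp

theorem canonFun_of_mem (ζ : D → ℂ) {z : G} (hz : ppart p z ∈ D) :
    canonFun p D θ ζ z = ζ ⟨ppart p z, hz⟩ * (θ : G → ℂ) z := by
  rw [canonFun, extendByZero]
  exact congrArg (· * (θ : G → ℂ) z) (Subtype.val_injective.extend_apply ζ 0 ⟨ppart p z, hz⟩)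

theorem IsCanonical.theta_mul (h : IsCanonical p D θ) {y : G} (hy : y ∈ D) (r : G) :
    (θ : G → ℂ) (y * r) = (θ : G → ℂ) r :=
  Chars.apply_mul_of_mem_charKer (Chars.irr_isCharacter θ) r
    ((Chars.mem_charKer (Chars.irr_isCharacter θ)).2 (h.ker y hy))

theorem IsCanonical.theta_eq_zero (h : IsCanonical p D θ) (hpM : (p : AlgInt) ∈ M) {z : G}
    (hz : ppart p z ∉ D) : (θ : G → ℂ) z = 0 := by
  classical
  haveI := h.normal
  haveI : Fintype (G ⧸ D) := Fintype.ofFinite _
  obtain ⟨θ', hθ'⟩ := exists_descend θ.2 (fun n hn => h.ker n hn)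
  rw [hθ', Function.comp_apply]
  have hd : (charDegree (θ : G → ℂ)) = charDegree (θ' : G ⧸ D → ℂ) := by
    simp [charDegree, hθ']
  refine eq_zero_of_central hpM (⊥ : Subgroup (G ⧸ D)) bot_le θ' ?_ ?_
  · rw [← hd, h.deg, Subgroup.index_bot, ← Subgroup.index_eq_card]
  · intro hm
    rw [Subgroup.mem_bot, ppart_one_iff] at hm
    obtain ⟨y, hy, hc, hx, hyr⟩ := isPPart_ppart (p := p) z
    refine hz ?_
    -- the image of the `p`-part is a `p`-element of order prime to `p`
    have h1 : ppart p (QuotientGroup.mk z : G ⧸ D) = 1 := ppart_one_iff.2 hm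
    have h2 : ppart p (QuotientGroup.mk z : G ⧸ D) = QuotientGroup.mk (ppart p z) := by
      refine (eq_ppart ⟨QuotientGroup.mk y, ?_, ?_, ?_, ?_⟩).symm
      · rw [← QuotientGroup.mk_mul, hy]
      · exact hc.map (QuotientGroup.mk' D)
      · obtain ⟨j, hj⟩ := hx
        have hdvd := orderOf_map_dvd (QuotientGroup.mk' D) (ppart p z)
        rw [hj] at hdvd
        obtain ⟨i, -, hi⟩ := (Nat.dvd_prime_pow (Fact.out : p.Prime)).1 hdvd
        exact ⟨i, hi⟩
      · exact fun hh => hyr (hh.trans (orderOf_map_dvd (QuotientGroup.mk' D) y))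
    rw [h2, QuotientGroup.eq_one_iff] at h1
    exact h1

theorem IsCanonical.isClassFunction (h : IsCanonical p D θ) {ζ : D → ℂ} (hζ : IsClassFunction D ζ) :
    IsClassFunction G (canonFun p D θ ζ) := by
  intro z g
  have hD := h.normal
  by_cases hz : ppart p z ∈ D
  · have hz' : ppart p (g * z * g⁻¹) ∈ D := by rw [ppart_conj]; exact hD.conj_mem _ hz g
    rw [canonFun_of_mem ζ hz, canonFun_of_mem ζ hz', Chars.isClassFunction_irr θ z g]
    congr 1
    obtain ⟨d, hd, c, hc, rfl⟩ := h.cover g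
    rw [← hζ ⟨ppart p z, hz⟩ ⟨d, hd⟩]
    congr 1
    refine Subtype.ext ?_
    show ppart p (d * c * z * (d * c)⁻¹) = d * ppart p z * d⁻¹
    rw [ppart_conj]
    have hcz : c * ppart p z = ppart p z * c := (Subgroup.mem_centralizer_iff.1 hc _ hz).symm
    calc d * c * ppart p z * (d * c)⁻¹ = d * (c * ppart p z) * c⁻¹ * d⁻¹ := by group
      _ = d * ppart p z * d⁻¹ := by rw [hcz]; group
  · have hz' : ppart p (g * z * g⁻¹) ∉ D := fun hh => hz (by
      have := hD.conj_mem _ hh g⁻¹
      rw [ppart_conj] at this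
      simpa [mul_assoc] using this)
    rw [canonFun_of_not_mem ζ hz, canonFun_of_not_mem ζ hz']

theorem IsCanonical.isGen (h : IsCanonical p D θ) (hpM : (p : AlgInt) ∈ M) {ζ : D → ℂ}
    (hζ : IsCharacter D ζ) : IsGeneralizedCharacter G (canonFun p D θ ζ) := by
  classical
  have hp := (Fact.out : p.Prime)
  have hζc := Chars.isClassFunction_of_isCharacter hζ
  refine Chars.isGen_of_elementary (h.isClassFunction hζc) fun E q hq hE => ?_
  haveI := Fintype.ofFinite E
  obtain ⟨P, H, πP, πH, hHreg, hπ, hback, hbij⟩ := exists_pprojection (p := p) hq hE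
  haveI := Fintype.ofFinite (P : Subgroup E)
  haveI := Fintype.ofFinite H
  -- the intersection with `D` inside the Sylow subgroup of `E`
  set j : (P : Subgroup E) →* G := E.subtype.comp (P : Subgroup E).subtype with hj
  set PD : Subgroup (P : Subgroup E) := D.comap j with hPD
  haveI := Fintype.ofFinite PD
  let ι : PD →* D := (j.comp PD.subtype).codRestrict D fun w => w.2
  set n := PD.index with hn
  have hn0 : (n : ℂ) ≠ 0 := Nat.cast_ne_zero.2 Subgroup.index_ne_zero_of_finite
  set A : ((P : Subgroup E) : Type u) → ℂ := indFun PD (ζ ∘ ι) with hA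
  have hAg : IsGeneralizedCharacter (P : Subgroup E) A :=
    Chars.isGen_indFun PD (Chars.isGen_comp (Chars.isGen_of_isCharacter hζ) ι)
  have hD := h.normal
  have hζinv : ∀ (w : (P : Subgroup E)) (hw : j w ∈ D) (x : (P : Subgroup E))
      (hx : j (x⁻¹ * w * x) ∈ D), ζ ⟨_, hx⟩ = ζ ⟨_, hw⟩ := by
    intro w hw x hx
    obtain ⟨d, hd, c, hc, hdc⟩ := h.cover (j x)⁻¹
    rw [← hζc ⟨j w, hw⟩ ⟨d, hd⟩]
    congr 1
    refine Subtype.ext ?_
    show j (x⁻¹ * w * x) = d * j w * d⁻¹
    rw [map_mul, map_mul, map_inv]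
    have hcw : c * j w = j w * c := (Subgroup.mem_centralizer_iff.1 hc _ hw).symm
    calc (j x)⁻¹ * j w * j x = (j x)⁻¹ * j w * ((j x)⁻¹)⁻¹ := by rw [inv_inv]
      _ = d * (c * j w) * c⁻¹ * d⁻¹ := by rw [hdc]; group
      _ = d * j w * d⁻¹ := by rw [hcw]; group
  have hPDn : ∀ (w x : (P : Subgroup E)), j (x⁻¹ * w * x) ∈ D ↔ j w ∈ D := by
    intro w x
    rw [map_mul, map_mul, map_inv]
    constructor
    · intro hh
      have := hD.conj_mem _ hh (j x)
      simpa [mul_assoc] using this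
    · intro hh
      have := hD.conj_mem _ hh (j x)⁻¹
      simpa [mul_assoc] using this
  have hAval : ∀ w : (P : Subgroup E), A w = (n : ℂ) * extendByZero D ζ (j w) := by
    intro w
    rw [hA, Chars.indFun_apply]
    by_cases hw : j w ∈ D
    · have : ∀ x : (P : Subgroup E), extendByZero PD (ζ ∘ ι) (x⁻¹ * w * x) =
          extendByZero D ζ (j w) := by
        intro x
        have hx := (hPDn w x).2 hw
        rw [extendByZero, show x⁻¹ * w * x = ((⟨x⁻¹ * w * x, hx⟩ : PD) : (P : Subgroup E)) from rfl,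
          Subtype.val_injective.extend_apply, extendByZero,
          show j w = ((⟨j w, hw⟩ : D) : G) from rfl, Subtype.val_injective.extend_apply]
        exact hζinv w hw x hx
      rw [Finset.sum_congr rfl fun x _ => this x, Finset.sum_const, Finset.card_univ,
        nsmul_eq_mul, ← mul_assoc, ← Nat.card_eq_fintype_card, ← PD.card_mul_index, Nat.cast_mul,
        inv_mul_cancel_left₀ Chars.card_ne_zero]
    · have h0 : extendByZero D ζ (j w) = 0 := by
        rw [extendByZero, Function.extend_apply' _ _ _ (fun ⟨y, hy⟩ => hw (hy ▸ y.2))]; rfl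
      rw [h0, mul_zero, Finset.sum_eq_zero fun x _ => ?_, mul_zero]
      rw [extendByZero, Function.extend_apply' _ _ _ ?_]; · rfl
      rintro ⟨y, hy⟩
      refine hw ((hPDn w x).1 ?_)
      rw [← hy]
      exact y.2
  -- the reduced restriction of `θ` to the regular part
  set B : H → ℂ := fun r => (n : ℂ)⁻¹ * (θ : G → ℂ) ((r : E) : G) with hB
  have hprod : ∀ (a : (P : Subgroup E)) (r : H), (θ : G → ℂ) (((a : E) * (r : E) : E) : G) =
      if j a ∈ D then (θ : G → ℂ) ((r : E) : G) else 0 := by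
    intro a r
    have hpp : ppart p ((((a : E) * (r : E) : E)) : G) = j a := by
      refine ppart_mul ?_ ?_ ?_
      · have := (hπ ((a : E) * (r : E))).2.2
        rw [(hback a r).1, (hback a r).2] at this
        exact congrArg Subtype.val this
      · obtain ⟨i, hi⟩ := IsPGroup.iff_orderOf.1 P.isPGroup' a
        refine ⟨i, ?_⟩
        show orderOf ((a : E) : G) = _
        rw [Subgroup.orderOf_coe, Subgroup.orderOf_coe, hi]
      · rw [Subgroup.orderOf_coe]; exact hHreg _ r.2
    split_ifs with ha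
    · rw [Subgroup.coe_mul]; exact h.theta_mul ha _
    · exact h.theta_eq_zero hpM (hpp ▸ ha)
  have hBg : IsGeneralizedCharacter H B := by
    refine Chars.isGen_of_classInner_int ?_ fun μ hμ => ?_
    · intro r s
      simp only [hB]
      congr 1
      exact Chars.isClassFunction_irr θ _ _
    · obtain ⟨m, hm⟩ := Chars.exists_classInner_eq_int
        (Chars.isGen_restrict (Chars.isGen_of_isCharacter (Chars.irr_isCharacter θ)) E)
        (Chars.isGen_comp (Chars.isGen_of_isCharacter (Chars.isCharacter_of_isIrr hμ)) πH)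
      refine ⟨m, ?_⟩
      rw [← hm, Chars.classInner_def, Chars.classInner_def]
      have hsum : ∑ e : E, (θ : G → ℂ) (e : G) * conj ((μ ∘ πH) e) =
          (Nat.card PD : ℂ) * ∑ r : H, (θ : G → ℂ) ((r : E) : G) * conj (μ r) := by
        rw [← (Equiv.ofBijective _ hbij).symm.sum_comp, Fintype.sum_prod_type_right, Finset.mul_sum]
        refine Finset.sum_congr rfl fun r _ => ?_
        have heq : ∀ a : (P : Subgroup E), (Equiv.ofBijective _ hbij).symm (a, r) = (a : E) * (r : E) :=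
          fun a => (Equiv.ofBijective _ hbij).injective (by
            rw [Equiv.apply_symm_apply]
            exact (Prod.ext (hback a r).1 (hback a r).2).symm)
        simp only [heq, Function.comp_apply, (hback _ r).2]
        rw [← Finset.sum_mul, Finset.sum_congr rfl fun a _ => hprod a r, Finset.sum_ite,
          Finset.sum_const_zero, add_zero, Finset.sum_const, nsmul_eq_mul, mul_assoc]
        congr 2
        rw [← Fintype.card_subtype, ← Nat.card_eq_fintype_card]
        rfl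
      have hcE : (Nat.card E : ℂ) = (n : ℂ) * (Nat.card PD : ℂ) * (Nat.card H : ℂ) := by
        rw [Nat.card_congr (Equiv.ofBijective _ hbij), Nat.card_prod, ← PD.card_mul_index]
        push_cast; ring
      rw [hsum, hcE]
      simp only [hB, mul_assoc, ← Finset.mul_sum]
      have h1 : (Nat.card PD : ℂ) ≠ 0 := Chars.card_ne_zero
      field_simp
  have heq : (fun e : E => canonFun p D θ ζ (e : G)) = (A ∘ πP) * (B ∘ πH) := by
    funext e
    have hj' : ppart p (e : G) = j (πP e) := by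
      show _ = (((πP e : E)) : G)
      rw [(hπ e).1]
      refine (eq_ppart ?_).symm
      obtain ⟨w, hw, hcom, ⟨i, hi⟩, hwr⟩ := isPPart_ppart (p := p) e
      exact ⟨w, congrArg Subtype.val hw, congrArg Subtype.val hcom,
        ⟨i, by rw [Subgroup.orderOf_coe, hi]⟩, by rwa [Subgroup.orderOf_coe]⟩
    show canonFun p D θ ζ (e : G) = A (πP e) * B (πH e)
    rw [canonFun, hAval, hj']
    have hθ := hprod (πP e) (πH e)
    rw [(hπ e).2.1] at hθ
    simp only [hB]
    rw [hθ]
    split_ifs with hm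
    · field_simp
    · rw [extendByZero, Function.extend_apply' _ _ _ (fun ⟨y, hy⟩ => hm (hy ▸ y.2))]; simp
  rw [heq]
  exact Chars.isGen_mul (Chars.isGen_comp hAg πP) (Chars.isGen_comp hBg πH)

theorem IsCanonical.sum_split [Fintype D] (h : IsCanonical p D θ) (F : G → ℂ)
    (hF : ∀ z, ppart p z ∉ D → F z = 0) :
    ∑ z, F z = ∑ y : D, ∑ r ∈ Finset.univ.filter (fun r : G => ¬ p ∣ orderOf r), F ((y : G) * r) := by
  classical
  rw [← Finset.sum_filter_of_ne (p := fun z => ppart p z ∈ D) (fun z _ hz => by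
    by_contra hh; exact hz (hF z hh)), Finset.sum_sigma']
  have hc : ∀ (y : D) (r : G), ¬ p ∣ orderOf r → Commute (y : G) r := fun y r hr =>
    Subgroup.mem_centralizer_iff.1 (h.regular r hr) y y.2
  have hpy : ∀ y : D, ∃ i, orderOf (y : G) = p ^ i := fun y => by
    obtain ⟨i, hi⟩ := IsPGroup.iff_orderOf.1 h.pgroup y
    exact ⟨i, by rw [Subgroup.orderOf_coe, hi]⟩
  refine Finset.sum_bij' (fun z hz => ⟨⟨ppart p z, (Finset.mem_filter.1 hz).2⟩, (ppart p z)⁻¹ * z⟩)
    (fun s _ => (s.1 : G) * s.2) (fun z hz => ?_) (fun s hs => ?_) (fun z hz => ?_) (fun s hs => ?_)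
    (fun z hz => ?_)
  · obtain ⟨w, hw, -, -, hwr⟩ := isPPart_ppart (p := p) z
    refine Finset.mem_sigma.2 ⟨Finset.mem_univ _, Finset.mem_filter.2 ⟨Finset.mem_univ _, ?_⟩⟩
    rwa [show (ppart p z)⁻¹ * z = w from inv_mul_eq_of_eq_mul hw.symm]
  · simp only [Finset.mem_sigma, Finset.mem_univ, Finset.mem_filter, true_and] at hs
    refine Finset.mem_filter.2 ⟨Finset.mem_univ _, ?_⟩
    rw [ppart_mul (hc s.1 s.2 hs) (hpy s.1) hs]
    exact s.1.2
  · exact mul_inv_cancel_left _ _
  · simp only [Finset.mem_sigma, Finset.mem_univ, Finset.mem_filter, true_and] at hs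
    have hh := ppart_mul (hc s.1 s.2 hs) (hpy s.1) hs
    refine Sigma.ext (Subtype.ext hh) (heq_of_eq ?_)
    show (ppart p ((s.1 : G) * s.2))⁻¹ * ((s.1 : G) * s.2) = s.2
    rw [hh, inv_mul_cancel_left]
  · simp

theorem IsCanonical.apply_mul (h : IsCanonical p D θ) (ζ : D → ℂ) (y : D) {r : G}
    (hr : ¬ p ∣ orderOf r) : canonFun p D θ ζ ((y : G) * r) = ζ y * (θ : G → ℂ) r := by
  have hp : ppart p ((y : G) * r) = y := by
    refine ppart_mul (Subgroup.mem_centralizer_iff.1 (h.regular r hr) y y.2) ?_ hr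
    obtain ⟨i, hi⟩ := IsPGroup.iff_orderOf.1 h.pgroup y
    exact ⟨i, by rw [Subgroup.orderOf_coe, hi]⟩
  have hm : ppart p ((y : G) * r) ∈ D := by rw [hp]; exact y.2
  rw [canonFun_of_mem ζ hm, h.theta_mul y.2]
  congr 2
  exact Subtype.ext hp

theorem canonFun_one (ζ : D → ℂ) : canonFun p D θ ζ 1 = ζ 1 * (θ : G → ℂ) 1 := by
  have h1 : ppart p (1 : G) = 1 := ppart_one_iff.2 (by rw [orderOf_one]; exact (Fact.out : p.Prime).not_dvd_one)
  have hm : ppart p (1 : G) ∈ D := by rw [h1]; exact D.one_mem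
  rw [canonFun_of_mem ζ hm]
  congr 2
  exact Subtype.ext h1

theorem IsCanonical.isIrr (h : IsCanonical p D θ) (hpM : (p : AlgInt) ∈ M) (ζ : IrrCharacter D) :
    IsIrrCharacter G (canonFun p D θ (ζ : D → ℂ)) := by
  classical
  haveI := Fintype.ofFinite D
  set S := ∑ r ∈ Finset.univ.filter (fun r : G => ¬ p ∣ orderOf r),
    (θ : G → ℂ) r * conj ((θ : G → ℂ) r) with hS
  have hθS : (Nat.card D : ℂ) * S = (Nat.card G : ℂ) := by
    have h1 := Chars.classInner_self_irr θ.2
    rw [Chars.classInner_def, h.sum_split _ (fun z hz => by rw [h.theta_eq_zero hpM hz, zero_mul]),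
      Finset.sum_congr rfl (g := fun _ => S) (fun y _ => Finset.sum_congr rfl fun r _ => by
        rw [h.theta_mul y.2]), Finset.sum_const, Finset.card_univ, nsmul_eq_mul,
      ← Nat.card_eq_fintype_card (α := D), inv_mul_eq_iff_eq_mul₀ Chars.card_ne_zero, mul_one] at h1
    exact h1
  have hnorm : classInner (canonFun p D θ (ζ : D → ℂ)) (canonFun p D θ (ζ : D → ℂ)) = 1 := by
    have hz := Chars.classInner_self_irr ζ.2
    rw [Chars.classInner_def] at hz
    rw [Chars.classInner_def, h.sum_split _ (fun z hz => by rw [canonFun_of_not_mem _ hz, zero_mul]),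
      Finset.sum_congr rfl (g := fun y => ((ζ : D → ℂ) y * conj ((ζ : D → ℂ) y)) * S)
        (fun y _ => by
          rw [hS, Finset.mul_sum]
          refine Finset.sum_congr rfl fun r hr => ?_
          rw [h.apply_mul _ y (Finset.mem_filter.1 hr).2, map_mul]; ring),
      ← Finset.sum_mul]
    have hy : ∑ y : D, (ζ : D → ℂ) y * conj ((ζ : D → ℂ) y) = (Nat.card D : ℂ) := by
      rw [inv_mul_eq_iff_eq_mul₀ Chars.card_ne_zero, mul_one] at hz
      exact hz
    rw [hy, hθS, inv_mul_cancel₀ Chars.card_ne_zero]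
  rcases Chars.isIrrCharacter_of_gen_norm_one
    (h.isGen hpM (Chars.irr_isCharacter ζ)) hnorm with hh | hh
  · exact hh
  · exfalso
    obtain ⟨h1, h2⟩ := charDegree_eq ζ.2
    obtain ⟨h3, h4⟩ := charDegree_eq θ.2
    obtain ⟨h5, h6⟩ := charDegree_eq hh
    rw [Pi.neg_apply, canonFun_one, h1, h3] at h5
    have h7 : (((charDegree (ζ : D → ℂ) * charDegree (θ : G → ℂ) +
        charDegree (-canonFun p D θ (ζ : D → ℂ))) : ℕ) : ℂ) = 0 := by
      push_cast; rw [← h5]; ring
    have := Nat.cast_eq_zero.1 h7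
    omega

theorem IsCanonical.mem_block (h : IsCanonical p D θ) (hpM : (p : AlgInt) ∈ M) {B : Set (IrrCharacter G)}
    (hB : IsPBlock M B) (hθ : θ ∈ B) {F : IrrCharacter G} {ζ : IrrCharacter D}
    (hF : (F : G → ℂ) = canonFun p D θ (ζ : D → ℂ)) : F ∈ B := by
  have hs : SameBlock M (θ : G → ℂ) (F : G → ℂ) := by
    refine sameBlock_of_regular hpM fun r hr => ?_
    have h1 : (F : G → ℂ) r = (ζ : D → ℂ) 1 * (θ : G → ℂ) r := by
      rw [hF]
      have := h.apply_mul (ζ : D → ℂ) 1 hr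
      rwa [OneMemClass.coe_one, one_mul] at this
    rw [centralChar, centralChar, h1, show (F : G → ℂ) 1 = (ζ : D → ℂ) 1 * (θ : G → ℂ) 1 by
      rw [hF, canonFun_one], ← mul_assoc, mul_comm _ ((ζ : D → ℂ) 1), mul_assoc ((ζ : D → ℂ) 1),
      mul_div_mul_left _ _ (Chars.irr_apply_one_ne_zero ζ.2), sub_self]
    exact memI_zero
  rw [block_eq_of_mem hB hθ]
  exact hs

/-- The canonical characters form the block. -/
theorem IsCanonical.block_eq (h : IsCanonical p D θ) (hpM : (p : AlgInt) ∈ M)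
    {B : Set (IrrCharacter G)} (hB : IsPBlock M B) (hθ : θ ∈ B) (χ : IrrCharacter G) :
    χ ∈ B ↔ ∃ ζ : IrrCharacter D, (χ : G → ℂ) = canonFun p D θ (ζ : D → ℂ) := by
  classical
  have hp := (Fact.out : p.Prime)
  refine ⟨fun hχ => ?_, fun ⟨ζ, hζ⟩ => h.mem_block hpM hB hθ hζ⟩
  haveI := Fintype.ofFinite D
  let F : IrrCharacter D → IrrCharacter G := fun ζ => ⟨_, h.isIrr hpM ζ⟩
  have hFinj : Function.Injective F := by
    intro ζ ζ' he
    refine Subtype.ext (funext fun y => ?_)
    have h1 : canonFun p D θ (ζ : D → ℂ) ((y : G) * 1) = canonFun p D θ (ζ' : D → ℂ) ((y : G) * 1) :=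
      congrFun (congrArg Subtype.val he) _
    have hone : ¬ p ∣ orderOf (1 : G) := by rw [orderOf_one]; exact hp.not_dvd_one
    rw [h.apply_mul _ y hone, h.apply_mul _ y hone] at h1
    exact mul_right_cancel₀ (Chars.irr_apply_one_ne_zero θ.2) h1
  set A : Set (IrrCharacter G) := Set.range F
  let one' : IrrCharacter D := oneChar D
  have hθA : θ ∈ A := by
    refine ⟨one', Subtype.ext (funext fun z => ?_)⟩
    show canonFun p D θ (one' : D → ℂ) z = _
    by_cases hz : ppart p z ∈ D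
    · rw [canonFun_of_mem _ hz]; simp [one', oneChar]
    · rw [canonFun_of_not_mem _ hz, h.theta_eq_zero hpM hz]
  have hAloc : ∀ z : G, MemLocalRing M (blockCoeff A z) := by
    intro z
    rw [blockCoeff_eq_sum, Finset.sum_apply]
    have hfil : Finset.univ.filter (· ∈ A) = Finset.univ.image F := by
      ext x; simp [A]
    rw [hfil, Finset.sum_image (fun a _ b _ hab => hFinj hab)]
    simp only [eFun, ← Finset.mul_sum]
    by_cases hz : ppart p z ∈ D
    swap
    · rw [Finset.sum_eq_zero fun ζ _ => ?_, mul_zero]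
      · exact memR_zero
      · show canonFun p D θ (ζ : D → ℂ) 1 * conj (canonFun p D θ (ζ : D → ℂ) z) = 0
        rw [canonFun_of_not_mem _ hz, map_zero, mul_zero]
    have hcol := Chars.sum_apply_one_mul (G := D) (⟨ppart p z, hz⟩ : D)⁻¹
    have hsum : ∑ ζ : IrrCharacter D, (F ζ : G → ℂ) 1 * conj ((F ζ : G → ℂ) z) =
        (θ : G → ℂ) 1 * conj ((θ : G → ℂ) z) *
          if (⟨ppart p z, hz⟩ : D)⁻¹ = 1 then (Nat.card D : ℂ) else 0 := by
      rw [show (if (⟨ppart p z, hz⟩ : D)⁻¹ = 1 then (Nat.card D : ℂ) else 0) =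
        ∑ ζ : IrrCharacter D, (ζ : D → ℂ) 1 * (ζ : D → ℂ) (⟨ppart p z, hz⟩ : D)⁻¹ by
          rw [hcol]; split_ifs <;> rfl, Finset.mul_sum]
      refine Finset.sum_congr rfl fun ζ _ => ?_
      show canonFun p D θ (ζ : D → ℂ) 1 * conj (canonFun p D θ (ζ : D → ℂ) z) = _
      rw [canonFun_one, canonFun_of_mem _ hz, map_mul,
        Chars.char_inv_eq_conj (Chars.irr_isCharacter ζ)]
      ring
    rw [hsum]
    split_ifs
    swap
    · rw [mul_zero, mul_zero]; exact memR_zero
    obtain ⟨hd, hdpos⟩ := charDegree_eq θ.2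
    rw [hd]
    set d := charDegree (θ : G → ℂ)
    have hG : d * Nat.card D ≠ 0 := Nat.mul_ne_zero hdpos.ne' Nat.card_pos.ne'
    rw [show (Nat.card G : ℂ)⁻¹ * ((d : ℂ) * conj ((θ : G → ℂ) z) * (Nat.card D : ℂ)) =
      (((d * Nat.card D : ℕ) : ℂ) / (Nat.card G : ℂ)) * conj ((θ : G → ℂ) z) by push_cast; ring]
    refine memR_mul (natRatio_memR hpM hG Nat.card_pos.ne' ?_) (memR_of_isIntegral
      ((Chars.isIntegral_of_isCharacter (Chars.irr_isCharacter θ) z).map (starRingEnd ℂ).toIntAlgHom))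
    rw [Nat.factorization_mul hdpos.ne' Nat.card_pos.ne', Finsupp.add_apply, h.deg,
      ← D.card_mul_index, Nat.factorization_mul Nat.card_pos.ne' Subgroup.index_ne_zero_of_finite,
      Finsupp.add_apply]
    omega
  have hχA : χ ∈ A := mem_of_blockCoeff_local hAloc hθA (by
    exact sameBlock_of_mem hB hθ hχ)
  obtain ⟨ζ, rfl⟩ := hχA
  exact ⟨ζ, rfl⟩

/-- A block of `D C_G(D)` with defect group `D` has a canonical character. -/
theorem exists_canonical (hpM : (p : AlgInt) ∈ M) {B : Set (IrrCharacter G)} (hB : IsPBlock M B)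
    (hD : IsDefectGroup p M B D) (hG : D ⊔ Subgroup.centralizer (D : Set G) = ⊤) :
    ∃ θ ∈ B, IsCanonical p D θ := by
  classical
  have hp := (Fact.out : p.Prime)
  have hCN : Subgroup.centralizer (D : Set G) ≤ Subgroup.normalizer (D : Set G) :=
    Subgroup.centralizer_le_normalizer _
  haveI hDn : D.Normal := Subgroup.normalizer_eq_top_iff.1
    (eq_top_iff.2 (hG ▸ sup_le Subgroup.le_normalizer hCN))
  haveI hCn : (Subgroup.centralizer (D : Set G)).Normal := Subgroup.normal_centralizer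
  have hDp := isPGroup_defect hD
  have hidx : ∃ k, (Subgroup.centralizer (D : Set G)).index = p ^ k := by
    obtain ⟨k, hk⟩ := hDp.index ((Subgroup.centralizer (D : Set G)).subgroupOf D)
    refine ⟨k, ?_⟩
    rw [← hk, ← Subgroup.relIndex_top_right, ← hG]
    show (Subgroup.centralizer (D : Set G)).relIndex (D ⊔ Subgroup.centralizer (D : Set G)) = _
    rw [Subgroup.relIndex_sup_right]
    rfl
  obtain ⟨χ', θ, hθ, hθeq⟩ := (Cfsg.Agent.S0941.result p M ⟨hp, inferInstance, hpM⟩ D hDp hidx).2 B hB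
  have hker : ∀ y ∈ D, (θ : G → ℂ) y = (θ : G → ℂ) 1 := fun y hy => by
    rw [hθeq, Function.comp_apply, Function.comp_apply, (QuotientGroup.eq_one_iff y).2 hy,
      QuotientGroup.mk_one]
  refine ⟨θ, hθ, hDp, hDn, fun g => ?_, fun r hr => ?_, hker, ?_⟩
  · have hg : g ∈ D ⊔ Subgroup.centralizer (D : Set G) := hG ▸ Subgroup.mem_top g
    rw [← SetLike.mem_coe, Subgroup.mul_normal] at hg
    obtain ⟨d, hd, c, hc, rfl⟩ := hg
    exact ⟨d, hd, c, hc, rfl⟩
  · obtain ⟨k, hk⟩ := hidx
    have h1 : r ^ p ^ k ∈ Subgroup.centralizer (D : Set G) := hk ▸ Subgroup.pow_index_mem _ r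
    have hc : Nat.Coprime (orderOf r) (p ^ k) := (hp.coprime_iff_not_dvd.2 hr).symm.pow_right k
    obtain ⟨i, hi⟩ := exists_pow_eq_self_of_coprime hc.symm
    rw [← hi]
    exact Subgroup.pow_mem _ h1 i
  · have hd : charDegree (θ : G → ℂ) = charDegree (χ' : G ⧸ D → ℂ) := by simp [charDegree, hθeq]
    haveI : Fintype (G ⧸ D) := Fintype.ofFinite _
    have hupper : (charDegree (θ : G → ℂ)).factorization p ≤ D.index.factorization p := by
      rw [hd, Subgroup.index_eq_card]
      exact charDegree_factorization_le χ'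
    refine le_antisymm hupper ?_
    have hcard := card_defectGroup hpM hB hD
    have hDfac : (Nat.card D).factorization p = blockDefect p B := by
      rw [hcard, hp.factorization_pow, Finsupp.single_eq_same]
    have hinf : sInf ((fun χ : IrrCharacter G => (charDegree (χ : G → ℂ)).factorization p) '' B) ≤
        (charDegree (θ : G → ℂ)).factorization p := Nat.sInf_le ⟨θ, hθ, rfl⟩
    have hGfac := congrArg (fun m => m.factorization p) D.card_mul_index
    simp only [Nat.factorization_mul Nat.card_pos.ne' Subgroup.index_ne_zero_of_finite,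
      Finsupp.add_apply, hDfac] at hGfac
    unfold blockDefect at hGfac
    omega

theorem IsCanonical.canon_injective (h : IsCanonical p D θ) {ζ ζ' : IrrCharacter D}
    (he : canonFun p D θ (ζ : D → ℂ) = canonFun p D θ (ζ' : D → ℂ)) : ζ = ζ' := by
  refine Subtype.ext (funext fun y => ?_)
  have h1 := congrFun he ((y : G) * 1)
  have hone : ¬ p ∣ orderOf (1 : G) := by rw [orderOf_one]; exact (Fact.out : p.Prime).not_dvd_one
  rw [h.apply_mul _ y hone, h.apply_mul _ y hone] at h1
  exact mul_right_cancel₀ (Chars.irr_apply_one_ne_zero θ.2) h1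

theorem IsCanonical.eq_of_trivial (h : IsCanonical p D θ) (hpM : (p : AlgInt) ∈ M)
    {B : Set (IrrCharacter G)} (hB : IsPBlock M B) (hθ : θ ∈ B) {χ : IrrCharacter G} (hχ : χ ∈ B)
    (htriv : ∀ y ∈ D, (χ : G → ℂ) y = (χ : G → ℂ) 1) : χ = θ := by
  classical
  haveI := Fintype.ofFinite D
  obtain ⟨ζ, hζ⟩ := (h.block_eq hpM hB hθ χ).1 hχ
  have hone : ¬ p ∣ orderOf (1 : G) := by rw [orderOf_one]; exact (Fact.out : p.Prime).not_dvd_one
  have hconst : ∀ y : D, (ζ : D → ℂ) y = (ζ : D → ℂ) 1 := fun y => by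
    have h1 := htriv y y.2
    rw [hζ, canonFun_one, ← mul_one (y : G), h.apply_mul _ y hone] at h1
    exact mul_right_cancel₀ (Chars.irr_apply_one_ne_zero θ.2) h1
  have h1 : (ζ : D → ℂ) 1 = 1 := by
    by_contra hd
    have hne : ζ ≠ oneChar D := fun e => hd (by rw [e]; rfl)
    have horth := Chars.classInner_irrCharacter ζ (oneChar D)
    rw [if_neg hne, Chars.classInner_def] at horth
    simp [hconst, oneChar, Chars.irr_apply_one_ne_zero ζ.2] at horth
  refine Subtype.ext (funext fun z => ?_)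
  rw [hζ]
  by_cases hz : ppart p z ∈ D
  · rw [canonFun_of_mem _ hz, hconst, h1, one_mul]
  · rw [canonFun_of_not_mem _ hz, h.theta_eq_zero hpM hz]

theorem IsCanonical.card_block (h : IsCanonical p D θ) (hpM : (p : AlgInt) ∈ M)
    {B : Set (IrrCharacter G)} (hB : IsPBlock M B) (hθ : θ ∈ B) :
    Nat.card B = Nat.card (ConjClasses D) := by
  rw [← Chars.card_irr_eq_card_conjClasses]
  refine (Nat.card_eq_of_bijective
    (fun ζ : IrrCharacter D => (⟨⟨_, h.isIrr hpM ζ⟩, h.mem_block hpM hB hθ rfl⟩ : B)) ⟨?_, ?_⟩).symm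
  · intro ζ ζ' he
    exact h.canon_injective (congrArg (fun x : B => ((x : IrrCharacter G) : G → ℂ)) he)
  · rintro ⟨χ, hχ⟩
    obtain ⟨ζ, hζ⟩ := (h.block_eq hpM hB hθ χ).1 hχ
    exact ⟨ζ, Subtype.ext (Subtype.ext hζ.symm)⟩

/-- The characterisation by values. -/
theorem IsCanonical.eq_canonFun_iff (h : IsCanonical p D θ) (F : G → ℂ) (ζ : D → ℂ) :
    F = canonFun p D θ ζ ↔
      (∀ (y : D) (x : G), ¬ p ∣ orderOf x → Commute (y : G) x →
        F ((y : G) * x) = ζ y * (θ : G → ℂ) x) ∧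
      ∀ z : G, (∀ y : G, IsPPart p z y → y ∉ D) → F z = 0 := by
  constructor
  · rintro rfl
    exact ⟨fun y x hx _ => h.apply_mul ζ y hx,
      fun z hz => canonFun_of_not_mem ζ (hz _ (isPPart_ppart z))⟩
  · rintro ⟨h1, h2⟩
    funext z
    by_cases hz : ppart p z ∈ D
    · obtain ⟨w, hw, hc, -, hwr⟩ := isPPart_ppart (p := p) z
      have h3 := h1 ⟨_, hz⟩ w hwr hc
      have h4 := h.apply_mul ζ ⟨_, hz⟩ hwr
      simp only [hw] at h3 h4
      rw [h3, h4]
    · rw [canonFun_of_not_mem ζ hz, h2 z fun y hy => by rw [eq_ppart hy]; exact hz]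

theorem IsCanonical.blockRank_eq_one (h : IsCanonical p D θ) (hpM : (p : AlgInt) ∈ M)
    {B : Set (IrrCharacter G)} (hB : IsPBlock M B) (hθ : θ ∈ B) : blockRank p B = 1 := by
  classical
  unfold blockRank
  have hspan : Submodule.span ℂ ((fun χ : IrrCharacter G => pRegularPart p (χ : G → ℂ)) '' B) =
      Submodule.span ℂ {pRegularPart p (θ : G → ℂ)} := by
    refine le_antisymm (Submodule.span_le.2 ?_)
      ((Submodule.span_singleton_le_iff_mem _ _).2 (Submodule.subset_span ⟨θ, hθ, rfl⟩))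
    rintro _ ⟨χ, hχ, rfl⟩
    obtain ⟨ζ, hζ⟩ := (h.block_eq hpM hB hθ χ).1 hχ
    refine Submodule.mem_span_singleton.2 ⟨(ζ : D → ℂ) 1, ?_⟩
    funext g
    simp only [Pi.smul_apply, smul_eq_mul, pRegularPart, IsPRegular]
    by_cases hg : p ∣ orderOf g
    · simp [hg]
    · simp only [hg, not_false_eq_true, if_true]
      have := h.apply_mul (ζ : D → ℂ) 1 hg
      rw [OneMemClass.coe_one, one_mul] at this
      rw [hζ, this]
  rw [hspan]
  refine finrank_span_singleton fun h0 => ?_
  have := congrFun h0 1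
  simp [pRegularPart, IsPRegular, (Fact.out : p.Prime).ne_one, Chars.irr_apply_one_ne_zero θ.2] at this

end Cfsg.Agent.Blocks
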