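import Cfsg.Agent.Blocks.ChainCancel
import Cfsg.Agent.BlockChar.Subsection
import Cfsg.Agent.BlockChar.Bridge

/-!
The blocks above a block along chains of `p`-subgroups.
-/

namespace Cfsg.Agent.Blocks

open Cfsg Cfsg.Agent Cfsg.Agent.BlockChar
open scoped ComplexConjugate

set_option linter.unusedSectionVars false
set_option linter.style.haveILetI false

universe u

variable {G : Type u} [Group G] [Fintype G] {p : ℕ} [Fact p.Prime] {M : Ideal AlgInt}
  [M.IsMaximal] {N : Type u} [Group N] [Fintype N]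

/-- The rank of a union of blocks, counted on the `p`-regular elements. -/
theorem card_mul_blockRank_union (hpM : (p : AlgInt) ∈ M) {S : Set (IrrCharacter N)}
    (hS : ∀ χ ∈ S, blockOf M (χ : N → ℂ) ⊆ S) :
    (Nat.card N : ℂ) * (blockRank p S : ℂ) = ∑ x ∈ regs p N, kerB S x x := by
  classical
  have hsum : ∀ χ ∈ S, ∀ x : N, ¬ p ∣ orderOf x →
      ∑ ψ ∈ bf S, regInner p (χ : N → ℂ) (ψ : N → ℂ) * (ψ : N → ℂ) x = (χ : N → ℂ) x := by
    intro χ hχ x hx
    rw [← sum_regInner_bf hpM (isPBlock_blockOf χ) (mem_blockOf_self χ) hx]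
    symm
    refine Finset.sum_subset (fun ψ hψ => mem_bf.2 (hS χ hχ (mem_bf.1 hψ))) fun ψ _ hψ => ?_
    rw [regInner_eq_zero hpM fun hs => hψ (mem_bf.2 hs), zero_mul]
  set V : Submodule ℂ (N → ℂ) :=
    Submodule.span ℂ ((fun χ : IrrCharacter N => pRegularPart p (χ : N → ℂ)) '' S) with hV
  let T : (N → ℂ) →ₗ[ℂ] (N → ℂ) :=
    { toFun := fun f => ∑ χ ∈ bf S,
        ((Nat.card N : ℂ)⁻¹ * ∑ y ∈ regs p N, conj ((χ : N → ℂ) y) * f y) •
          pRegularPart p (χ : N → ℂ)
      map_add' := fun f g => by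
        simp only [Pi.add_apply, mul_add, Finset.sum_add_distrib, add_smul]
      map_smul' := fun c f => by
        simp only [Pi.smul_apply, smul_eq_mul, RingHom.id_apply, Finset.smul_sum, smul_smul,
          Finset.mul_sum]
        refine Finset.sum_congr rfl fun χ _ => ?_
        congr 1
        exact Finset.sum_congr rfl fun y _ => by ring }
  have hT : ∀ f, T f = ∑ χ ∈ bf S,
      ((Nat.card N : ℂ)⁻¹ * ∑ y ∈ regs p N, conj ((χ : N → ℂ) y) * f y) •
        pRegularPart p (χ : N → ℂ) := fun _ => rfl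
  have hproj : LinearMap.IsProj V T := by
    refine ⟨fun f => ?_, fun f hf => ?_⟩
    · rw [hT]
      exact Submodule.sum_mem _ fun χ hχ =>
        Submodule.smul_mem _ _ (Submodule.subset_span ⟨χ, mem_bf.1 hχ, rfl⟩)
    · induction hf using Submodule.span_induction with
      | mem v hv =>
        obtain ⟨χ, hχ, rfl⟩ := hv
        have hcoef : ∀ ψ : IrrCharacter N, (Nat.card N : ℂ)⁻¹ *
            ∑ y ∈ regs p N, conj ((ψ : N → ℂ) y) * pRegularPart p (χ : N → ℂ) y =
              regInner p (χ : N → ℂ) (ψ : N → ℂ) := fun ψ => by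
          rw [regInner]
          congr 1
          refine Finset.sum_congr rfl fun y hy => ?_
          rw [pRegularPart, if_pos (show IsPRegular p y from mem_regs.1 hy), mul_comm]
        funext x
        rw [hT, Finset.sum_apply]
        simp only [hcoef, Pi.smul_apply, smul_eq_mul]
        by_cases hx : IsPRegular p x
        · simp only [pRegularPart, if_pos hx]
          exact hsum χ hχ x hx
        · simp [pRegularPart, if_neg hx]
      | zero => exact map_zero _
      | add a b _ _ ha hb => rw [map_add, ha, hb]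
      | smul c a _ ha => rw [map_smul, ha]
  have htr : (blockRank p S : ℂ) = LinearMap.trace ℂ (N → ℂ) T := hproj.trace.symm
  rw [htr, LinearMap.trace_eq_matrix_trace ℂ (Pi.basisFun ℂ N), Matrix.trace, Finset.mul_sum]
  simp only [Matrix.diag_apply, LinearMap.toMatrix_apply, Pi.basisFun_apply, Pi.basisFun_repr, hT,
    Finset.sum_apply, Pi.smul_apply, smul_eq_mul]
  rw [show ∑ x ∈ regs p N, kerB S x x = ∑ x : N, if ¬ p ∣ orderOf x then kerB S x x else 0 by
    rw [regs, Finset.sum_filter]]
  refine Finset.sum_congr rfl fun x _ => ?_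
  split_ifs with hx
  · rw [Finset.sum_eq_zero, mul_zero]
    intro χ _
    simp [pRegularPart, IsPRegular, hx]
  · simp only [kerB, Finset.mul_sum]
    refine Finset.sum_congr rfl fun χ _ => ?_
    rw [Finset.sum_mul, Finset.mul_sum, Finset.sum_eq_single (a := x)]
    · simp [pRegularPart, IsPRegular, hx]
      field_simp
    · intro y _ hy; simp [Pi.single_eq_of_ne hy]
    · intro h; exact absurd (mem_regs.2 hx) h

/-- The characters above a central character along a homomorphism. -/
def aboveSet (M : Ideal AlgInt) [M.IsMaximal] (f : N →* G) (χ₀ : IrrCharacter G) :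
    Set (IrrCharacter N) :=
  {ψ | ∀ g : G, MemLocalIdeal M
    (omega (ψ : N → ℂ) (fun n => clsFun g (f n)) - omega (χ₀ : G → ℂ) (clsFun g))}

theorem isClassFunction_clsFun_comp (f : N →* G) (g : G) :
    IsClassFunction N (fun n => clsFun g (f n)) := fun n c => by
  show clsFun g (f (c * n * c⁻¹)) = clsFun g (f n)
  rw [map_mul, map_mul, map_inv]
  exact isClassFunction_clsFun g (f n) (f c)

theorem aboveSet_closed {f : N →* G} {χ₀ : IrrCharacter G} :
    ∀ ψ ∈ aboveSet M f χ₀, blockOf M (ψ : N → ℂ) ⊆ aboveSet M f χ₀ := by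
  intro ψ hψ φ hφ g
  have h := omega_congr (sameBlock_symm (show SameBlock M (ψ : N → ℂ) (φ : N → ℂ) from hφ))
    (isClassFunction_clsFun_comp f g) (fun n => rFun_clsFun g (f n))
  convert memI_add h (hψ g) using 1
  ring

theorem block_subset_or_disjoint {f : N →* G} {χ₀ : IrrCharacter G} {B : Set (IrrCharacter N)}
    (hB : IsPBlock M B) {ψ : IrrCharacter N} (hψ : ψ ∈ B) :
    B ⊆ aboveSet M f χ₀ ↔ ψ ∈ aboveSet M f χ₀ :=
  ⟨fun h => h hψ, fun h => by rw [block_eq_of_mem hB hψ]; exact aboveSet_closed ψ h⟩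

open scoped Classical in
/-- A closed set is split into blocks. -/
theorem kerB_eq_sum_blocks {S : Set (IrrCharacter N)}
    (hS : ∀ χ ∈ S, blockOf M (χ : N → ℂ) ⊆ S) (x : N) :
    kerB S x x = ∑ B ∈ (blockFinset M N).filter (fun B => B ⊆ S), kerB B x x := by
  classical
  rw [kerB, ← Finset.sum_fiberwise_of_maps_to (g := fun χ : IrrCharacter N => blockOf M (χ : N → ℂ))
    (t := (blockFinset M N).filter (fun B => B ⊆ S)) fun χ hχ =>
      Finset.mem_filter.2 ⟨mem_blockFinset.2 (isPBlock_blockOf χ), hS χ (mem_bf.1 hχ)⟩]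
  refine Finset.sum_congr rfl fun B hB => ?_
  rw [Finset.mem_filter, mem_blockFinset] at hB
  rw [kerB]
  refine Finset.sum_congr ?_ fun _ _ => rfl
  ext χ
  rw [Finset.mem_filter, mem_bf, mem_bf]
  constructor
  · rintro ⟨-, rfl⟩; exact mem_blockOf_self χ
  · exact fun h => ⟨hB.2 h, (block_eq_of_mem hB.1 h).symm⟩

/-- Passing to the centralizer of the `p`-part. -/
theorem kerB_aboveSet_centralizer (hpM : (p : AlgInt) ∈ M) (f : N →* G) (χ₀ : IrrCharacter G)
    {u : N} (hu : ∃ k : ℕ, orderOf u = p ^ k) {H : Subgroup N} [Fintype H]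
    (hH : H = Subgroup.centralizer ({u} : Set N)) {s : H} (hs : ¬ p ∣ orderOf s) :
    kerB (aboveSet M f χ₀) (u * (s : N)) (u * (s : N)) =
      kerB (aboveSet M (f.comp H.subtype) χ₀) s s := by
  classical
  rw [kerB_eq_sum_blocks aboveSet_closed, kerB_eq_sum_blocks aboveSet_closed]
  rw [Finset.sum_congr rfl fun B hB =>
    sum_block_column hH hu hpM (mem_blockFinset.1 (Finset.mem_filter.1 hB).1) hs]
  simp only [Finset.sum_filter]
  rw [Finset.sum_congr rfl (g := fun B => ∑ β ∈ blockFinset M H,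
    if B ⊆ aboveSet M f χ₀ ∧ IsInducedBlock M H β B then kerB β s s else 0) fun B _ => by
      split_ifs with h <;> simp [h]]
  rw [Finset.sum_comm]
  refine Finset.sum_congr rfl fun β hβ => ?_
  have hβb := mem_blockFinset.1 hβ
  obtain ⟨B', hB'⟩ := induced_defined_sec hH hu hpM hβb
  obtain ⟨ξ, hξ⟩ := block_nonempty hβb
  obtain ⟨ψ, hψ⟩ := block_nonempty hB'.2.1
  have hiff : β ⊆ aboveSet M (f.comp H.subtype) χ₀ ↔ B' ⊆ aboveSet M f χ₀ := by
    rw [block_subset_or_disjoint hβb hξ, block_subset_or_disjoint hB'.2.1 hψ]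
    refine forall_congr' fun g => ?_
    have h := isInducedBlock_apply H hpM hB' hξ hψ (isClassFunction_clsFun_comp f g)
      (fun n => rFun_clsFun g (f n))
    have e : (fun n : H => clsFun g ((f.comp H.subtype) n)) =
        resFun H (fun n => clsFun g (f n)) := rfl
    rw [e]
    constructor
    · intro h1
      convert memI_sub h1 h using 1
      ring
    · intro h1
      convert memI_add h1 h using 1
      ring
  rw [Finset.sum_eq_single B']
  · by_cases h : β ⊆ aboveSet M (f.comp H.subtype) χ₀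
    · rw [if_pos ⟨hiff.1 h, hB'⟩, if_pos h]
    · rw [if_neg fun h' => h (hiff.2 h'.1), if_neg h]
  · exact fun B _ hne => if_neg fun h' => hne (isInducedBlock_unique H hpM h'.2 hB')
  · exact fun h => absurd (mem_blockFinset.2 hB'.2.1) h

/-- Invariance under isomorphisms. -/
theorem kerB_aboveSet_equiv {N' : Type u} [Group N'] [Fintype N'] (e : N' ≃* N) (f : N →* G)
    (χ₀ : IrrCharacter G) (x : N') :
    kerB (aboveSet M (f.comp e.toMonoidHom) χ₀) x x = kerB (aboveSet M f χ₀) (e x) (e x) := by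
  classical
  symm
  refine Finset.sum_equiv (irrEquiv e) (fun ψ => ?_) fun ψ _ => by simp only [irrEquiv_apply]
  rw [mem_bf, mem_bf]
  refine forall_congr' fun g => ?_
  have e1 : omega (irrEquiv e ψ : N' → ℂ) (fun n => clsFun g ((f.comp e.toMonoidHom) n)) =
      omega (ψ : N → ℂ) (fun n => clsFun g (f n)) :=
    omega_comp_equiv e (ψ : N → ℂ) (fun n => clsFun g (f n))
  rw [e1]

/-- The count of characters minus the rank. -/
theorem card_sub_rank_eq (hpM : (p : AlgInt) ∈ M) {S : Set (IrrCharacter N)}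
    (hS : ∀ χ ∈ S, blockOf M (χ : N → ℂ) ⊆ S) :
    (Nat.card N : ℂ) * ((Nat.card S : ℂ) - (blockRank p S : ℂ)) =
      ∑ x : N, if p ∣ orderOf x then kerB S x x else 0 := by
  classical
  have h1 : ∑ x : N, kerB S x x = (Nat.card N : ℂ) * (Nat.card S : ℂ) := by
    simp only [kerB]
    rw [Finset.sum_comm, card_bf, Finset.sum_congr rfl (g := fun _ => (Nat.card N : ℂ)) ?_,
      Finset.sum_const, nsmul_eq_mul, mul_comm]
    intro χ _
    have h := Chars.classInner_irrCharacter χ χ
    rw [if_pos rfl, Chars.classInner_def, inv_mul_eq_div, div_eq_iff Chars.card_ne_zero,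
      one_mul] at h
    exact h
  rw [mul_sub, ← h1, card_mul_blockRank_union hpM hS, regs, Finset.sum_filter,
    ← Finset.sum_sub_distrib]
  exact Finset.sum_congr rfl fun x _ => by split_ifs <;> simp

open ChainCancel

noncomputable local instance (priority := 10000) chainFintype (L : Subgroup G) : Fintype L :=
  Fintype.ofFinite L

/-- The local sum of a subgroup at an element. -/
noncomputable def localSum (M : Ideal AlgInt) [M.IsMaximal] (χ₀ : IrrCharacter G) (x : G)
    (K : Subgroup G) : ℂ := by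
  classical
  exact if h : x ∈ K then kerB (aboveSet M K.subtype χ₀) (⟨x, h⟩ : K) ⟨x, h⟩ else 0

/-- The local sum at a singular element. -/
theorem kerB_eq_localSum (hpM : (p : AlgInt) ∈ M) (χ₀ : IrrCharacter G) (L : Subgroup G) (g : L) :
    kerB (aboveSet M L.subtype χ₀) g g = localSum M χ₀ ((ppart p (g : G))⁻¹ * (g : G))
      (Subgroup.centralizer ({ppart p (g : G)} : Set G) ⊓ L) := by
  classical
  obtain ⟨s, hgs, hc, hu, hs⟩ := isPPart_ppart (p := p) g
  set u := ppart p g with hudef
  have hcs : s ∈ Subgroup.centralizer ({u} : Set L) :=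
    Subgroup.mem_centralizer_singleton_iff.2 hc.symm.eq
  have huG : ppart p (g : G) = (u : G) := by
    rw [← hgs, Subgroup.coe_mul]
    exact ppart_mul (congrArg Subtype.val hc.eq) (by simpa only [Subgroup.orderOf_coe] using hu)
      (by simpa only [Subgroup.orderOf_coe] using hs)
  set K := Subgroup.centralizer ({(u : G)} : Set G) ⊓ L with hK
  have hxK : (s : G) ∈ K :=
    ⟨Subgroup.mem_centralizer_singleton_iff.2 (congrArg Subtype.val hc.symm.eq), s.2⟩
  let e : K ≃* Subgroup.centralizer ({u} : Set L) :=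
    { toFun := fun k => ⟨⟨k.1, k.2.2⟩, Subgroup.mem_centralizer_singleton_iff.2
        (Subtype.ext (Subgroup.mem_centralizer_singleton_iff.1 k.2.1))⟩
      invFun := fun c => ⟨c.1.1, Subgroup.mem_centralizer_singleton_iff.2
        (congrArg Subtype.val (Subgroup.mem_centralizer_singleton_iff.1 c.2)), c.1.2⟩
      left_inv := fun _ => rfl
      right_inv := fun _ => rfl
      map_mul' := fun _ _ => rfl }
  have h := kerB_aboveSet_centralizer hpM L.subtype χ₀ hu (H := Subgroup.centralizer ({u} : Set L))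
    rfl (s := ⟨s, hcs⟩) (by rwa [← Subgroup.orderOf_coe])
  conv_lhs => rw [← hgs]
  have h' : kerB (aboveSet M L.subtype χ₀) (u * s) (u * s) = _ := h
  rw [h', ← show e ⟨s, hxK⟩ = (⟨s, hcs⟩ : Subgroup.centralizer ({u} : Set L)) from rfl,
    ← kerB_aboveSet_equiv e, huG]
  have hx : (u : G)⁻¹ * (g : G) = s := by rw [← hgs, Subgroup.coe_mul, inv_mul_cancel_left]
  rw [hx, localSum, dif_pos hxK]
  rfl

/-- The alternating sum over the chains. -/
theorem chain_identity (hpM : (p : AlgInt) ∈ M) {b : Set (IrrCharacter G)} (hb : IsPBlock M b)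
    {χ₀ : IrrCharacter G} (hχ₀ : χ₀ ∈ b) (U : Finset (Finset (Subgroup G)))
    (hU : ∀ s, s ∈ U ↔ IsChainP p s ∧ IsNormalChain s) :
    (Nat.card G : ℂ) * ((Nat.card b : ℂ) - (blockRank p b : ℂ)) =
      ∑ s ∈ U, (-1 : ℂ) ^ (s.card - 1) * ((Nat.card (chainNormalizer s) : ℂ) *
        ((Nat.card (aboveSet M (chainNormalizer s).subtype χ₀) : ℂ) -
          (blockRank p (aboveSet M (chainNormalizer s).subtype χ₀) : ℂ))) := by
  classical
  have hbS : b = aboveSet M (MonoidHom.id G) χ₀ := by
    ext ψ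
    constructor
    · intro hψ g
      exact omega_congr (sameBlock_of_mem hb hψ hχ₀) (isClassFunction_clsFun g) (rFun_clsFun g)
    · intro hψ
      exact mem_of_sameBlock hb hχ₀ (sameBlock_symm (sameBlock_of_omega fun g => hψ g))
  rw [card_sub_rank_eq hpM (fun χ hχ => by rw [← block_eq_of_mem hb hχ])]
  simp only [card_sub_rank_eq hpM aboveSet_closed]
  let T : G → Finset (Subgroup G) → ℂ := fun g s =>
    if p ∣ orderOf g ∧ g ∈ chainNormalizer s then (-1 : ℂ) ^ (s.card - 1) *
      localSum M χ₀ ((ppart p g)⁻¹ * g)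
        (Subgroup.centralizer ({ppart p g} : Set G) ⊓ chainNormalizer s) else 0
  have hR : ∀ s : Finset (Subgroup G), (-1 : ℂ) ^ (s.card - 1) *
      (∑ x : chainNormalizer s, if p ∣ orderOf x then
        kerB (aboveSet M (chainNormalizer s).subtype χ₀) x x else 0) = ∑ g : G, T g s := by
    intro s
    rw [Finset.mul_sum]
    have h1 : ∑ g : G, T g s = ∑ g ∈ Finset.univ.filter (· ∈ chainNormalizer s), T g s := by
      rw [Finset.sum_filter]
      exact Finset.sum_congr rfl fun g _ => by
        by_cases hg : g ∈ chainNormalizer s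
        · rw [if_pos hg]
        · rw [if_neg hg]; exact if_neg fun h => hg h.2
    rw [h1, Finset.sum_subtype (p := (· ∈ chainNormalizer s)) _ (fun g => by simp) _]
    refine Finset.sum_congr rfl fun x _ => ?_
    simp only [T, Subgroup.orderOf_coe, x.2, and_true]
    split_ifs with hx
    · rw [kerB_eq_localSum hpM χ₀ _ x]
    · rw [mul_zero]
  rw [Finset.sum_congr rfl fun s _ => hR s, Finset.sum_comm]
  refine Finset.sum_congr rfl fun g _ => ?_
  by_cases hg : p ∣ orderOf g
  swap
  · rw [if_neg hg, Finset.sum_eq_zero fun s _ => if_neg fun h => hg h.1]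
  rw [if_pos hg]
  simp only [T, hg, true_and]
  rw [← Finset.sum_filter]
  set u := ppart p g with hu
  set W : Finset (Finset (Subgroup G)) :=
    Finset.univ.filter fun s => IsChainP p s ∧ g ∈ chainNormalizer s with hWdef
  have hW : ∀ s, s ∈ W ↔ IsChainP p s ∧ g ∈ chainNormalizer s := fun s => by simp [hWdef]
  have hsame : U.filter (fun s => g ∈ chainNormalizer s) = W.filter (fun s => IsNormalChain s) := by
    ext s
    simp only [Finset.mem_filter, hU, hW]
    tauto
  have hu1 : u ≠ 1 := fun h => (ppart_one_iff.1 h) hg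
  have hup : IsPGroup p (Subgroup.zpowers u) := by
    obtain ⟨k, hk⟩ := exists_orderOf_ppart (p := p) g
    exact IsPGroup.of_card ((Nat.card_zpowers u).trans hk)
  rw [hsame, ← sum_all_eq_sum_normal
    (fun L => localSum M χ₀ (u⁻¹ * g) (Subgroup.centralizer ({u} : Set G) ⊓ L)) W g hW,
    sum_all_eq (fun K => localSum M χ₀ (u⁻¹ * g) K) W hu1 hup
      (Subgroup.pow_mem _ (Subgroup.mem_zpowers g) _) hW]
  -- the local sum of the whole group
  obtain ⟨s, hgs, hc, hu', hs⟩ := isPPart_ppart (p := p) g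
  have hcs : s ∈ Subgroup.centralizer ({u} : Set G) :=
    Subgroup.mem_centralizer_singleton_iff.2 hc.symm.eq
  have hx : u⁻¹ * g = s := by rw [← hgs, inv_mul_cancel_left]
  have h := kerB_aboveSet_centralizer hpM (MonoidHom.id G) χ₀ hu'
    (H := Subgroup.centralizer ({u} : Set G)) rfl (s := ⟨s, hcs⟩)
    (by rwa [← Subgroup.orderOf_coe])
  rw [← hbS] at h
  rw [hx, localSum, dif_pos hcs]
  conv_lhs => rw [← hgs]
  exact h

/-- The set in the statement is the set above the central character. -/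
theorem setOf_induced_eq (hpM : (p : AlgInt) ∈ M) {b : Set (IrrCharacter G)} (hb : IsPBlock M b)
    {χ₀ : IrrCharacter G} (hχ₀ : χ₀ ∈ b) (L : Subgroup G) :
    {ψ : IrrCharacter L | ∃ β : Set (IrrCharacter L), ψ ∈ β ∧ IsInducedBlock M L β b} =
      aboveSet M L.subtype χ₀ := by
  ext ψ
  constructor
  · rintro ⟨β, hψ, hβ⟩ g
    exact (isInducedBlock_apply (M := M) (p := p) L hpM hβ hψ hχ₀
      (f := clsFun g) (isClassFunction_clsFun g) (rFun_clsFun g) :)
  · intro h
    exact ⟨blockOf M (ψ : L → ℂ), mem_blockOf_self ψ,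
      isInducedBlock_of_omega L (isPBlock_blockOf ψ) hb (mem_blockOf_self ψ) hχ₀ h⟩

end Cfsg.Agent.Blocks
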