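import Mathlib

/-!
Cancellations in alternating sums over chains of `p`-subgroups.
-/

set_option autoImplicit false
set_option linter.unusedSectionVars false

namespace Cfsg.Agent.Blocks.ChainCancel

open Finset

variable {G : Type*} [Group G] [Fintype G] {p : ℕ} [Fact p.Prime]

/-- A chain of non-trivial `p`-subgroups. -/
def IsChainP (p : ℕ) (s : Finset (Subgroup G)) : Prop :=
  s.Nonempty ∧ (∀ Q ∈ s, ∀ R ∈ s, Q ≤ R ∨ R ≤ Q) ∧ ∀ Q ∈ s, Q ≠ ⊥ ∧ IsPGroup p Q

/-- Every member is normal in the largest one. -/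
def IsNormalChain (s : Finset (Subgroup G)) : Prop :=
  ∀ Q ∈ s, ∀ R ∈ s, Q ≤ R → R ≤ Subgroup.normalizer (Q : Set G)

/-- The stabiliser of a chain. -/
def chainNormalizer (s : Finset (Subgroup G)) : Subgroup G :=
  ⨅ Q ∈ s, Subgroup.normalizer (Q : Set G)

theorem mem_chainNormalizer {s : Finset (Subgroup G)} {g : G} :
    g ∈ chainNormalizer s ↔ ∀ Q ∈ s, g ∈ Subgroup.normalizer (Q : Set G) := by
  simp [chainNormalizer, Subgroup.mem_iInf]

theorem exists_top {s : Finset (Subgroup G)} (hne : s.Nonempty)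
    (hlin : ∀ Q ∈ s, ∀ R ∈ s, Q ≤ R ∨ R ≤ Q) : ∃ T ∈ s, ∀ Q ∈ s, Q ≤ T := by
  obtain ⟨T, hT⟩ := s.exists_maximal hne
  exact ⟨T, hT.1, fun Q hQ => (hlin Q hQ T hT.1).elim id fun h => hT.2 hQ h⟩

theorem isNormalChain_iff {s : Finset (Subgroup G)} (hne : s.Nonempty)
    (hlin : ∀ Q ∈ s, ∀ R ∈ s, Q ≤ R ∨ R ≤ Q) :
    IsNormalChain s ↔ ∃ T ∈ s, ∀ Q ∈ s, Q ≤ T ∧ T ≤ Subgroup.normalizer (Q : Set G) := by
  constructor
  · intro h
    obtain ⟨T, hT, htop⟩ := exists_top hne hlin
    exact ⟨T, hT, fun Q hQ => ⟨htop Q hQ, h Q hQ T hT (htop Q hQ)⟩⟩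
  · rintro ⟨T, hT, h⟩ Q hQ R hR -
    exact (h R hR).1.trans (h Q hQ).2

/-- Toggling one subgroup. -/
noncomputable def toggle (R : Subgroup G) (s : Finset (Subgroup G)) : Finset (Subgroup G) := by
  classical exact if R ∈ s then s.erase R else insert R s

open scoped Classical in
theorem toggle_sign (R : Subgroup G) (s : Finset (Subgroup G)) (hne : s.Nonempty)
    (hne' : (toggle R s).Nonempty) :
    (-1 : ℂ) ^ (s.card - 1) + (-1 : ℂ) ^ ((toggle R s).card - 1) = 0 := by
  classical
  unfold toggle at hne' ⊢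
  have h1 := card_pos.2 hne
  by_cases h : R ∈ s
  · simp only [if_pos h] at hne' ⊢
    have h2 := card_pos.2 hne'
    rw [card_erase_of_mem h] at h2 ⊢
    obtain ⟨c, hc⟩ : ∃ c, s.card = c + 2 := ⟨s.card - 2, by omega⟩
    rw [hc, show c + 2 - 1 = c + 1 by omega, show c + 1 - 1 = c by omega, pow_succ]
    ring
  · simp only [if_neg h]
    rw [card_insert_of_notMem h]
    obtain ⟨c, hc⟩ : ∃ c, s.card = c + 1 := ⟨s.card - 1, by omega⟩
    rw [hc, show c + 1 - 1 = c by omega, show c + 1 + 1 - 1 = c + 1 by omega, pow_succ]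
    ring

theorem toggle_ne (R : Subgroup G) (s : Finset (Subgroup G)) : toggle R s ≠ s := by
  classical
  unfold toggle
  split_ifs with h
  · exact fun e => (Finset.notMem_erase R s) (e.symm ▸ h)
  · exact fun e => h (e ▸ Finset.mem_insert_self R s)

theorem toggle_toggle (R : Subgroup G) (s : Finset (Subgroup G)) :
    toggle R (toggle R s) = s := by
  classical
  unfold toggle
  by_cases h : R ∈ s
  · simp only [if_pos h, if_neg (Finset.notMem_erase R s)]
    exact Finset.insert_erase h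
  · simp only [if_neg h, if_pos (Finset.mem_insert_self R s)]
    exact Finset.erase_insert h

theorem mem_toggle {R : Subgroup G} {s : Finset (Subgroup G)} {Q : Subgroup G} (hQ : Q ≠ R) :
    Q ∈ toggle R s ↔ Q ∈ s := by
  classical
  unfold toggle
  split_ifs <;> simp [hQ]

/-- A proper subgroup of a `p`-group grows in its normaliser. -/
theorem exists_normalizes_of_lt {R R' : Subgroup G} (hp : IsPGroup p R') (h : R < R') :
    ∃ r ∈ R', r ∉ R ∧ r ∈ Subgroup.normalizer (R : Set G) := by
  classical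
  haveI : Group.IsNilpotent R' := hp.isNilpotent
  have hne : R.subgroupOf R' < ⊤ := by
    rw [lt_top_iff_ne_top]
    intro e
    exact h.not_ge (Subgroup.subgroupOf_eq_top.1 e)
  obtain ⟨r, hr, hr'⟩ := SetLike.exists_of_lt
    (normalizerCondition_of_isNilpotent (R.subgroupOf R') hne)
  refine ⟨r, r.2, fun hh => hr' (Subgroup.mem_subgroupOf.2 hh), ?_⟩
  refine Subgroup.mem_normalizer_iff.2 fun a => ⟨fun ha => ?_, fun ha => ?_⟩
  · have := ((Subgroup.mem_normalizer_iff.1 hr) ⟨a, h.le ha⟩).1 (Subgroup.mem_subgroupOf.2 ha)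
    simpa [Subgroup.mem_subgroupOf] using this
  · have ha' : a ∈ R' := by
      have := R'.mul_mem (R'.mul_mem (R'.inv_mem r.2) (h.le ha)) r.2
      simpa [mul_assoc] using this
    have := ((Subgroup.mem_normalizer_iff.1 hr) ⟨a, ha'⟩).2 (by
      simpa [Subgroup.mem_subgroupOf] using ha)
    simpa [Subgroup.mem_subgroupOf] using this

/-- A member failing to normalise a smaller one. -/
def Bad (s : Finset (Subgroup G)) (Q : Subgroup G) : Prop :=
  Q ∈ s ∧ ∃ R ∈ s, R ≤ Q ∧ ¬ Q ≤ Subgroup.normalizer (R : Set G)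

/-- The part of a chain below a member. -/
noncomputable def below (s : Finset (Subgroup G)) (Q : Subgroup G) : Finset (Subgroup G) := by
  classical exact s.filter (· < Q)

theorem mem_below {s : Finset (Subgroup G)} {Q R : Subgroup G} :
    R ∈ below s Q ↔ R ∈ s ∧ R < Q := by simp [below]

/-- The least bad member. -/
noncomputable def pivot (s : Finset (Subgroup G)) : Subgroup G := by
  classical exact if h : ∃ Q, Bad s Q ∧ ∀ R, Bad s R → Q ≤ R then h.choose else ⊥

/-- The subgroup to be toggled. -/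
noncomputable def piv (s : Finset (Subgroup G)) : Subgroup G :=
  pivot s ⊓ chainNormalizer (below s (pivot s))

theorem pivot_spec {s : Finset (Subgroup G)} (hs : IsChainP p s) (hn : ¬ IsNormalChain s) :
    Bad s (pivot s) ∧ ∀ R, Bad s R → pivot s ≤ R := by
  classical
  have h : ∃ Q, Bad s Q ∧ ∀ R, Bad s R → Q ≤ R := by
    simp only [IsNormalChain, not_forall] at hn
    obtain ⟨Q, hQ, R, hR, hle, hnot⟩ := hn
    obtain ⟨B, hB⟩ := Finset.exists_minimal (s := s.filter (Bad s))
      ⟨R, mem_filter.2 ⟨hR, hR, Q, hQ, hle, hnot⟩⟩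
    refine ⟨B, (mem_filter.1 hB.1).2, fun C hC => ?_⟩
    rcases hs.2.1 B (mem_filter.1 hB.1).1 C hC.1 with h | h
    · exact h
    · exact hB.2 (mem_filter.2 ⟨hC.1, hC⟩) h
  unfold pivot
  simp only [dif_pos h]
  exact h.choose_spec

theorem pivot_unique {s : Finset (Subgroup G)} (hs : IsChainP p s) (hn : ¬ IsNormalChain s)
    {Q : Subgroup G} (hQ : Bad s Q) (hmin : ∀ R, Bad s R → Q ≤ R) : pivot s = Q :=
  le_antisymm ((pivot_spec hs hn).2 Q hQ) (hmin _ (pivot_spec hs hn).1)

theorem below_normal {s : Finset (Subgroup G)} (hs : IsChainP p s) (hn : ¬ IsNormalChain s) :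
    ∀ A ∈ below s (pivot s), A ≤ chainNormalizer (below s (pivot s)) := by
  intro A hA a ha
  rw [mem_chainNormalizer]
  intro B hB
  rw [mem_below] at hA hB
  rcases hs.2.1 A hA.1 B hB.1 with h | h
  · exact Subgroup.le_normalizer (h ha)
  · by_contra hnot
    exact hA.2.not_ge ((pivot_spec hs hn).2 A ⟨hA.1, B, hB.1, h, fun hh => hnot (hh ha)⟩)

/-- Facts on the subgroup to be toggled. -/
theorem piv_spec {s : Finset (Subgroup G)} (hs : IsChainP p s) (hn : ¬ IsNormalChain s) :
    (∀ A ∈ below s (pivot s), A ≤ piv s) ∧ piv s < pivot s ∧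
      (below s (pivot s)).Nonempty := by
  obtain ⟨⟨hQs, B, hB, hle, hnot⟩, -⟩ := pivot_spec hs hn
  have hBlt : B < pivot s := lt_of_le_of_ne hle fun e => hnot (e ▸ Subgroup.le_normalizer)
  refine ⟨fun A hA => le_inf (mem_below.1 hA).2.le (below_normal hs hn A hA),
    lt_of_le_of_ne inf_le_left fun e => hnot fun a ha => ?_, ⟨B, mem_below.2 ⟨hB, hBlt⟩⟩⟩
  have ha' : a ∈ piv s := e.symm ▸ ha
  exact mem_chainNormalizer.1 ha'.2 B (mem_below.2 ⟨hB, hBlt⟩)

theorem chainNormalizer_le_piv {s : Finset (Subgroup G)} (hs : IsChainP p s)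
    (hn : ¬ IsNormalChain s) {n : G} (hQ : n ∈ Subgroup.normalizer (pivot s : Set G))
    (hP : ∀ A ∈ below s (pivot s), n ∈ Subgroup.normalizer (A : Set G)) :
    n ∈ Subgroup.normalizer (piv s : Set G) := by
  refine Subgroup.mem_normalizer_iff.2 fun a => ?_
  simp only [piv, Subgroup.mem_inf, mem_chainNormalizer]
  refine and_congr (Subgroup.mem_normalizer_iff.1 hQ a) (forall₂_congr fun A hA => ?_)
  have hn' := hP A hA
  constructor
  · intro h
    exact mul_mem (mul_mem hn' h) (inv_mem hn')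
  · intro h
    have := mul_mem (mul_mem (inv_mem hn') h) hn'
    simpa [mul_assoc] using this

/-- The toggled chain. -/
theorem toggle_piv {s : Finset (Subgroup G)} (hs : IsChainP p s) (hn : ¬ IsNormalChain s) :
    IsChainP p (toggle (piv s) s) ∧ ¬ IsNormalChain (toggle (piv s) s) ∧
      piv (toggle (piv s) s) = piv s ∧
      chainNormalizer (toggle (piv s) s) = chainNormalizer s := by
  classical
  obtain ⟨⟨hQs, B, hB, hBle, hBnot⟩, hmin⟩ := pivot_spec hs hn
  obtain ⟨hbelow, hRQ, hne⟩ := piv_spec hs hn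
  set Q := pivot s with hQdef
  set R := piv s with hRdef
  have hbase : ∀ A ∈ s, (A ≤ R ∧ A ∈ below s Q) ∨ Q ≤ A := by
    intro A hA
    rcases hs.2.1 Q hQs A hA with h | h
    · exact Or.inr h
    · rcases eq_or_lt_of_le h with e | e
      · exact Or.inr e.ge
      · exact Or.inl ⟨hbelow A (mem_below.2 ⟨hA, e⟩), mem_below.2 ⟨hA, e⟩⟩
  have hR0 : R ≠ ⊥ := by
    obtain ⟨A, hA⟩ := hne
    exact fun e => (hs.2.2 A (mem_below.1 hA).1).1 (le_bot_iff.1 (e ▸ hbelow A hA))
  have hQ' : Q ∈ toggle R s := (mem_toggle hRQ.ne').2 hQs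
  have hmem : ∀ A ∈ toggle R s, A = R ∨ A ∈ s := fun A hA => by
    by_cases h : A = R
    · exact Or.inl h
    · exact Or.inr ((mem_toggle h).1 hA)
  have hchain : IsChainP p (toggle R s) := by
    refine ⟨⟨Q, hQ'⟩, fun A hA C hC => ?_, fun A hA => ?_⟩
    · rcases hmem A hA with rfl | hA' <;> rcases hmem C hC with rfl | hC'
      · exact Or.inl le_rfl
      · rcases hbase C hC' with ⟨h, -⟩ | h
        · exact Or.inr h
        · exact Or.inl (hRQ.le.trans h)
      · rcases hbase A hA' with ⟨h, -⟩ | h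
        · exact Or.inl h
        · exact Or.inr (hRQ.le.trans h)
      · exact hs.2.1 A hA' C hC'
    · rcases hmem A hA with rfl | hA'
      · exact ⟨hR0, (hs.2.2 Q hQs).2.to_le hRQ.le⟩
      · exact hs.2.2 A hA'
  -- the key equality
  have hkey : ∀ a ∈ Q, (∀ A ∈ (below s Q).erase R, a ∈ Subgroup.normalizer (A : Set G)) →
      a ∈ R := by
    by_contra hcon
    push Not at hcon
    obtain ⟨a, haQ, haP, haR⟩ := hcon
    let R' : Subgroup G := Q ⊓ chainNormalizer ((below s Q).erase R)
    have hle : R ≤ R' := fun x hx => ⟨hRQ.le hx, mem_chainNormalizer.2 fun A hA =>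
      mem_chainNormalizer.1 (show x ∈ Q ⊓ chainNormalizer (below s Q) from hx).2 A
        (mem_of_mem_erase hA)⟩
    have hlt : R < R' := lt_of_le_of_ne hle fun e => haR (e ▸ ⟨haQ, mem_chainNormalizer.2 haP⟩)
    obtain ⟨r, hr, hrR, hrn⟩ :=
      exists_normalizes_of_lt ((hs.2.2 Q hQs).2.to_le inf_le_left) hlt
    refine hrR ⟨hr.1, mem_chainNormalizer.2 fun A hA => ?_⟩
    by_cases e : A = R
    · rw [e]; exact hrn
    · exact mem_chainNormalizer.1 hr.2 A (mem_erase.2 ⟨e, hA⟩)
  -- the witness survives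
  have hwit : ∃ A ∈ toggle R s, A ≤ Q ∧ ¬ Q ≤ Subgroup.normalizer (A : Set G) := by
    by_contra hcon
    push Not at hcon
    refine hRQ.not_ge fun a ha => hkey a ha fun A hA => ?_
    rw [mem_erase, mem_below] at hA
    exact hcon A ((mem_toggle hA.1).2 hA.2.1) hA.2.2.le ha
  have hbad : Bad (toggle R s) Q := ⟨hQ', hwit⟩
  have hnn : ¬ IsNormalChain (toggle R s) := fun h => by
    obtain ⟨A, hA, hle, hnot⟩ := hwit
    exact hnot (h A hA Q hQ' hle)
  have hpiv : pivot (toggle R s) = Q := by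
    refine pivot_unique hchain hnn hbad fun C hC => ?_
    obtain ⟨hC', A, hA, hle, hnot⟩ := hC
    by_contra hCQ
    have hCR : C ≤ R := by
      rcases hmem C hC' with rfl | h
      · exact le_rfl
      · rcases hbase C h with ⟨h', -⟩ | h'
        · exact h'
        · exact absurd h' hCQ
    refine hnot fun c hc => ?_
    by_cases e : A = R
    · rw [e]; exact Subgroup.le_normalizer (hCR hc)
    · have hA' := (mem_toggle e).1 hA
      have hlt : A < Q := lt_of_le_of_lt (hle.trans hCR) hRQ
      exact mem_chainNormalizer.1 (hCR hc).2 A (mem_below.2 ⟨hA', hlt⟩)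
  refine ⟨hchain, hnn, ?_, ?_⟩
  · rw [piv, hpiv]
    refine le_antisymm (fun a ha => hkey a ha.1 fun A hA => ?_) (fun a ha => ⟨hRQ.le ha, ?_⟩)
    · rw [mem_erase, mem_below] at hA
      exact mem_chainNormalizer.1 ha.2 A (mem_below.2 ⟨(mem_toggle hA.1).2 hA.2.1, hA.2.2⟩)
    · refine mem_chainNormalizer.2 fun A hA => ?_
      rw [mem_below] at hA
      by_cases e : A = R
      · rw [e]; exact Subgroup.le_normalizer ha
      · exact mem_chainNormalizer.1 ha.2 A (mem_below.2 ⟨(mem_toggle e).1 hA.1, hA.2⟩)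
  · refine le_antisymm (fun n hn' => ?_) (fun n hn' => ?_) <;> rw [mem_chainNormalizer] at hn' ⊢
    · intro A hA
      by_cases e : A = R
      · subst e
        by_cases hRt : R ∈ toggle R s
        · exact hn' R hRt
        refine Subgroup.mem_normalizer_iff.2 fun a => ?_
        have hq := Subgroup.mem_normalizer_iff.1 (hn' Q hQ') a
        have hP : ∀ A ∈ (below s Q).erase R, n ∈ Subgroup.normalizer (A : Set G) := fun A hA => by
          rw [mem_erase, mem_below] at hA
          exact hn' A ((mem_toggle hA.1).2 hA.2.1)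
        constructor
        · intro ha
          refine hkey _ (hq.1 (hRQ.le ha)) fun A hA => mul_mem (mul_mem (hP A hA) ?_)
            (inv_mem (hP A hA))
          exact mem_chainNormalizer.1 (show a ∈ Q ⊓ chainNormalizer (below s Q) from ha).2 A
            (mem_of_mem_erase hA)
        · intro ha
          refine hkey _ (hq.2 (hRQ.le ha)) fun A hA => ?_
          have := mul_mem (mul_mem (inv_mem (hP A hA))
            (mem_chainNormalizer.1 (show n * a * n⁻¹ ∈ Q ⊓ chainNormalizer (below s Q) from ha).2 A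
              (mem_of_mem_erase hA))) (hP A hA)
          simpa [mul_assoc] using this
      · exact hn' A ((mem_toggle e).2 hA)
    · intro A hA
      rcases hmem A hA with rfl | h
      · exact chainNormalizer_le_piv hs hn (hn' Q hQs) fun C hC => hn' C (mem_below.1 hC).1
      · exact hn' A h

/-- Sums over all chains are sums over the normal chains. -/
theorem sum_all_eq_sum_normal (F : Subgroup G → ℂ) (W : Finset (Finset (Subgroup G)))
    (g : G) (hW : ∀ s, s ∈ W ↔ IsChainP p s ∧ g ∈ chainNormalizer s)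
    [DecidablePred fun s : Finset (Subgroup G) => IsNormalChain s] :
    ∑ s ∈ W, (-1 : ℂ) ^ (s.card - 1) * F (chainNormalizer s) =
      ∑ s ∈ W.filter (fun s => IsNormalChain s), (-1 : ℂ) ^ (s.card - 1) * F (chainNormalizer s) := by
  classical
  rw [← sum_filter_add_sum_filter_not W (fun s => IsNormalChain s)]
  refine add_eq_left.2 ?_
  refine Finset.sum_involution (fun s _ => toggle (piv s) s) (fun s hs => ?_) (fun s _ _ => ?_)
    (fun s hs => ?_) (fun s hs => ?_)
  · rw [mem_filter, hW] at hs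
    obtain ⟨h1, -, -, h4⟩ := toggle_piv hs.1.1 hs.2
    rw [h4, ← add_mul, toggle_sign _ _ hs.1.1.1 h1.1, zero_mul]
  · exact toggle_ne _ _
  · rw [mem_filter, hW] at hs ⊢
    obtain ⟨h1, h2, -, h4⟩ := toggle_piv hs.1.1 hs.2
    exact ⟨⟨h1, h4 ▸ hs.1.2⟩, h2⟩
  · rw [mem_filter, hW] at hs
    show toggle (piv (toggle (piv s) s)) (toggle (piv s) s) = s
    rw [(toggle_piv hs.1.1 hs.2).2.2.1, toggle_toggle]

/-- The members avoiding `u`, joined with `u`. -/
noncomputable def cone (u : G) (s : Finset (Subgroup G)) : Subgroup G := by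
  classical exact (s.filter fun Q => u ∉ Q).sup id ⊔ Subgroup.zpowers u

/-- The sum over all chains contracts to the cyclic subgroup. -/
theorem sum_all_eq (F : Subgroup G → ℂ) (W : Finset (Finset (Subgroup G))) {g u : G}
    (hu1 : u ≠ 1) (hu : IsPGroup p (Subgroup.zpowers u)) (hug : u ∈ Subgroup.zpowers g)
    (hW : ∀ s, s ∈ W ↔ IsChainP p s ∧ g ∈ chainNormalizer s) :
    ∑ s ∈ W, (-1 : ℂ) ^ (s.card - 1) *
        F (Subgroup.centralizer ({u} : Set G) ⊓ chainNormalizer s) =
      F (Subgroup.centralizer ({u} : Set G)) := by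
  classical
  set Z := Subgroup.zpowers u with hZ
  set C := Subgroup.centralizer ({u} : Set G) with hC
  have huZ : u ∈ Z := Subgroup.mem_zpowers u
  have hZ0 : Z ≠ ⊥ := fun e => hu1 (Subgroup.zpowers_eq_bot.1 e)
  have hgC : g ∈ C := by
    obtain ⟨j, hj⟩ := hug
    rw [hC, Subgroup.mem_centralizer_singleton_iff, ← hj]
    exact ((Commute.refl g).zpow_right j).eq
  have hCZ : ∀ n ∈ C, n ∈ Subgroup.normalizer (Z : Set G) := fun n hn => by
    have hcomm : ∀ a ∈ Z, n * a * n⁻¹ = a := by
      rintro _ ⟨j, rfl⟩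
      rw [((show Commute n u from Subgroup.mem_centralizer_singleton_iff.1 hn).zpow_right j).eq,
        mul_inv_cancel_right]
    refine Subgroup.mem_normalizer_iff.2 fun a => ⟨fun ha => by rw [hcomm a ha]; exact ha, fun ha => ?_⟩
    have h := hcomm _ ha
    have : n * a * n⁻¹ = a := mul_left_cancel (mul_right_cancel h)
    exact this ▸ ha
  have hsingle : ({Z} : Finset (Subgroup G)) ∈ W ∧ chainNormalizer ({Z} : Finset (Subgroup G)) =
      Subgroup.normalizer (Z : Set G) := by
    have hcn : chainNormalizer ({Z} : Finset (Subgroup G)) = Subgroup.normalizer (Z : Set G) := by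
      simp [chainNormalizer]
    refine ⟨(hW _).2 ⟨⟨Finset.singleton_nonempty _, fun Q hQ R hR => ?_, fun Q hQ => ?_⟩, ?_⟩, hcn⟩
    · rw [mem_singleton] at hQ hR; exact Or.inl (hQ ▸ hR ▸ le_rfl)
    · rw [mem_singleton] at hQ; subst hQ; exact ⟨hZ0, hu⟩
    · rw [hcn]; exact hCZ g hgC
  rw [← add_sum_erase _ _ hsingle.1, hsingle.2, card_singleton, Nat.sub_self, pow_zero, one_mul,
    inf_eq_left.2 fun n hn => hCZ n hn]
  refine add_eq_left.2 ?_
  -- facts on a chain
  have main : ∀ s ∈ W.erase {Z}, toggle (cone u s) s ∈ W.erase {Z} ∧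
      cone u (toggle (cone u s) s) = cone u s ∧
      C ⊓ chainNormalizer (toggle (cone u s) s) = C ⊓ chainNormalizer s := by
    intro s hs
    rw [mem_erase, hW] at hs
    obtain ⟨hsne, ⟨hne, hlin, hmem⟩, hg⟩ := hs
    set T := s.filter fun Q => u ∉ Q with hT
    set Qm := T.sup id with hQm
    set R := cone u s with hR
    have hR' : R = Qm ⊔ Z := by simp only [hR, cone, hQm, hT, hZ]
    have hcase : Qm = ⊥ ∧ T = ∅ ∨ Qm ∈ T := by
      rcases T.eq_empty_or_nonempty with h | h
      · exact Or.inl ⟨by rw [hQm, h, sup_empty], h⟩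
      · obtain ⟨A, hA, htop⟩ := exists_top h fun Q hQ R hR =>
          hlin Q (mem_filter.1 hQ).1 R (mem_filter.1 hR).1
        refine Or.inr ?_
        have : Qm = A := le_antisymm (Finset.sup_le htop) (Finset.le_sup (f := id) hA)
        rwa [this]
    have hQmp : IsPGroup p Qm ∧ (∀ n : G, (∀ Q ∈ s, u ∉ Q → n ∈ Subgroup.normalizer (Q : Set G)) →
        n ∈ Subgroup.normalizer (Qm : Set G)) := by
      rcases hcase with ⟨h, -⟩ | h
      · rw [h]
        refine ⟨IsPGroup.of_bot, fun n _ => Subgroup.mem_normalizer_iff.2 fun a => ?_⟩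
        simp [Subgroup.mem_bot]
      · exact ⟨(hmem _ (mem_filter.1 h).1).2, fun n hn => hn _ (mem_filter.1 h).1 (mem_filter.1 h).2⟩
    have huR : u ∈ R := hR' ▸ (le_sup_right : Z ≤ Qm ⊔ Z) huZ
    have hRnorm : ∀ n ∈ C, (∀ Q ∈ s, u ∉ Q → n ∈ Subgroup.normalizer (Q : Set G)) →
        n ∈ Subgroup.normalizer (R : Set G) := by
      intro n hnC hn
      have h1 := hQmp.2 n hn
      have h2 := hCZ n hnC
      rw [hR']
      rw [Subgroup.mem_normalizer_iff_map_conj_eq] at h1 h2 ⊢
      rw [Subgroup.map_sup, h1, h2]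
    have hgN : ∀ Q ∈ s, g ∈ Subgroup.normalizer (Q : Set G) := mem_chainNormalizer.1 hg
    have hun : u ∈ Subgroup.normalizer (Qm : Set G) :=
      hQmp.2 u fun Q hQ _ => Subgroup.zpowers_le.2 (hgN Q hQ) hug
    have hRp : IsPGroup p R := hR' ▸ hQmp.1.to_sup_of_normal_left' hu (Subgroup.zpowers_le.2 hun)
    have hR0 : R ≠ ⊥ := fun e => hu1 (Subgroup.mem_bot.1 (e ▸ huR))
    have hcmp : ∀ A ∈ s, A ≤ R ∨ R ≤ A := by
      intro A hA
      by_cases hAu : u ∈ A
      · refine Or.inr (hR' ▸ sup_le (Finset.sup_le fun B hB => ?_) (Subgroup.zpowers_le.2 hAu))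
        rcases hlin B (mem_filter.1 hB).1 A hA with h | h
        · exact h
        · exact absurd (h hAu) (mem_filter.1 hB).2
      · exact Or.inl (hR' ▸ le_trans (Finset.le_sup (f := id) (mem_filter.2 ⟨hA, hAu⟩)) le_sup_left)
    have hT' : (toggle R s).filter (fun Q => u ∉ Q) = T := by
      ext A
      simp only [hT, mem_filter]
      constructor
      · rintro ⟨h1, h2⟩
        exact ⟨(mem_toggle fun e : A = R => h2 (by rw [e]; exact huR)).1 h1, h2⟩
      · rintro ⟨h1, h2⟩
        exact ⟨(mem_toggle fun e : A = R => h2 (by rw [e]; exact huR)).2 h1, h2⟩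
    have hcone : cone u (toggle R s) = R := by
      simp only [cone] at hR ⊢
      rw [hR]
      congr 2
    have hne' : (toggle R s).Nonempty := by
      by_contra h
      rw [not_nonempty_iff_eq_empty] at h
      have hall : ∀ A ∈ s, A = R := fun A hA => by
        by_contra e
        have := (mem_toggle (s := s) e).2 hA
        rw [h] at this
        exact notMem_empty A this
      have hsR : s = {R} := eq_singleton_iff_nonempty_unique_mem.2 ⟨hne, hall⟩
      have hTe : T = ∅ := by
        rw [hT, hsR]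
        exact filter_false_of_mem fun A hA => by rw [mem_singleton] at hA; subst hA; simpa using huR
      exact hsne (by rw [hsR, hR', hQm, hTe, sup_empty, bot_sup_eq])
    have hnotZ : toggle R s ≠ {Z} := by
      intro h
      have hTe : T = ∅ := by
        rw [← hT', h]
        exact filter_false_of_mem fun A hA => by rw [mem_singleton] at hA; subst hA; simpa using huZ
      have hRZ : R = Z := by rw [hR', hQm, hTe, sup_empty, bot_sup_eq]
      have := congrArg (toggle R) h
      rw [toggle_toggle, hRZ] at this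
      rw [this] at hne
      simp [toggle] at hne
    refine ⟨mem_erase.2 ⟨hnotZ, (hW _).2 ⟨⟨hne', fun A hA B hB => ?_, fun A hA => ?_⟩, ?_⟩⟩,
      hcone, ?_⟩
    · by_cases hAR : A = R <;> by_cases hBR : B = R
      · exact Or.inl (hAR.trans hBR.symm).le
      · rw [hAR]; exact (hcmp B ((mem_toggle hBR).1 hB)).symm
      · rw [hBR]; exact hcmp A ((mem_toggle hAR).1 hA)
      · exact hlin A ((mem_toggle hAR).1 hA) B ((mem_toggle hBR).1 hB)
    · by_cases hAR : A = R
      · rw [hAR]; exact ⟨hR0, hRp⟩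
      · exact hmem A ((mem_toggle hAR).1 hA)
    · refine mem_chainNormalizer.2 fun A hA => ?_
      by_cases hAR : A = R
      · rw [hAR]; exact hRnorm g hgC fun Q hQ _ => hgN Q hQ
      · exact hgN A ((mem_toggle hAR).1 hA)
    · ext n
      simp only [Subgroup.mem_inf, mem_chainNormalizer, and_congr_right_iff]
      intro hnC
      constructor
      · intro h A hA
        by_cases hAR : A = R
        · rw [hAR]
          exact hRnorm n hnC fun Q hQ hQu =>
            h Q ((mem_toggle fun e : Q = R => hQu (by rw [e]; exact huR)).2 hQ)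
        · exact h A ((mem_toggle hAR).2 hA)
      · intro h A hA
        by_cases hAR : A = R
        · rw [hAR]; exact hRnorm n hnC fun Q hQ _ => h Q hQ
        · exact h A ((mem_toggle hAR).1 hA)
  refine Finset.sum_involution (fun s _ => toggle (cone u s) s) (fun s hs => ?_) (fun s _ _ => ?_)
    (fun s hs => (main s hs).1) (fun s hs => ?_)
  · obtain ⟨h1, -, h3⟩ := main s hs
    rw [mem_erase, hW] at h1 hs
    rw [h3, ← add_mul, toggle_sign _ _ hs.2.1.1 h1.2.1.1, zero_mul]
  · exact toggle_ne _ _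
  · show toggle (cone u (toggle (cone u s) s)) (toggle (cone u s) s) = s
    rw [(main s hs).2.1, toggle_toggle]

end Cfsg.Agent.Blocks.ChainCancel
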