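import Cfsg.Agent.Blocks.CyclicShape

/-!
A perfect isometry between two blocks with cyclic defect groups of the same order and the same
inertial index.
-/

namespace Cfsg.Agent.Blocks.CyclicPerfect

open Cfsg Cfsg.Agent Cfsg.Agent.BlockChar Cfsg.Agent.Blocks
open Cfsg.Agent.Blocks.OrbitLattice Cfsg.Agent.Blocks.CyclicShape
open scoped MonoidAlgebra ComplexConjugate

set_option autoImplicit false
set_option linter.unusedSectionVars false
set_option linter.style.haveILetI false

universe u v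

variable {G : Type u} [Group G] [Fintype G] {p : ℕ} [Fact p.Prime] {M : Ideal AlgInt}
  [M.IsMaximal] {B : Set (IrrCharacter G)} {n e : ℕ} [NeZero n]

/-- The transform only depends on the differences from the value at zero. -/
theorem hatF_eq_mul {f f' : ZMod n → ℤ} {ε : ℤ}
    (h : ∀ i, i ≠ 0 → f i - f 0 = ε * (f' i - f' 0)) {x : ZMod n} (hx : x ≠ 0) :
    hatF f x = (ε : ℂ) * hatF f' x := by
  have key : ∀ g : ZMod n → ℤ, hatF g x = ∑ j, ((g j - g 0 : ℤ) : ℂ) * ZMod.stdAddChar (j * x) := by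
    intro g
    have h0 := hatF_eq_zero (f := fun _ : ZMod n => g 0) (fun _ => rfl) hx
    simp only [hatF] at h0 ⊢
    simp only [Int.cast_sub, sub_mul, Finset.sum_sub_distrib, h0, sub_zero]
  rw [key f, key f', Finset.mul_sum]
  refine Finset.sum_congr rfl fun j _ => ?_
  by_cases hj : j = 0
  · simp [hj]
  · rw [h j hj, Int.cast_mul]; ring

theorem vanish' (S : CycShape p M B n e) {x : ZMod n} (hx : x ≠ 0) {s : G}
    (hs : ¬ p ∣ orderOf s) :
    ∑ χ ∈ bf B, hatF (S.A χ) x * (χ : G → ℂ) s = 0 := by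
  refine Eq.trans (Finset.sum_congr rfl fun χ _ => ?_) (S.vanish (-x) (neg_ne_zero.2 hx) s hs)
  congr 1
  simp only [hatF, map_sum, map_mul, map_intCast]
  refine Finset.sum_congr rfl fun j _ => ?_
  rw [← AddChar.map_neg_eq_conj, mul_neg, neg_neg]

/-- The exceptional and the other characters. -/
theorem exists_split (S : CycShape p M B n e) :
    ∃ (X Y : Finset (bf B)) (d : bf B → ℤ) (o : bf B → ZMod n) (δ : ℤ), Disjoint X Y ∧
      (∀ χ, χ ∈ X ∨ χ ∈ Y) ∧ X.card = e ∧ Y.card * e = n - 1 ∧ (∀ χ, d χ = 1 ∨ d χ = -1) ∧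
      (∀ χ ∈ X, ∀ i, i ≠ 0 → S.A χ i - S.A χ 0 = d χ) ∧
      (∀ χ ∈ Y, o χ ≠ 0 ∧ ∀ i, i ≠ 0 → S.A χ i - S.A χ 0 =
        if i ∈ (roots n e).image (· * o χ) then d χ else 0) ∧
      (∀ i : ZMod n, i ≠ 0 → ∃ χ ∈ Y, i ∈ (roots n e).image (· * o χ)) ∧
      (∀ χ ∈ Y, d χ = δ) ∧ (∀ ψ ∈ Y, ∀ ψ' ∈ Y, ∀ s, ¬ p ∣ orderOf s →
        ((ψ : IrrCharacter G) : G → ℂ) s = ((ψ' : IrrCharacter G) : G → ℂ) s) ∧
      (e = 1 → ∀ χ ∈ X, d χ = -δ) := by
  classical
  have hn0 : (n : ℂ) ≠ 0 := Nat.cast_ne_zero.2 (NeZero.ne n)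
  set R := roots n e with hR
  have h1R : (1 : ZMod n) ∈ R := by simp [hR, roots]
  have hmemR : ∀ i : ZMod n, i ∈ R.image (· * i) := fun i =>
    Finset.mem_image.2 ⟨1, h1R, one_mul i⟩
  set V : bf B → ZMod n → ℤ := fun χ i => S.A χ i - S.A χ 0 with hV
  have hgram : ∀ i j : ZMod n, i ≠ 0 → j ≠ 0 → ∑ χ : bf B, V χ i * V χ j =
      (if j ∈ R.image (· * i) then 1 else 0) + (R.card : ℤ) := fun i j hi hj => by
    refine gram h1R S.free S.unit S.div (fun χ : bf B => S.A χ) (fun x y hx hy => ?_) hi hj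
    rw [← S.gram x y hx hy]
    exact Finset.sum_coe_sort (bf B) fun χ => hatF (S.A χ) x * conj (hatF (S.A χ) y)
  obtain ⟨X, Y, d, o, hXY, hall, hXc, hYc, hd, hVX, hVY, hcov⟩ := shape h1R S.free S.unit S.div
    S.two_le V (fun χ r hr i => by simp only [hV, S.inv χ r hr i])
    (fun χ => S.ne χ χ.2) hgram (by rw [S.card_roots, Fintype.card_coe]; exact S.card)
  have hRcard : R.card = e := S.card_roots
  rw [hRcard] at hXc hYc
  have hrel : ∀ i : ZMod n, ∀ s, ¬ p ∣ orderOf s →
      ∑ χ : bf B, (V χ i : ℂ) * ((χ : IrrCharacter G) : G → ℂ) s = 0 := by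
    intro i s hs
    have key : ∀ χ : IrrCharacter G, (n : ℂ) * ((S.A χ i : ℂ) - S.A χ 0) =
        ∑ x, hatF (S.A χ) x * (ZMod.stdAddChar (-(i * x)) - 1) := fun χ =>
      (inv_hatF (S.A χ) i).symm
    have h : (n : ℂ) * ∑ χ : bf B, (V χ i : ℂ) * ((χ : IrrCharacter G) : G → ℂ) s = 0 := by
      rw [Finset.sum_coe_sort (bf B) fun χ => ((S.A χ i - S.A χ 0 : ℤ) : ℂ) * (χ : G → ℂ) s,
        Finset.mul_sum, Finset.sum_congr rfl fun χ _ => by
          rw [← mul_assoc, Int.cast_sub, key χ, Finset.sum_mul],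
        Finset.sum_comm]
      refine Finset.sum_eq_zero fun x _ => ?_
      by_cases hx : x = 0
      · simp [hx]
      · rw [Finset.sum_congr rfl fun χ _ => show hatF (S.A χ) x *
            (ZMod.stdAddChar (-(i * x)) - 1) * (χ : G → ℂ) s = (ZMod.stdAddChar (-(i * x)) - 1) *
              (hatF (S.A χ) x * (χ : G → ℂ) s) by ring,
          ← Finset.mul_sum, vanish' S hx hs, mul_zero]
    exact (mul_eq_zero.1 h).resolve_left hn0
  have hsplit : (Finset.univ : Finset (bf B)) = X ∪ Y :=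
    (Finset.eq_univ_iff_forall.2 fun χ => Finset.mem_union.2 (hall χ)).symm
  have hYrel : ∀ ψ ∈ Y, ∀ s, ¬ p ∣ orderOf s → (d ψ : ℂ) * ((ψ : IrrCharacter G) : G → ℂ) s +
      ∑ χ ∈ X, (d χ : ℂ) * ((χ : IrrCharacter G) : G → ℂ) s = 0 := by
    intro ψ hψ s hs
    obtain ⟨ho, hoV⟩ := hVY ψ hψ
    have h := hrel (o ψ) s hs
    have hsingle : ∀ χ ∈ Y, χ ≠ ψ → V χ (o ψ) = 0 := by
      have hg := hgram _ _ ho ho
      rw [if_pos (hmemR _), hsplit, Finset.sum_union hXY,
        Finset.sum_congr rfl (fun χ hχ => show V χ (o ψ) * V χ (o ψ) = 1 by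
          rw [hVX χ hχ _ ho]; rcases hd χ with h | h <;> rw [h] <;> norm_num),
        Finset.sum_const, nsmul_eq_mul, mul_one, hXc, hRcard, add_comm,
        add_left_inj, ← Finset.add_sum_erase _ _ hψ,
        show V ψ (o ψ) * V ψ (o ψ) = 1 by
          rw [hoV _ ho, if_pos (hmemR _)]
          rcases hd ψ with h | h <;> rw [h] <;> norm_num, add_eq_left] at hg
      intro χ hχ hne
      exact mul_self_eq_zero.1 ((Finset.sum_eq_zero_iff_of_nonneg fun χ _ => mul_self_nonneg _).1 hg
        χ (Finset.mem_erase.2 ⟨hne, hχ⟩))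
    rw [hsplit, Finset.sum_union hXY, Finset.sum_eq_single_of_mem ψ hψ
      (fun χ hχ hne => by rw [hsingle χ hχ hne, Int.cast_zero, zero_mul]),
      hoV _ ho, if_pos (hmemR _),
      Finset.sum_congr rfl fun χ hχ => by rw [hVX χ hχ _ ho]] at h
    rw [add_comm]; exact h
  have hreg1 : ¬ p ∣ orderOf (1 : G) := by
    rw [orderOf_one]; exact (Fact.out : p.Prime).not_dvd_one
  have hpos : ∀ χ : bf B, 0 < (charDegree ((χ : IrrCharacter G) : G → ℂ) : ℤ) := fun χ => by
    exact_mod_cast (charDegree_eq (χ : IrrCharacter G).2).2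
  have hval : ∀ χ : bf B, ((χ : IrrCharacter G) : G → ℂ) 1 =
      ((charDegree ((χ : IrrCharacter G) : G → ℂ) : ℤ) : ℂ) := fun χ => by
    rw [(charDegree_eq (χ : IrrCharacter G).2).1]; norm_cast
  obtain ⟨ψ0, hψ0⟩ : Y.Nonempty := Finset.card_pos.1 (Nat.pos_of_ne_zero fun h => by
    have := S.two_le
    rw [h] at hYc; omega)
  have hdY : ∀ ψ ∈ Y, d ψ = d ψ0 := by
    intro ψ hψ
    have h1 := hYrel ψ hψ 1 hreg1
    have h2 := hYrel ψ0 hψ0 1 hreg1
    rw [← h2, add_left_inj, hval, hval] at h1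
    have h3 : d ψ * (charDegree ((ψ : IrrCharacter G) : G → ℂ) : ℤ) =
        d ψ0 * (charDegree ((ψ0 : IrrCharacter G) : G → ℂ) : ℤ) := by exact_mod_cast h1
    have p1 := hpos ψ
    have p2 := hpos ψ0
    rcases hd ψ with h | h <;> rcases hd ψ0 with h' | h' <;> rw [h, h'] at h3 ⊢ <;> omega
  refine ⟨X, Y, d, o, d ψ0, hXY, hall, hXc, hYc, hd, hVX, hVY, hcov, hdY, ?_, ?_⟩
  · intro ψ hψ ψ' hψ' g hg
    have h1 := hYrel ψ hψ g hg
    have h2 := hYrel ψ' hψ' g hg
    rw [← h2, add_left_inj, hdY ψ hψ, hdY ψ' hψ'] at h1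
    refine mul_left_cancel₀ (Int.cast_ne_zero.2 ?_) h1
    rcases hd ψ0 with h | h <;> omega
  · intro he χ hχ
    subst he
    obtain ⟨χ₁, hX1⟩ := Finset.card_eq_one.1 hXc
    rw [hX1, Finset.mem_singleton] at hχ
    subst hχ
    have h1 := hYrel ψ0 hψ0 1 hreg1
    rw [hX1, Finset.sum_singleton, hval, hval] at h1
    have h3 : d ψ0 * (charDegree ((ψ0 : IrrCharacter G) : G → ℂ) : ℤ) +
        d χ * (charDegree ((χ : IrrCharacter G) : G → ℂ) : ℤ) = 0 := by exact_mod_cast h1
    have p1 := hpos χ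
    have p2 := hpos ψ0
    rcases hd χ with h | h <;> rcases hd ψ0 with h' | h' <;> rw [h, h'] at h3 ⊢ <;> omega

set_option maxHeartbeats 1000000 in
/-- The perfect isometry of two shapes. -/
theorem isometry {H : Type v} [Group H] [Fintype H] {c : Set (IrrCharacter H)}
    (hpM : (p : AlgInt) ∈ M) (S : CycShape p M B n e) (S' : CycShape p M c n e) :
    ∃ (I : IrrCharacter H → IrrCharacter G) (ε : IrrCharacter H → ℤ) (X' Y' : Finset (bf c)),
      IsPerfectIsometry p M c B I ε ∧ Disjoint X' Y' ∧ (∀ η, η ∈ X' ∨ η ∈ Y') ∧ X'.card = e ∧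
      Y'.card * e = n - 1 ∧ (∀ ψ ∈ Y', ∀ ψ' ∈ Y', ∀ s, ¬ p ∣ orderOf s →
        ((ψ : IrrCharacter H) : H → ℂ) s = ((ψ' : IrrCharacter H) : H → ℂ) s) ∧
      ∃ κ : ℤ, (∀ η ∈ Y', ε η = κ) ∧ (e = 1 → ∀ η ∈ c, ε η = κ) := by
  classical
  obtain ⟨X, Y, d, o, δ, hXY, hall, hXc, hYc, hd, hVX, hVY, hcov, hdY, -, hdX⟩ := exists_split S
  obtain ⟨X', Y', d', o', δ', hXY', hall', hXc', hYc', hd', hVX', hVY', hcov', hdY', hagree',
    hdX'⟩ := exists_split S'
  let σX : X' ≃ X := Finset.equivOfCardEq (hXc'.trans hXc.symm)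
  have hY : ∀ η : bf c, ∃ χ : bf B, η ∈ Y' → χ ∈ Y ∧ o' η ∈ (roots n e).image (· * o χ) := by
    intro η
    by_cases h : η ∈ Y'
    · obtain ⟨χ, hχ, hm⟩ := hcov _ (hVY' η h).1
      exact ⟨χ, fun _ => ⟨hχ, hm⟩⟩
    · obtain ⟨χ, hχ⟩ : (Finset.univ : Finset (bf B)).Nonempty := by
        obtain ⟨χ, hχ⟩ : X.Nonempty := Finset.card_pos.1 (hXc ▸ S.pos)
        exact ⟨χ, Finset.mem_univ _⟩
      exact ⟨χ, fun h' => absurd h' h⟩
  choose fY hfY using hY
  let f : bf c → bf B := fun η => if h : η ∈ X' then (σX ⟨η, h⟩ : bf B) else fY η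
  have hfX : ∀ η (h : η ∈ X'), f η = (σX ⟨η, h⟩ : bf B) := fun η h => dif_pos h
  have hfXm : ∀ η ∈ X', f η ∈ X := fun η h => (hfX η h).symm ▸ (σX ⟨η, h⟩).2
  have hfYm : ∀ η ∈ Y', f η ∈ Y ∧ o' η ∈ (roots n e).image (· * o (f η)) := by
    intro η h
    have : f η = fY η := dif_neg fun hX => Finset.disjoint_left.1 hXY' hX h
    rw [this]; exact hfY η h
  have h1R : (1 : ZMod n) ∈ roots n e := by simp [roots]
  -- the orbits
  have htrans : ∀ {a b : ZMod n}, a ∈ (roots n e).image (· * b) →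
      ∀ i, (i ∈ (roots n e).image (· * a) ↔ i ∈ (roots n e).image (· * b)) := by
    intro a b hab i
    obtain ⟨r, hr, rfl⟩ := Finset.mem_image.1 hab
    have hrp : r ^ e = 1 := by simpa [roots] using hr
    constructor
    · intro hi
      obtain ⟨s, hs, rfl⟩ := Finset.mem_image.1 hi
      have hsp : s ^ e = 1 := by simpa [roots] using hs
      exact Finset.mem_image.2 ⟨s * r, by simp [roots, mul_pow, hrp, hsp], mul_assoc _ _ _⟩
    · intro hi
      obtain ⟨s, hs, rfl⟩ := Finset.mem_image.1 hi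
      obtain ⟨u, hu, hsu⟩ := S.div r hr s hs
      exact Finset.mem_image.2 ⟨u, hu, by rw [← mul_assoc, mul_comm u r, ← hsu]⟩
  have hfinj : Function.Injective f := by
    intro a b hab
    rcases hall' a with ha | ha <;> rcases hall' b with hb | hb
    · rw [hfX a ha, hfX b hb] at hab
      exact congrArg (fun x : X' => (x : bf c)) (σX.injective (Subtype.ext hab))
    · exact absurd (hab ▸ hfXm a ha) fun h => Finset.disjoint_left.1 hXY h (hfYm b hb).1
    · exact absurd (hfXm b hb) fun h => Finset.disjoint_left.1 hXY h (hab ▸ (hfYm a ha).1)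
    · obtain ⟨-, ha2⟩ := hfYm a ha
      obtain ⟨-, hb2⟩ := hfYm b hb
      rw [hab] at ha2
      have hmem : o' a ∈ (roots n e).image (· * o' b) := (htrans hb2 _).2 ha2
      by_contra hne
      -- the squares at one point
      obtain ⟨hoa, hVa⟩ := hVY' a ha
      obtain ⟨hob, hVb⟩ := hVY' b hb
      have hg := gram (R := roots n e) h1R S'.free S'.unit S'.div (fun η : bf c => S'.A η)
        (fun x y hx hy => by
          rw [← S'.gram x y hx hy]
          exact Finset.sum_coe_sort (bf c) fun η => hatF (S'.A η) x * conj (hatF (S'.A η) y))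
        hoa hoa
      have hmemo : o' a ∈ (roots n e).image (· * o' a) :=
        Finset.mem_image.2 ⟨1, h1R, one_mul _⟩
      have hsub : ({a, b} : Finset (bf c)) ⊆ Y' := by
        intro x hx; simp only [Finset.mem_insert, Finset.mem_singleton] at hx
        rcases hx with rfl | rfl <;> assumption
      have hX1 : ∑ η ∈ X', (S'.A η (o' a) - S'.A η 0) * (S'.A η (o' a) - S'.A η 0) = (e : ℤ) := by
        rw [Finset.sum_congr rfl fun η hη => show _ = (1 : ℤ) by
          rw [hVX' η hη _ hoa]; rcases hd' η with h | h <;> rw [h] <;> norm_num]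
        simp [hXc']
      have hY1 : (2 : ℤ) ≤ ∑ η ∈ Y', (S'.A η (o' a) - S'.A η 0) * (S'.A η (o' a) - S'.A η 0) := by
        refine le_trans ?_ (Finset.sum_le_sum_of_subset_of_nonneg hsub
          fun x _ _ => mul_self_nonneg _)
        rw [Finset.sum_pair hne, hVa _ hoa, hVb _ hoa,
          if_pos hmemo, if_pos hmem]
        rcases hd' a with h | h <;> rcases hd' b with h' | h' <;> rw [h, h'] <;> norm_num
      rw [if_pos hmemo, S'.card_roots,
        show (Finset.univ : Finset (bf c)) = X' ∪ Y' from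
          (Finset.eq_univ_iff_forall.2 fun χ => Finset.mem_union.2 (hall' χ)).symm,
        Finset.sum_union hXY', hX1] at hg
      omega
  have hcardf : Fintype.card (bf c) = Fintype.card (bf B) := by
    have h1 : Fintype.card (bf c) = X'.card + Y'.card := by
      rw [← Finset.card_union_of_disjoint hXY', ← Finset.card_univ]
      exact congrArg Finset.card
        (Finset.eq_univ_iff_forall.2 fun x => Finset.mem_union.2 (hall' x)).symm
    have h2 : Fintype.card (bf B) = X.card + Y.card := by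
      rw [← Finset.card_union_of_disjoint hXY, ← Finset.card_univ]
      exact congrArg Finset.card
        (Finset.eq_univ_iff_forall.2 fun x => Finset.mem_union.2 (hall x)).symm
    rw [h1, h2, hXc, hXc', Nat.eq_of_mul_eq_mul_right S.pos (hYc'.trans hYc.symm)]
  have hfbij : Function.Bijective f := (Fintype.bijective_iff_injective_and_card f).2 ⟨hfinj, hcardf⟩
  set ε₀ : bf c → ℤ := fun η => d' η * d (f η) with hε₀
  have hε₀1 : ∀ η, ε₀ η = 1 ∨ ε₀ η = -1 := fun η => by
    rcases hd' η with h | h <;> rcases hd (f η) with h' | h' <;> simp [hε₀, h, h']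
  have hmatch : ∀ η : bf c, ∀ x : ZMod n, x ≠ 0 →
      hatF (S'.A η) x = (ε₀ η : ℂ) * hatF (S.A (f η)) x := by
    intro η x hx
    refine hatF_eq_mul (fun i hi => ?_) hx
    have hsq : ∀ χ, d χ * d χ = 1 := fun χ => by rcases hd χ with h | h <;> rw [h] <;> norm_num
    rcases hall' η with h | h
    · rw [hVX' η h i hi, hVX _ (hfXm η h) i hi, hε₀, mul_assoc, hsq, mul_one]
    · obtain ⟨hm, ho⟩ := hfYm η h
      rw [(hVY' η h).2 i hi, (hVY _ hm).2 i hi]
      simp only [htrans ho i]
      split_ifs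
      · rw [hε₀, mul_assoc, hsq, mul_one]
      · rw [mul_zero]
  obtain ⟨χ₀⟩ : Nonempty (bf B) := by
    obtain ⟨χ, -⟩ : X.Nonempty := Finset.card_pos.1 (hXc ▸ S.pos)
    exact ⟨χ⟩
  let I : IrrCharacter H → IrrCharacter G := fun η =>
    if h : η ∈ bf c then (f ⟨η, h⟩ : IrrCharacter G) else χ₀
  let ε : IrrCharacter H → ℤ := fun η => if h : η ∈ bf c then ε₀ ⟨η, h⟩ else 1
  have hI : ∀ η : bf c, I η = f η := fun η => dif_pos η.2
  have hε : ∀ η : bf c, ε η = ε₀ η := fun η => dif_pos η.2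
  set μ : G → H → ℂ := fun x y =>
    ∑ η : bf c, (ε₀ η : ℂ) * ((f η : IrrCharacter G) : G → ℂ) x *
      ((η : IrrCharacter H) : H → ℂ) y with hμ
  have hker : ∀ x y, signedBijectionKernel c I ε x y = μ x y := fun x y => by
    rw [signedBijectionKernel, finsum_mem_bf, ← Finset.sum_coe_sort]
    exact Finset.sum_congr rfl fun η _ => by rw [hI, hε]
  have hreidx : ∀ F : bf B → ℂ, ∑ η : bf c, F (f η) = ∑ χ : bf B, F χ := fun F =>
    hfbij.sum_comp F
  have hε2 : ∀ η, (ε₀ η : ℂ) * (ε₀ η : ℂ) = 1 := fun η => by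
    rcases hε₀1 η with h | h <;> rw [h] <;> norm_num
  have hmixed : ∀ x y, ¬ (IsPRegular p x ↔ IsPRegular p y) → μ x y = 0 := by
    intro x y hxy
    by_cases hx : IsPRegular p x
    · have hy : p ∣ orderOf y := not_not.1 fun h => hxy (iff_of_true hx h)
      obtain ⟨T, z, g, hz, hval⟩ := S'.sing y hy
      simp only [hμ]
      rw [Finset.sum_congr rfl fun η _ => by rw [hval _ η.2, Finset.mul_sum], Finset.sum_comm]
      refine Finset.sum_eq_zero fun i hi => ?_
      calc _ = g i * ∑ η : bf c, (fun χ : bf B => hatF (S.A χ) (z i) *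
            ((χ : IrrCharacter G) : G → ℂ) x) (f η) := by
            rw [Finset.mul_sum]
            refine Finset.sum_congr rfl fun η _ => ?_
            rw [hmatch η _ (hz i hi).1]
            linear_combination (g i * hatF (S.A (f η)) (z i) *
              ((f η : IrrCharacter G) : G → ℂ) x) * hε2 η
        _ = 0 := by
            rw [hreidx (fun χ : bf B => hatF (S.A χ) (z i) * ((χ : IrrCharacter G) : G → ℂ) x),
              Finset.sum_coe_sort (bf B) fun χ => hatF (S.A χ) (z i) * (χ : G → ℂ) x,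
              vanish' S (hz i hi).1 hx, mul_zero]
    · have hy : IsPRegular p y := by
        by_contra h; exact hxy (iff_of_false hx h)
      obtain ⟨T, z, g, hz, hval⟩ := S.sing x (not_not.1 hx)
      simp only [hμ]
      rw [Finset.sum_congr rfl fun η _ => by rw [hval _ (f η).2, Finset.mul_sum, Finset.sum_mul],
        Finset.sum_comm]
      refine Finset.sum_eq_zero fun i hi => ?_
      calc _ = g i * ∑ η : bf c, hatF (S'.A η) (z i) * ((η : IrrCharacter H) : H → ℂ) y := by
            rw [Finset.mul_sum]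
            refine Finset.sum_congr rfl fun η _ => ?_
            rw [hmatch η _ (hz i hi).1]
            ring
        _ = 0 := by
            rw [Finset.sum_coe_sort (bf c) fun η => hatF (S'.A η) (z i) * (η : H → ℂ) y,
              vanish' S' (hz i hi).1 hy, mul_zero]
  have hsing : ∀ x y, p ∣ orderOf x → p ∣ orderOf y →
      MemLocalRing M (μ x y / (Nat.card (Subgroup.centralizer ({x} : Set G)) : ℂ)) ∧
      MemLocalRing M (μ x y / (Nat.card (Subgroup.centralizer ({y} : Set H)) : ℂ)) := by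
    intro x y hx hy
    obtain ⟨T, z, g, hz, hval⟩ := S.sing x hx
    obtain ⟨T', z', g', hz', hval'⟩ := S'.sing y hy
    set k : (Res M)[G] → (Res M)[H] → ℤ := fun i j =>
      if -z' j ∈ (roots n e).image (· * z i) then 1 else 0 with hk
    have hμv : μ x y = ∑ i ∈ T, ∑ j ∈ T', (k i j : ℂ) * ((n : ℂ) * g i * g' j) := by
      calc μ x y = ∑ η : bf c, ∑ i ∈ T, ∑ j ∈ T', (g i * g' j) * (fun χ : bf B =>
            hatF (S.A χ) (z i) * conj (hatF (S.A χ) (-z' j))) (f η) := by
            refine Finset.sum_congr rfl fun η _ => ?_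
            rw [hval _ (f η).2, hval' _ η.2, mul_assoc, Finset.sum_mul_sum, Finset.mul_sum]
            refine Finset.sum_congr rfl fun i _ => ?_
            rw [Finset.mul_sum]
            refine Finset.sum_congr rfl fun j hj => ?_
            simp only
            rw [hmatch η _ (hz' j hj).1, show conj (hatF (S.A (f η)) (-z' j)) =
              hatF (S.A (f η)) (z' j) by
                simp only [hatF, map_sum, map_mul, map_intCast]
                refine Finset.sum_congr rfl fun l _ => ?_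
                rw [← AddChar.map_neg_eq_conj, mul_neg, neg_neg]]
            linear_combination (g i * g' j * hatF (S.A (f η)) (z i) *
              hatF (S.A (f η)) (z' j)) * hε2 η
        _ = _ := by
            rw [Finset.sum_comm]
            refine Finset.sum_congr rfl fun i hi => ?_
            rw [Finset.sum_comm]
            refine Finset.sum_congr rfl fun j hj => ?_
            rw [← Finset.mul_sum, hreidx (fun χ : bf B =>
                hatF (S.A χ) (z i) * conj (hatF (S.A χ) (-z' j))), Finset.sum_coe_sort (bf B) fun χ =>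
                hatF (S.A χ) (z i) * conj (hatF (S.A χ) (-z' j)),
              S.gram _ _ (hz i hi).1 (neg_ne_zero.2 (hz' j hj).1), hk]
            by_cases hm : -z' j ∈ (roots n e).image (· * z i) <;> simp only [hm, if_true, if_false] <;>
              push_cast <;> ring
    rw [hμv]
    constructor <;> rw [Finset.sum_div] <;> refine memR_sum _ _ fun i hi => ?_ <;>
      rw [Finset.sum_div] <;> refine memR_sum _ _ fun j hj => ?_
    · rw [show (k i j : ℂ) * ((n : ℂ) * g i * g' j) /
          (Nat.card (Subgroup.centralizer ({x} : Set G)) : ℂ) = (k i j : ℂ) *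
          ((n : ℂ) * g i / (Nat.card (Subgroup.centralizer ({x} : Set G)) : ℂ)) * g' j by ring]
      exact memR_mul (memR_mul (memR_intCast _) (hz i hi).2.2) (hz' j hj).2.1
    · rw [show (k i j : ℂ) * ((n : ℂ) * g i * g' j) /
          (Nat.card (Subgroup.centralizer ({y} : Set H)) : ℂ) = (k i j : ℂ) * g i *
          ((n : ℂ) * g' j / (Nat.card (Subgroup.centralizer ({y} : Set H)) : ℂ)) by ring]
      exact memR_mul (memR_mul (memR_intCast _) (hz i hi).2.1) (hz' j hj).2.2
  have hperf : IsPerfectFun p M (signedBijectionKernel c I ε) := by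
    intro x y
    rw [hker]
    by_cases hxy : IsPRegular p x ↔ IsPRegular p y
    swap
    · rw [hmixed x y hxy, zero_div, zero_div]
      exact ⟨memR_zero, memR_zero, Or.inr rfl⟩
    by_cases hx : IsPRegular p x
    swap
    · obtain ⟨h1, h2⟩ := hsing x y (not_not.1 hx) (not_not.1 fun h => hx (hxy.2 h))
      exact ⟨h1, h2, Or.inl hxy⟩
    have hy := hxy.1 hx
    refine ⟨?_, ?_, Or.inl hxy⟩
    · set a : IrrCharacter G → ℂ := fun χ => ∑ η ∈ Finset.univ.filter
        (fun η : bf c => (f η : IrrCharacter G) = χ),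
          (ε₀ η : ℂ) * ((η : IrrCharacter H) : H → ℂ) y with ha
      have hd : ∀ t, ∑ χ : IrrCharacter G, a χ * (χ : G → ℂ) t = μ t y := fun t => by
        simp only [ha, hμ, Finset.sum_mul]
        rw [← Finset.sum_fiberwise_of_maps_to (g := fun η : bf c => (f η : IrrCharacter G))
          (fun η _ => Finset.mem_univ _)]
        refine Finset.sum_congr rfl fun χ _ => Finset.sum_congr rfl fun η hη => ?_
        rw [(Finset.mem_filter.mp hη).2]
        ring
      have h := local_div_of_vanish hpM a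
        (fun χ => memR_sum _ _ fun η _ => memR_mul (memR_intCast _) (irr_memR _ y))
        (fun t ht => by
          rw [hd]
          exact hmixed t y fun h => (h.mpr hy) ht) (t := x) hx
      rwa [hd] at h
    · set a : IrrCharacter H → ℂ := fun η => if h : η ∈ bf c then
        (ε₀ ⟨η, h⟩ : ℂ) * ((f ⟨η, h⟩ : IrrCharacter G) : G → ℂ) x else 0 with ha
      have hd : ∀ t, ∑ η : IrrCharacter H, a η * (η : H → ℂ) t = μ x t := fun t => by
        rw [← Finset.sum_subset (Finset.subset_univ (bf c))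
          fun η _ hη => by simp only [ha, dif_neg hη, zero_mul], ← Finset.sum_coe_sort]
        exact Finset.sum_congr rfl fun η _ => by simp only [ha, dif_pos η.2, Subtype.coe_eta]
      have h := local_div_of_vanish hpM a
        (fun η => by
          simp only [ha]
          split_ifs
          exacts [memR_mul (memR_intCast _) (irr_memR _ x), memR_zero])
        (fun t ht => by
          rw [hd]
          exact hmixed x t fun h => (h.mp hx) ht) (t := y) hy
      rwa [hd] at h
  refine ⟨I, ε, X', Y', ⟨⟨fun η hη => ?_, fun η hη η' hη' h => ?_, fun χ hχ => ?_⟩, fun η hη => ?_,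
    hperf⟩, hXY', hall', hXc', hYc', hagree', δ' * δ, fun η hη => ?_, fun he η hη => ?_⟩
  · rw [show η = ((⟨η, mem_bf.2 hη⟩ : bf c) : IrrCharacter H) from rfl, hI]
    exact mem_bf.1 (f _).2
  · have h' : (f ⟨η, mem_bf.2 hη⟩ : IrrCharacter G) = f ⟨η', mem_bf.2 hη'⟩ := by
      rw [← hI, ← hI]; exact h
    exact congrArg Subtype.val (hfinj (Subtype.ext h'))
  · obtain ⟨η, hη⟩ := hfbij.2 ⟨χ, mem_bf.2 hχ⟩
    exact ⟨η, mem_bf.1 η.2, by rw [hI, hη]⟩
  · rw [show η = ((⟨η, mem_bf.2 hη⟩ : bf c) : IrrCharacter H) from rfl, hε]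
    exact hε₀1 _
  · rw [hε, hε₀]
    simp only
    rw [hdY' η hη, hdY _ (hfYm η hη).1]
  · rw [show η = ((⟨η, mem_bf.2 hη⟩ : bf c) : IrrCharacter H) from rfl, hε, hε₀]
    simp only
    rcases hall' ⟨η, mem_bf.2 hη⟩ with h | h
    · rw [hdX' he _ h, hdX he _ (hfXm _ h)]; ring
    · rw [hdY' _ h, hdY _ (hfYm _ h).1]

end Cfsg.Agent.Blocks.CyclicPerfect
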