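import Cfsg.Agent.Blocks.CyclicLocal
import Cfsg.Agent.BlockChar.KleinFourShape
import Mathlib.RingTheory.ZMod.UnitsCyclic

/-!
The character table of a block with cyclic defect group in coordinates.
-/

namespace Cfsg.Agent.Blocks.CyclicShape

open Cfsg Cfsg.Agent Cfsg.Agent.BlockChar Cfsg.Agent.Blocks
open Cfsg.Agent.Blocks.OrbitLattice Cfsg.Agent.Blocks.CyclicSections
open Cfsg.Agent.Blocks.CyclicStructure
open scoped MonoidAlgebra ComplexConjugate

set_option autoImplicit false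
set_option linter.unusedSectionVars false
set_option linter.style.haveILetI false

universe u

/-- The roots of unity of an order dividing `e` modulo `n`. -/
def roots (n e : ℕ) [NeZero n] : Finset (ZMod n) := Finset.univ.filter (fun r => r ^ e = 1)

theorem card_roots_le {p a e n : ℕ} [NeZero n] (hp : p.Prime) (hn : n = p ^ a)
    (he : e ∣ p - 1) : (roots n e).card ≤ e := by
  classical
  subst hn
  have he0 : 0 < e := Nat.pos_of_dvd_of_pos he (by have := hp.two_le; omega)
  by_cases hp2 : p = 2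
  · subst hp2
    obtain rfl : e = 1 := Nat.dvd_one.mp he
    simp [roots, Finset.filter_eq']
  · haveI := ZMod.isCyclic_units_of_prime_pow p hp hp2 a
    refine le_trans ?_ (IsCyclic.card_pow_eq_one_le (α := (ZMod (p ^ a))ˣ) he0)
    refine Finset.card_le_card_of_surjOn (fun u : (ZMod (p ^ a))ˣ => (u : ZMod (p ^ a))) ?_
    intro r hr
    simp only [roots, Finset.coe_filter, Finset.mem_univ, true_and, Set.mem_ofPred_eq] at hr
    exact ⟨(IsUnit.of_pow_eq_one hr he0.ne').unit, by simp [Units.ext_iff, hr], rfl⟩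

variable {G : Type u} [Group G] [Fintype G] {p : ℕ} [Fact p.Prime] {M : Ideal AlgInt}
  [M.IsMaximal]

/-- The data of a block with cyclic defect group of order `n` and inertial index `e`. -/
structure CycShape (p : ℕ) (M : Ideal AlgInt) [M.IsMaximal] (B : Set (IrrCharacter G)) (n e : ℕ)
    [NeZero n] : Type u where
  two_le : 2 ≤ n
  pos : 0 < e
  card_roots : (roots n e).card = e
  free : ∀ r ∈ roots n e, ∀ i : ZMod n, r * i = i → i ≠ 0 → r = 1
  unit : ∀ r ∈ roots n e, ∀ i : ZMod n, r * i = 0 → i = 0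
  div : ∀ r ∈ roots n e, ∀ s ∈ roots n e, ∃ u ∈ roots n e, s = r * u
  card : e * e + (n - 1) ≤ (bf B).card * e
  A : IrrCharacter G → ZMod n → ℤ
  inv : ∀ χ : IrrCharacter G, ∀ r ∈ roots n e, ∀ i, A χ (r * i) = A χ i
  ne : ∀ χ ∈ bf B, ∃ i, i ≠ 0 ∧ A χ i - A χ 0 ≠ 0
  gram : ∀ x y : ZMod n, x ≠ 0 → y ≠ 0 → ∑ χ ∈ bf B, hatF (A χ) x * conj (hatF (A χ) y) =
    if y ∈ (roots n e).image (· * x) then (n : ℂ) else 0
  vanish : ∀ x : ZMod n, x ≠ 0 → ∀ s : G, ¬ p ∣ orderOf s →
    ∑ χ ∈ bf B, conj (hatF (A χ) x) * (χ : G → ℂ) s = 0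
  sing : ∀ y : G, p ∣ orderOf y → ∃ (T : Finset ((Res M)[G])) (z : (Res M)[G] → ZMod n)
    (g : (Res M)[G] → ℂ),
    (∀ i ∈ T, z i ≠ 0 ∧ MemLocalRing M (g i) ∧
      MemLocalRing M ((n : ℂ) * g i / (Nat.card (Subgroup.centralizer ({y} : Set G)) : ℂ))) ∧
    ∀ χ ∈ bf B, (χ : G → ℂ) y = ∑ i ∈ T, hatF (A χ) (z i) * g i

set_option maxHeartbeats 2000000 in
theorem exists_shape_aux (hpM : (p : AlgInt) ∈ M) {B : Set (IrrCharacter G)} {P : Subgroup G}
    (hPD : IsDefectGroup p M B P) (hcyc : IsCyclic P) (hP1 : P ≠ ⊥)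
    {c : Set (IrrCharacter (Subgroup.centralizer (P : Set G)))}
    (hc : IsInducedBlock M (Subgroup.centralizer (P : Set G)) c B) [NeZero (Nat.card P)] :
    Nonempty (CycShape p M B (Nat.card P)
      ((Subgroup.centralizer (P : Set G)).relIndex (stab P (idemS M c)))) := by
  have hlow := CyclicLocal.low_bound hpM hPD hcyc hP1 hc
  set e := (Subgroup.centralizer (P : Set G)).relIndex (stab P (idemS M c)) with hedef
  classical
  haveI := charP_res (p := p) hpM
  letI : ∀ v : G, Fintype (cz v) := fun v => Fintype.ofFinite _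
  obtain ⟨D, hfree, hdvd, ⟨t, ht, hgen⟩, Ω, hΩP, hΩcard, hmin, hΩN, hΩC⟩ :=
    cyclic_setup hpM hPD hcyc hP1 hc
  set T := stab P (idemS M c) with hT
  have hab := commute_of_cyclic hcyc
  haveI : NeZero (Nat.card P) := ⟨Nat.card_pos.ne'⟩
  obtain ⟨E⟩ := exists_coord hcyc
  set n := Nat.card P with hn
  haveI : NeZero n := ⟨Nat.card_pos.ne'⟩
  have hn2 : 2 ≤ n := by
    haveI : Nontrivial P := (Subgroup.nontrivial_iff_ne_bot P).mpr hP1
    exact Finite.one_lt_card
  obtain ⟨hrank, hcount⟩ := card_eq_of_free hpM hPD hab hc hfree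
  change e * Nat.card B = e * blockRank p B + (n - 1) at hcount
  obtain ⟨m, S₀, hsec, hcon, htw, hlocS⟩ := exists_mult hpM D E rfl
    (C := Subgroup.centralizer (Ω : Set G))
    (fun x hx => Subgroup.mem_centralizer_iff.mpr fun y hy => hab y (hΩP hy) x hx)
    (centralizer_anti hΩP)
    (fun v hv hv1 => centralizer_anti (hmin _ (Subgroup.zpowers_le.mpr hv)
      (fun h => hv1 (Subgroup.zpowers_eq_bot.mp h))))
    hΩC (fun t ht => normalizer_le_normalizer_centralizer Ω (hΩN t ht)) hrank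
  -- the multipliers
  have hmul : ∀ g ∈ T, ∃ r : ZMod n, ∀ x, g * E.el x * g⁻¹ = E.el (r * x) := by
    intro g hg
    obtain ⟨r, hr⟩ := E.surj _ ((Subgroup.mem_normalizer_iff.mp hg.1 _).mp (E.mem 1))
    refine ⟨r, fun x => ?_⟩
    obtain ⟨k, rfl⟩ := ZMod.natCast_zmod_surjective x
    induction k with
    | zero => simp [E.zero]
    | succ k ih => rw [Nat.cast_succ, E.add, mul_add, mul_one, E.add, ← ih, hr]; group
  have huniq : ∀ g r, (∀ x, g * E.el x * g⁻¹ = E.el (r * x)) → g * E.el 1 * g⁻¹ = E.el r :=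
    fun g r h => by rw [h 1, mul_one]
  set R := Finset.univ.filter (fun r : ZMod n => E.el r ∈ orbP P (idemS M c) (E.el 1)) with hR
  have hRmem : ∀ r, r ∈ R ↔ ∃ g ∈ T, ∀ x, g * E.el x * g⁻¹ = E.el (r * x) := by
    intro r
    simp only [hR, Finset.mem_filter, Finset.mem_univ, true_and]
    constructor
    · rintro ⟨g, hg, h⟩
      obtain ⟨r', hr'⟩ := hmul g hg
      have := huniq g r' hr'
      rw [h] at this
      exact ⟨g, hg, E.inj this ▸ hr'⟩
    · rintro ⟨g, hg, h⟩
      exact ⟨g, hg, huniq g r h⟩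
  have hel1 : E.el 1 ≠ 1 := E.ne_one (fun h => by
    haveI : Fact (1 < n) := ⟨hn2⟩
    exact one_ne_zero h)
  have hRcard : R.card = e := by
    refine Eq.trans ?_
      (card_orbP_of_free D.pmax.pair (E.mem 1) (fun g hg h => hfree g hg _ (E.mem 1) hel1 h))
    rw [← Fintype.card_coe, ← Nat.card_eq_fintype_card]
    refine Nat.card_eq_of_bijective (fun r => (⟨E.el r.1, (Finset.mem_filter.1 r.2).2⟩ :
      orbP P (idemS M c) (E.el 1))) ⟨fun r s h => Subtype.ext (E.inj (congrArg Subtype.val h)), ?_⟩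
    rintro ⟨w, hw⟩
    obtain ⟨x, rfl⟩ := E.surj w (orbP_subset (E.mem 1) w hw)
    exact ⟨⟨x, Finset.mem_filter.2 ⟨Finset.mem_univ _, hw⟩⟩, rfl⟩
  have hone : ∀ g ∈ Subgroup.centralizer (P : Set G), ∀ r : ZMod n,
      (∀ x, g * E.el x * g⁻¹ = E.el (r * x)) → r = 1 := by
    intro g hg r h
    have h1 := huniq g r h
    rw [← Subgroup.mem_centralizer_iff.mp hg _ (E.mem 1), mul_inv_cancel_right] at h1
    exact (E.inj h1).symm
  have h1R : (1 : ZMod n) ∈ R := (hRmem 1).2 ⟨1, one_mem _, fun x => by simp⟩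
  have hfreeR : ∀ r ∈ R, ∀ i : ZMod n, r * i = i → i ≠ 0 → r = 1 := by
    intro r hr i hi hi0
    obtain ⟨g, hg, h⟩ := (hRmem r).1 hr
    exact hone g (hfree g hg _ (E.mem i) (E.ne_one hi0) (by rw [h, hi])) r h
  have hunit : ∀ r ∈ R, ∀ i : ZMod n, r * i = 0 → i = 0 := by
    intro r hr i hi
    obtain ⟨g, hg, h⟩ := (hRmem r).1 hr
    by_contra hi0
    have := h i
    rw [hi, E.zero, conj_eq_one_iff] at this
    exact E.ne_one hi0 this
  have hdiv : ∀ r ∈ R, ∀ s ∈ R, ∃ u ∈ R, s = r * u := by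
    intro r hr s hs
    obtain ⟨g, hg, h⟩ := (hRmem r).1 hr
    obtain ⟨g', hg', h'⟩ := (hRmem s).1 hs
    obtain ⟨u, hu⟩ := hmul (g⁻¹ * g') (T.mul_mem (T.inv_mem hg) hg')
    refine ⟨u, (hRmem u).2 ⟨_, T.mul_mem (T.inv_mem hg) hg', hu⟩, E.inj ?_⟩
    rw [← huniq g' s h', ← h u, ← huniq _ u hu]
    group
  obtain ⟨rt, hrt⟩ := hmul t ht
  have hpow : ∀ k : ℕ, ∀ x, t ^ k * E.el x * (t ^ k)⁻¹ = E.el (rt ^ k * x) := by
    intro k
    induction k with
    | zero => intro x; simp
    | succ k ih =>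
      intro x
      rw [pow_succ' t, pow_succ', mul_assoc rt, ← hrt, ← ih]
      group
  have hRpow : ∀ r ∈ R, ∃ k : ℕ, r = rt ^ k := by
    intro r hr
    obtain ⟨g, hg, h⟩ := (hRmem r).1 hr
    obtain ⟨k, hk⟩ := hgen g hg
    refine ⟨k, E.inj ?_⟩
    rw [← huniq g r h, ← mul_one (rt ^ k), ← hpow k 1]
    have hcm := Subgroup.mem_centralizer_iff.mp hk _ (E.mem 1)
    calc g * E.el 1 * g⁻¹ = t ^ k * ((t ^ k)⁻¹ * g * E.el 1 * ((t ^ k)⁻¹ * g)⁻¹) * (t ^ k)⁻¹ := by
          group
      _ = _ := by rw [← hcm, mul_inv_cancel_right]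
  -- normalise the multiplicities
  obtain ⟨sh, hsh⟩ : ∃ sh : ZMod n, ∀ χ : IrrCharacter G, ∀ x : ZMod n,
      hatF (fun i => m χ (i - sh)) (rt * x) = hatF (fun i => m χ (i - sh)) x := by
    by_cases hr1 : rt = 1
    · exact ⟨0, fun χ x => by rw [hr1, one_mul]⟩
    obtain ⟨j, hj⟩ := htw t ht rt hrt
    have hinj : Function.Injective (fun x : ZMod n => x * (rt - 1)) := by
      intro x y h
      simp only at h
      by_contra hne
      refine hr1 (hfreeR rt ((hRmem rt).2 ⟨t, ht, hrt⟩) (x - y) ?_ (sub_ne_zero.2 hne))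
      linear_combination h
    obtain ⟨sh, hsh⟩ := (Finite.injective_iff_surjective.1 hinj) j
    simp only at hsh
    refine ⟨sh, fun χ x => ?_⟩
    by_cases hx : x = 0
    · rw [hx, mul_zero]
    · rw [hatF_shift, hatF_shift, hj χ x hx, ← mul_assoc (ZMod.stdAddChar (sh * x)),
        ← AddChar.map_add_eq_mul, ← hsh]
      congr 2
      ring
  set A : IrrCharacter G → ZMod n → ℤ := fun χ i => m χ (i - sh) with hA
  have hAR : ∀ χ, ∀ r ∈ R, ∀ x, hatF (A χ) (r * x) = hatF (A χ) x := by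
    intro χ r hr x
    obtain ⟨k, rfl⟩ := hRpow r hr
    induction k with
    | zero => simp
    | succ k ih =>
      by_cases hk : rt ^ k ∈ R
      · rw [pow_succ', mul_assoc, hsh, ih hk]
      · exact absurd ((hRmem _).2 ⟨t ^ k, T.pow_mem ht k, hpow k⟩) hk
  have hAinv : ∀ χ, ∀ r ∈ R, ∀ i, A χ (r * i) = A χ i := by
    intro χ r hr i
    obtain ⟨u, hu, hru⟩ := hdiv r hr 1 h1R
    exact inv_of_hatF (σ := u) (by rw [mul_comm]; exact hru.symm) (hAR χ u hu) i
  have hconA : ∀ χ ψ : IrrCharacter G, ∀ x : ZMod n, x ≠ 0 →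
      (n : ℂ) * conP p P (idemS M c) (χ : G → ℂ) (ψ : G → ℂ) (E.el x) =
        hatF (A χ) x * conj (hatF (A ψ) x) := by
    intro χ ψ x hx
    rw [hcon χ ψ x hx, hA, hatF_shift, hatF_shift, map_mul (starRingEnd ℂ),
      mul_mul_mul_comm, ← AddChar.map_neg_eq_conj, ← AddChar.map_add_eq_mul, add_neg_cancel,
      AddChar.map_zero_eq_one, one_mul]
  have horbcard : ∀ x : ZMod n, x ≠ 0 → Nat.card (orbP P (idemS M c) (E.el x)) = e := fun x hx =>
    card_orbP_of_free D.pmax.pair (E.mem x) fun g hg h => hfree g hg _ (E.mem x) (E.ne_one hx) h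
  -- the orthogonality relations
  set S := (Finset.univ : Finset (ZMod n)).erase 0 with hS
  set W : IrrCharacter G → IrrCharacter G → ℂ := fun χ ψ =>
    ((e : ℂ) * n)⁻¹ * ∑ x ∈ S, hatF (A χ) x * conj (hatF (A ψ) x) with hW
  have he0 : (e : ℂ) ≠ 0 := Nat.cast_ne_zero.mpr Subgroup.index_ne_zero_of_finite
  have hn0 : (n : ℂ) ≠ 0 := Nat.cast_ne_zero.2 (NeZero.ne n)
  have hWR : ∀ χ ψ : IrrCharacter G, χ ∈ B → ψ ∈ B →
      W χ ψ = (if χ = ψ then 1 else 0) - regInner p (χ : G → ℂ) (ψ : G → ℂ) := by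
    intro χ ψ hχ hψ
    have h := sum_conP hpM D hab χ hψ
    rw [sum_coord E, ← Finset.add_sum_erase _ _ (Finset.mem_univ (0 : ZMod n)), E.zero,
      card_orbP_one, conP_one hpM D hχ hψ, Nat.cast_one, inv_one, one_mul] at h
    rw [← h, add_sub_cancel_left]
    simp only [hW]
    rw [Finset.mul_sum]
    refine Finset.sum_congr rfl fun x hx => ?_
    rw [horbcard x (Finset.mem_erase.1 hx).1, ← hconA χ ψ x (Finset.mem_erase.1 hx).1]
    field_simp
  set Gm : ZMod n → ZMod n → ℂ := fun x y => ∑ χ ∈ bf B, hatF (A χ) x * conj (hatF (A χ) y)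
    with hGm
  have hGdiag : ∀ x, x ≠ 0 → Gm x x = n := by
    intro x hx
    rw [hGm]
    show ∑ χ ∈ bf B, _ = _
    rw [Finset.sum_congr rfl fun χ _ => (hconA χ χ x hx).symm, ← Finset.mul_sum,
      sum_conP_diag hpM D (E.mem x), hrank _ (E.mem x) (E.ne_one hx), Nat.cast_one, mul_one]
  have hGR : ∀ x, x ≠ 0 → ∀ r ∈ R, Gm x (r * x) = n := by
    intro x hx r hr
    rw [← hGdiag x hx]
    exact Finset.sum_congr rfl fun χ _ => by rw [hAR χ r hr x]
  have hWtr : ∑ χ ∈ bf B, W χ χ = (e : ℂ)⁻¹ * (S.card : ℂ) := by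
    simp only [hW, ← Finset.mul_sum]
    rw [Finset.sum_comm, Finset.sum_congr rfl fun x hx =>
      show ∑ χ ∈ bf B, hatF (A χ) x * conj (hatF (A χ) x) = (n : ℂ) from
        hGdiag x (Finset.mem_erase.1 hx).1, Finset.sum_const, nsmul_eq_mul]
    field_simp
    all_goals rfl
  have hWW : ∑ χ ∈ bf B, ∑ ψ ∈ bf B, W χ ψ * W ψ χ = ∑ χ ∈ bf B, W χ χ := by
    refine Finset.sum_congr rfl fun χ hχ => ?_
    have hχ' := mem_bf.1 hχ
    have hrr := regInner_trans hpM D.blk (φ := χ) hχ'
    rw [Finset.sum_congr rfl fun ψ hψ => by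
      rw [hWR χ ψ hχ' (mem_bf.1 hψ), hWR ψ χ (mem_bf.1 hψ) hχ'], hWR χ χ hχ' hχ', if_pos rfl]
    simp only [sub_mul, mul_sub, Finset.sum_sub_distrib, ite_mul, mul_ite, one_mul, mul_one,
      zero_mul, mul_zero, Finset.sum_ite_eq, Finset.sum_ite_eq', hχ, if_true, hrr]
    ring
  have hnormSq : ∑ x ∈ S, ∑ y ∈ S, Complex.normSq (Gm x y) = (e : ℝ) * n ^ 2 * S.card := by
    apply Complex.ofReal_injective
    push_cast
    have h1 : ∑ χ ∈ bf B, ∑ ψ ∈ bf B, W χ ψ * W ψ χ =
        (((e : ℂ) * n)⁻¹) ^ 2 * ∑ x ∈ S, ∑ y ∈ S, Gm y x * conj (Gm y x) := by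
      simp only [hW, hGm, map_sum, map_mul, Complex.conj_conj, Finset.sum_mul, Finset.mul_sum]
      rw [Finset.sum_comm]
      conv_rhs => arg 2; ext x; rw [Finset.sum_comm]
      rw [Finset.sum_comm (s := S)]
      refine Finset.sum_congr rfl fun χ _ => ?_
      rw [Finset.sum_comm]
      refine Finset.sum_congr rfl fun x _ => ?_
      rw [Finset.sum_comm]
      refine Finset.sum_congr rfl fun y _ => Finset.sum_congr rfl fun ψ _ => ?_
      ring
    rw [hWW, hWtr, Finset.sum_comm (s := S) (t := S)] at h1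
    rw [Finset.sum_congr rfl fun x _ => Finset.sum_congr rfl fun y _ =>
      (Complex.mul_conj (Gm x y)).symm]
    field_simp at h1 ⊢
    linear_combination -h1
  have hGzero : ∀ x y, x ≠ 0 → y ≠ 0 → Gm x y = if y ∈ R.image (· * x) then (n : ℂ) else 0 := by
    have hsub : ∀ x ∈ S, R.image (· * x) ⊆ S := fun x hx y hy => by
      obtain ⟨r, hr, rfl⟩ := Finset.mem_image.1 hy
      exact Finset.mem_erase.2 ⟨fun h => (Finset.mem_erase.1 hx).1 (hunit r hr x h),
        Finset.mem_univ _⟩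
    have hin : ∀ x ∈ S, ∑ y ∈ R.image (· * x), Complex.normSq (Gm x y) = (e : ℝ) * n ^ 2 := by
      intro x hx
      have hx0 := (Finset.mem_erase.1 hx).1
      rw [Finset.sum_image fun r hr s hs h => ?_, Finset.sum_congr rfl fun r hr => by
        rw [hGR x hx0 r hr], Finset.sum_const, hRcard, nsmul_eq_mul, Complex.normSq_natCast]
      · ring
      · obtain ⟨u, hu, rfl⟩ := hdiv r hr s hs
        change r * x = r * u * x at h
        have h2 : r * (u * x - x) = 0 := by rw [mul_sub, ← mul_assoc, ← h, sub_self]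
        rw [hfreeR u hu x (sub_eq_zero.1 (hunit r hr _ h2)) hx0, mul_one]
    have h0 : ∑ x ∈ S, ∑ y ∈ S \ R.image (· * x), Complex.normSq (Gm x y) = 0 := by
      have h := hnormSq
      rw [Finset.sum_congr rfl fun x hx => (Finset.sum_sdiff (hsub x hx)).symm,
        Finset.sum_add_distrib, Finset.sum_congr rfl hin, Finset.sum_const, nsmul_eq_mul] at h
      linarith
    intro x y hx hy
    split_ifs with hm
    · obtain ⟨r, hr, rfl⟩ := Finset.mem_image.1 hm
      exact hGR x hx r hr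
    · have h1 := (Finset.sum_eq_zero_iff_of_nonneg fun x _ => Finset.sum_nonneg fun y _ =>
        Complex.normSq_nonneg _).1 h0 x (Finset.mem_erase.2 ⟨hx, Finset.mem_univ _⟩)
      exact Complex.normSq_eq_zero.1 ((Finset.sum_eq_zero_iff_of_nonneg fun y _ =>
        Complex.normSq_nonneg _).1 h1 y (Finset.mem_sdiff.2
          ⟨Finset.mem_erase.2 ⟨hy, Finset.mem_univ _⟩, hm⟩))
  -- the lattice
  set V : bf B → ZMod n → ℤ := fun χ i => A χ i - A χ 0 with hV
  have hgram : ∀ i j : ZMod n, i ≠ 0 → j ≠ 0 → ∑ χ : bf B, V χ i * V χ j =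
      (if j ∈ R.image (· * i) then 1 else 0) + (R.card : ℤ) := fun i j hi hj => by
    refine gram h1R hfreeR hunit hdiv (fun χ : bf B => A χ) (fun x y hx hy => ?_) hi hj
    rw [← hGzero x y hx hy]
    exact Finset.sum_coe_sort (bf B) fun χ => hatF (A χ) x * conj (hatF (A χ) y)
  have hne : ∀ χ : bf B, ∃ i, i ≠ 0 ∧ V χ i ≠ 0 := by
    intro χ
    by_contra hno
    push Not at hno
    have hz : ∀ i, A χ i = A χ 0 := fun i => by
      by_cases hi : i = 0
      · rw [hi]
      · exact sub_eq_zero.1 (hno i hi)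
    haveI : Fact (1 < n) := ⟨hn2⟩
    have h1 := hconA χ χ 1 one_ne_zero
    rw [hatF_eq_zero hz one_ne_zero, zero_mul, mul_eq_zero] at h1
    have h2 := conP_pos hpM D (E.mem 1) (fun w hw => hab _ (E.mem 1) w hw) (mem_bf.1 χ.2)
    rw [h1.resolve_left hn0] at h2
    exact lt_irrefl _ h2
  have hepos : 0 < e := Nat.pos_of_ne_zero Subgroup.index_ne_zero_of_finite
  -- relations on the regular elements
  have hU : ∀ x, x ≠ 0 → ∀ s, ¬ p ∣ orderOf s →
      ∑ χ ∈ bf B, conj (hatF (A χ) x) * (χ : G → ℂ) s = 0 := by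
    intro x hx s hs
    set F : G → ℂ := fun s => ∑ χ ∈ bf B, conj (hatF (A χ) x) * (χ : G → ℂ) s with hF
    have hnorm : (Nat.card G : ℂ)⁻¹ * ∑ s ∈ regs p G, F s * conj (F s) = 0 := by
      have h1 : (Nat.card G : ℂ)⁻¹ * ∑ s ∈ regs p G, F s * conj (F s) = ∑ χ ∈ bf B, ∑ ψ ∈ bf B,
          conj (hatF (A χ) x) * hatF (A ψ) x * regInner p (χ : G → ℂ) (ψ : G → ℂ) := by
        simp only [hF, regInner, map_sum, map_mul, Complex.conj_conj, Finset.sum_mul,
          Finset.mul_sum]
        rw [Finset.sum_comm]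
        conv_rhs => rw [Finset.sum_comm]
        refine Finset.sum_congr rfl fun χ _ => ?_
        rw [Finset.sum_comm]
        refine Finset.sum_congr rfl fun ψ _ => Finset.sum_congr rfl fun g _ => ?_
        ring
      have h2 : ∑ χ ∈ bf B, ∑ ψ ∈ bf B, conj (hatF (A χ) x) * hatF (A ψ) x * W χ ψ =
          ((e : ℂ) * n)⁻¹ * ∑ y ∈ S, Gm y x * conj (Gm y x) := by
        simp only [hW, hGm, map_sum, map_mul, Complex.conj_conj, Finset.sum_mul, Finset.mul_sum]
        conv_rhs => rw [Finset.sum_comm]; arg 2; ext χ; rw [Finset.sum_comm]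
        rw [Finset.sum_comm]
        refine Finset.sum_congr rfl fun ψ _ => Finset.sum_congr rfl fun χ _ =>
          Finset.sum_congr rfl fun y _ => ?_
        ring
      have h3 : ∑ y ∈ S, Gm y x * conj (Gm y x) = (e : ℂ) * n ^ 2 := by
        have hsum : ∀ y ∈ S, Gm y x * conj (Gm y x) =
            if y ∈ R.image (· * x) then (n : ℂ) ^ 2 else 0 := by
          intro y hy
          have hsymm : x ∈ R.image (· * y) ↔ y ∈ R.image (· * x) := by
            simp only [Finset.mem_image]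
            constructor <;>
            · rintro ⟨r, hr, rfl⟩
              obtain ⟨u, hu, hru⟩ := hdiv r hr 1 h1R
              exact ⟨u, hu, by rw [← mul_assoc, mul_comm u r, ← hru, one_mul]⟩
          rw [hGzero y x (Finset.mem_erase.1 hy).1 hx]
          simp only [hsymm]
          split_ifs <;> simp [pow_two]
        rw [Finset.sum_congr rfl hsum, ← Finset.sum_filter, Finset.sum_const,
          show (S.filter fun y => y ∈ R.image (· * x)) = R.image (· * x) from
            Finset.ext fun y => by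
              simp only [Finset.mem_filter, hS, Finset.mem_erase, Finset.mem_univ, and_true,
                and_iff_right_iff_imp]
              intro hy h0
              obtain ⟨r, hr, rfl⟩ := Finset.mem_image.1 hy
              exact hx (hunit r hr x h0),
          Finset.card_image_of_injOn fun r hr s hs h => ?_, hRcard, nsmul_eq_mul]
        obtain ⟨u, hu, rfl⟩ := hdiv r hr s hs
        change r * x = r * u * x at h
        have h2 : r * (u * x - x) = 0 := by rw [mul_sub, ← mul_assoc, ← h, sub_self]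
        rw [hfreeR u hu x (sub_eq_zero.1 (hunit r hr _ h2)) hx, mul_one]
      rw [h1, Finset.sum_congr rfl fun χ hχ => Finset.sum_congr rfl fun ψ hψ => show
        conj (hatF (A χ) x) * hatF (A ψ) x * regInner p (χ : G → ℂ) (ψ : G → ℂ) =
          (if χ = ψ then conj (hatF (A χ) x) * hatF (A ψ) x else 0) -
            conj (hatF (A χ) x) * hatF (A ψ) x * W χ ψ by
          rw [hWR χ ψ (mem_bf.1 hχ) (mem_bf.1 hψ)]; split_ifs <;> ring]
      simp only [Finset.sum_sub_distrib]
      rw [h2, h3, Finset.sum_congr rfl fun χ hχ => by rw [Finset.sum_ite_eq, if_pos hχ]]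
      have h4 : ∑ χ ∈ bf B, conj (hatF (A χ) x) * hatF (A χ) x = n := by
        rw [← hGdiag x hx]; exact Finset.sum_congr rfl fun χ _ => mul_comm _ _
      rw [h4]
      field_simp
      ring
    rw [mul_eq_zero] at hnorm
    have h5 : (∑ s ∈ regs p G, Complex.normSq (F s) : ℝ) = 0 := by
      apply Complex.ofReal_injective
      push_cast
      rw [← hnorm.resolve_left (inv_ne_zero Chars.card_ne_zero)]
      exact Finset.sum_congr rfl fun g _ => (Complex.mul_conj _).symm
    exact Complex.normSq_eq_zero.1 ((Finset.sum_eq_zero_iff_of_nonneg fun g _ =>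
      Complex.normSq_nonneg _).1 h5 s (mem_regs.2 hs))  -- the roots of unity
  have hclosed : ∀ r ∈ R, ∀ s ∈ R, r * s ∈ R := by
    intro r hr s hs
    obtain ⟨u, hu, hru⟩ := hdiv r hr 1 h1R
    obtain ⟨w, hw, hsw⟩ := hdiv u hu s hs
    rwa [hsw, ← mul_assoc, ← hru, one_mul]
  have hisunit : ∀ r ∈ R, IsUnit r := fun r hr => by
    obtain ⟨u, hu, hru⟩ := hdiv r hr 1 h1R
    exact isUnit_iff_exists_inv.2 ⟨u, hru.symm⟩
  have hsub : R ⊆ roots n e := by
    intro r hr
    simp only [roots, Finset.mem_filter, Finset.mem_univ, true_and]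
    have h : R.image (r * ·) = R := Finset.eq_of_subset_of_card_le
      (fun x hx => by obtain ⟨s, hs, rfl⟩ := Finset.mem_image.1 hx; exact hclosed r hr s hs)
      (by rw [Finset.card_image_of_injective _ fun x y h => (hisunit r hr).mul_left_cancel h])
    have h2 : ∏ s ∈ R, s = r ^ e * ∏ s ∈ R, s := by
      conv_lhs => rw [← h]
      rw [Finset.prod_image fun x _ y _ h => (hisunit r hr).mul_left_cancel h,
        Finset.prod_mul_distrib, Finset.prod_const, hRcard]
    have hu : IsUnit (∏ s ∈ R, s) := IsUnit.prod_iff.2 fun s hs => hisunit s hs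
    exact hu.mul_right_cancel (by rw [one_mul]; exact h2.symm)
  obtain ⟨a, hPa⟩ := (D.pmax.pair.pgroup).exists_card_eq
  have hroots : roots n e = R := (Finset.eq_of_subset_of_card_le hsub (by
    rw [hRcard]; exact card_roots_le Fact.out hPa hdvd)).symm
  refine ⟨{
    two_le := hn2
    pos := hepos
    card_roots := by rw [hroots]; exact hRcard
    free := hroots.symm ▸ hfreeR
    unit := hroots.symm ▸ hunit
    div := hroots.symm ▸ hdiv
    card := ?_
    A := A
    inv := hroots.symm ▸ hAinv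
    ne := fun χ hχ => hne ⟨χ, hχ⟩
    gram := hroots.symm ▸ hGzero
    vanish := hU
    sing := ?_ }⟩
  · rw [← card_bf, mul_comm (Nat.card B), hcount]
    have := Nat.mul_le_mul_left e hlow
    omega
  · intro y hy
    obtain ⟨s, hs, hcm, hu, hr⟩ := isPPart_ppart (p := p) y
    have hu1 : ppart p y ≠ 1 := fun h => ppart_one_iff.mp h hy
    set T' := (blks (Res M) (cz (ppart p y))).filter
      (fun β => ∃ x : G, Below p P (idemS M c) x (ppart p y) β) with hT'
    have hkey : ∀ β ∈ T', ∃ (z : ZMod n) (g : ℂ), z ≠ 0 ∧ MemLocalRing M g ∧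
        MemLocalRing M ((n : ℂ) * g / (Nat.card (Subgroup.centralizer ({y} : Set G)) : ℂ)) ∧
        ∀ χ : IrrCharacter G, sec (χ : G → ℂ) (ppart p y) β s = hatF (A χ) z * g := by
      intro β hβ
      obtain ⟨hβm, x, hx⟩ := Finset.mem_filter.1 hβ
      have hβ' := mem_blks.1 hβm
      obtain ⟨z, hz⟩ := E.surj _ hx.mem
      have hz0 : z ≠ 0 := fun h => hu1 (by
        rw [h, E.zero] at hz
        exact conj_eq_one_iff.1 hz.symm)
      have hloc : cj x β = locB p P (idemS M c) (E.el z) := by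
        refine eq_locB hpM D (E.mem z) ?_
        rw [hz]; exact hx
      have hsx : x * s * x⁻¹ ∈ cz (E.el z) := by
        rw [hz, ← conjS_cz, mem_conjS]
        simpa [mul_assoc] using mem_cz.2 hcm
      have hrx : ¬ p ∣ orderOf (x * s * x⁻¹) := by
        rwa [show x * s * x⁻¹ = (MulAut.conj x).toMonoidHom s from rfl,
          orderOf_injective (MulAut.conj x).toMonoidHom (MulAut.conj x).injective]
      have hroot : MemLocalRing M (ZMod.stdAddChar (-(sh * z)) : ℂ) := by
        refine memR_of_isIntegral ⟨Polynomial.X ^ n - Polynomial.C 1,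
          Polynomial.monic_X_pow_sub_C 1 (NeZero.ne n), ?_⟩
        simp only [Polynomial.eval₂_sub, Polynomial.eval₂_X_pow, Polynomial.eval₂_C, map_one, Polynomial.eval₂_one]
        rw [← AddChar.map_nsmul_eq_pow, nsmul_eq_mul, ZMod.natCast_self, zero_mul,
          AddChar.map_zero_eq_one, sub_self]
      obtain ⟨h1, h2⟩ := hlocS z hz0 _ hsx hrx
      refine ⟨z, ZMod.stdAddChar (-(sh * z)) * S₀ z (x * s * x⁻¹), hz0, memR_mul hroot h1, ?_,
        fun χ => ?_⟩
      · have hconj : E.el z * (x * s * x⁻¹) = x * y * x⁻¹ := by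
          rw [hz]
          calc _ = x * (ppart p y * s) * x⁻¹ := by group
            _ = _ := by rw [hs]
        rw [hconj, card_centralizer_conj_eq] at h2
        rw [mul_left_comm, mul_div_assoc]
        exact memR_mul hroot h2
      · rw [← sec_cj hpM χ x hβ' s, ← hz, hloc, hsec χ z hz0 _ hsx hrx]
        simp only [hA, hatF_shift]
        rw [mul_mul_mul_comm, ← AddChar.map_add_eq_mul, mul_comm (hatF _ z)]
        simp [mul_comm]
    choose! z g hz hg hg' hval using hkey
    refine ⟨T', z, g, fun β hβ => ⟨hz β hβ, hg β hβ, hg' β hβ⟩, fun χ hχ => ?_⟩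
    conv_lhs => rw [← hs]
    rw [← sum_sec hpM (χ : G → ℂ) (ppart p y) s]
    refine Eq.trans (Finset.sum_subset (Finset.filter_subset _ _) fun β hβ hβn => ?_).symm
      (Finset.sum_congr rfl fun β hβ => hval β hβ χ)
    have hβ' := mem_blks.1 hβ
    exact sec_eq_zero hpM D.blk (mem_bf.1 hχ) hu hβ'
      (fun ho => hβn (Finset.mem_filter.2 ⟨hβ, (below_iff_ofBlock hpM D hu hβ').mpr ho⟩))
      (mem_cz.mpr hcm) hr

/-- The shape of a block with cyclic defect group. -/
theorem exists_shape (hpM : (p : AlgInt) ∈ M) {B : Set (IrrCharacter G)} {P : Subgroup G}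
    (hPD : IsDefectGroup p M B P) (hcyc : IsCyclic P) (hP1 : P ≠ ⊥)
    {c : Set (IrrCharacter (Subgroup.centralizer (P : Set G)))}
    (hc : IsInducedBlock M (Subgroup.centralizer (P : Set G)) c B) {n e : ℕ} [NeZero n]
    (hn : Nat.card P = n)
    (he : (Subgroup.centralizer (P : Set G)).relIndex (stab P (idemS M c)) = e) :
    Nonempty (CycShape p M B n e) := by
  subst hn he
  exact exists_shape_aux hpM hPD hcyc hP1 hc

end Cfsg.Agent.Blocks.CyclicShape
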