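import Cfsg.Agent.Blocks.IdemRank
import Cfsg.Agent.Blocks.Lattice
import Cfsg.Agent.BlockChar.Reduce
import Mathlib.RingTheory.RootsOfUnity.Lemmas

/-!
The lift of the eigenvalues of a matrix representation in characteristic `p` at the elements of
order prime to `p`: the eigenspace idempotents and their ranks.
-/

set_option autoImplicit false
set_option linter.unusedSectionVars false
set_option linter.style.haveILetI false
set_option synthInstance.maxHeartbeats 400000
set_option maxHeartbeats 1000000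

namespace Cfsg.Agent.Blocks.EigenLift

open Cfsg Cfsg.Agent Cfsg.Agent.Blocks Matrix
open Cfsg.Agent.BlockChar (res res_zero res_one res_sum res_mul)
open Cfsg.Agent.Blocks.IdemRank

universe u

variable {G : Type u} [Group G]

section field

variable {k : Type*} [Field k] {n : ℕ} (σ : G →* Matrix (Fin n) (Fin n) k) (g : G)

/-- The projection onto the eigenspace at `a` of the image of `g`. -/
noncomputable def eMat (a : k) : Matrix (Fin n) (Fin n) k :=
  (orderOf g : k)⁻¹ • ∑ j ∈ Finset.range (orderOf g), (a⁻¹ • σ g) ^ j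

theorem smul_mul_eMat {a : k} (ha : a ^ orderOf g = 1) (h0 : a ≠ 0) :
    σ g * eMat σ g a = a • eMat σ g a := by
  have hz : (a⁻¹ • σ g) ^ orderOf g = 1 := by
    rw [smul_pow, inv_pow, ha, ← map_pow, pow_orderOf_eq_one, map_one, inv_one, one_smul]
  have h1 : (a⁻¹ • σ g) * ∑ j ∈ Finset.range (orderOf g), (a⁻¹ • σ g) ^ j =
      ∑ j ∈ Finset.range (orderOf g), (a⁻¹ • σ g) ^ j := by
    have h2 := mul_neg_geom_sum (a⁻¹ • σ g) (orderOf g)
    rw [hz, sub_self, sub_mul, one_mul, sub_eq_zero] at h2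
    exact h2.symm
  rw [smul_mul_assoc] at h1
  have h3 : σ g * ∑ j ∈ Finset.range (orderOf g), (a⁻¹ • σ g) ^ j =
      a • ∑ j ∈ Finset.range (orderOf g), (a⁻¹ • σ g) ^ j := by
    conv_rhs => rw [← h1, smul_smul, mul_inv_cancel₀ h0, one_smul]
  rw [eMat, Matrix.mul_smul, h3, smul_comm]

theorem pow_mul_eMat {a : k} (ha : a ^ orderOf g = 1) (h0 : a ≠ 0) (j : ℕ) :
    σ g ^ j * eMat σ g a = a ^ j • eMat σ g a := by
  induction j with
  | zero => simp
  | succ j ih =>
    rw [pow_succ', mul_assoc, ih, Matrix.mul_smul, smul_mul_eMat σ g ha h0, smul_smul, pow_succ]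

variable {ζ : k} (hζ : IsPrimitiveRoot ζ (orderOf g)) (ho : (orderOf g : k) ≠ 0)
include hζ ho

theorem eMat_orth : OrthogonalIdempotents fun i : Fin (orderOf g) => eMat σ g (ζ ^ (i : ℕ)) := by
  have hne : orderOf g ≠ 0 := fun h => ho (by rw [h, Nat.cast_zero])
  have h0 : ∀ i : ℕ, ζ ^ i ≠ 0 := fun i => pow_ne_zero _ (hζ.ne_zero hne)
  have ha : ∀ i : ℕ, (ζ ^ i) ^ orderOf g = 1 := fun i => by
    rw [← pow_mul, mul_comm, pow_mul, hζ.pow_eq_one, one_pow]
  have key : ∀ i j : ℕ, eMat σ g (ζ ^ j) * eMat σ g (ζ ^ i) =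
      ((orderOf g : k)⁻¹ * ∑ l ∈ Finset.range (orderOf g), ((ζ ^ j)⁻¹ * ζ ^ i) ^ l) •
        eMat σ g (ζ ^ i) := by
    intro i j
    conv_lhs => arg 1; rw [eMat]
    rw [Matrix.smul_mul, Matrix.sum_mul, mul_smul, Finset.sum_smul]
    congr 1
    refine Finset.sum_congr rfl fun l _ => ?_
    rw [smul_pow, Matrix.smul_mul, pow_mul_eMat σ g (ha i) (h0 i), smul_smul, ← mul_pow]
  refine ⟨fun i => ?_, fun i j hij => ?_⟩
  · show _ * _ = _
    rw [key, inv_mul_cancel₀ (h0 i)]
    simp [ho]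
  · show _ * _ = _
    rw [key]
    have hne1 : (ζ ^ (i : ℕ))⁻¹ * ζ ^ (j : ℕ) ≠ 1 := by
      intro h
      refine hij (Fin.ext (hζ.pow_inj i.2 j.2 ?_))
      calc ζ ^ (i : ℕ) = ζ ^ (i : ℕ) * ((ζ ^ (i : ℕ))⁻¹ * ζ ^ (j : ℕ)) := by rw [h, mul_one]
        _ = _ := by rw [← mul_assoc, mul_inv_cancel₀ (h0 i), one_mul]
    have hz : ∑ l ∈ Finset.range (orderOf g), ((ζ ^ (i : ℕ))⁻¹ * ζ ^ (j : ℕ)) ^ l = 0 := by
      rw [geom_sum_eq hne1, mul_pow, inv_pow, ha, ha, inv_one, one_mul, sub_self, zero_div]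
    rw [hz, mul_zero, zero_smul]

theorem sum_eMat : ∑ i : Fin (orderOf g), eMat σ g (ζ ^ (i : ℕ)) = 1 := by
  have hne : orderOf g ≠ 0 := fun h => ho (by rw [h, Nat.cast_zero])
  simp only [eMat]
  rw [← Finset.smul_sum, Fin.sum_univ_eq_sum_range
    (fun i => ∑ j ∈ Finset.range (orderOf g), ((ζ ^ i)⁻¹ • σ g) ^ j), Finset.sum_comm,
    Finset.sum_eq_single 0]
  · rw [Finset.sum_congr rfl fun i _ => pow_zero _, Finset.sum_const, Finset.card_range,
      ← Nat.cast_smul_eq_nsmul k, smul_smul, inv_mul_cancel₀ ho, one_smul]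
  · intro j hj hj0
    simp only [smul_pow, ← Finset.sum_smul]
    have h1 : ∀ i : ℕ, ((ζ ^ i)⁻¹) ^ j = ((ζ ^ j)⁻¹) ^ i := fun i => by
      rw [inv_pow, inv_pow, ← pow_mul, ← pow_mul, mul_comm]
    rw [Finset.sum_congr rfl fun i _ => h1 i]
    have hne1 : (ζ ^ j)⁻¹ ≠ 1 := by
      rw [Ne, inv_eq_one]
      exact hζ.pow_ne_one_of_pos_of_lt hj0 (Finset.mem_range.1 hj)
    rw [geom_sum_eq hne1, inv_pow, ← pow_mul, mul_comm, pow_mul, hζ.pow_eq_one, one_pow, inv_one,
      sub_self, zero_div, zero_smul]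
  · exact fun h0 => absurd (Finset.mem_range.2 (Nat.pos_of_ne_zero hne)) h0

theorem sum_rank : ∑ i : Fin (orderOf g), (eMat σ g (ζ ^ (i : ℕ))).rank = n := by
  rw [← rank_sum_orth Finset.univ (eMat_orth σ g hζ ho), sum_eMat σ g hζ ho, Matrix.rank_one,
    Fintype.card_fin]

theorem sum_trace : ∑ i : Fin (orderOf g), ζ ^ (i : ℕ) * ((eMat σ g (ζ ^ (i : ℕ))).rank : k) =
    (σ g).trace := by
  have hne : orderOf g ≠ 0 := fun h => ho (by rw [h, Nat.cast_zero])
  conv_rhs => rw [← Matrix.mul_one (σ g), ← sum_eMat σ g hζ ho, Finset.mul_sum]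
  rw [Matrix.trace_sum]
  refine Finset.sum_congr rfl fun i _ => ?_
  rw [smul_mul_eMat σ g (by rw [← pow_mul, mul_comm, pow_mul, hζ.pow_eq_one, one_pow])
    (pow_ne_zero _ (hζ.ne_zero hne)), Matrix.trace_smul,
    trace_eq_rank ((eMat_orth σ g hζ ho).idem i), smul_eq_mul]

end field

/-- The standard primitive root of unity of order `o`. -/
noncomputable def zetaO (o : ℕ) : ℂ := Complex.exp (2 * Real.pi * Complex.I / o)

theorem isPrimitiveRoot_zetaO {o : ℕ} (ho : o ≠ 0) : IsPrimitiveRoot (zetaO o) o :=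
  Complex.isPrimitiveRoot_exp o ho

variable {p : ℕ} [Fact p.Prime] {M : Ideal AlgInt} [M.IsMaximal]

theorem res_pow {x : ℂ} (hx : MemLocalRing M x) (j : ℕ) : res M (x ^ j) = res M x ^ j := by
  induction j with
  | zero => rw [pow_zero, pow_zero, res_one]
  | succ j ih => rw [pow_succ, pow_succ, res_mul (memR_pow hx j) hx, ih]

theorem res_natCast (a : ℕ) : res M (a : ℂ) = (a : Res M) := by
  rw [BlockChar.res_of_mem (memR_natCast a)]
  exact map_natCast (residue M) a

theorem memR_zetaO {o : ℕ} (ho : o ≠ 0) : MemLocalRing M (zetaO o) :=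
  memR_of_isIntegral (IsIntegral.of_pow (Nat.pos_of_ne_zero ho)
    (by rw [(isPrimitiveRoot_zetaO ho).pow_eq_one]; exact isIntegral_one))

theorem cast_ne_zero (hpM : (p : AlgInt) ∈ M) {o : ℕ} (ho : ¬ p ∣ o) : (o : Res M) ≠ 0 := by
  haveI := BlockChar.charP_res (p := p) hpM
  rwa [Ne, CharP.cast_eq_zero_iff (Res M) p]

theorem isPrimitiveRoot_res (hpM : (p : AlgInt) ∈ M) {o : ℕ} (ho : ¬ p ∣ o) :
    IsPrimitiveRoot (res M (zetaO o)) o := by
  have hne : o ≠ 0 := fun h => ho (h ▸ dvd_zero p)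
  obtain ⟨m, rfl⟩ := Nat.exists_eq_succ_of_ne_zero hne
  have hζ := isPrimitiveRoot_zetaO hne
  have hR := memR_zetaO (M := M) hne
  refine IsPrimitiveRoot.mk_of_lt _ (Nat.succ_pos m)
    (by rw [← res_pow hR, hζ.pow_eq_one, res_one]) fun l hl hlo h1 => cast_ne_zero hpM ho ?_
  rw [← res_natCast]
  have hp := IsPrimitiveRoot.prod_one_sub_pow_eq_order (R := ℂ) hζ
  have h2 : ((m.succ : ℕ) : ℂ) = ∏ j ∈ Finset.range m, (1 - zetaO m.succ ^ (j + 1)) := by
    rw [hp]; push_cast; ring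
  rw [h2, BlockChar.res_eq_zero_iff (memR_prod _ _ fun j _ => memR_sub memR_one (memR_pow hR _)),
    ← Finset.mul_prod_erase _ _ (Finset.mem_range.2 (show l - 1 < m by omega))]
  refine memI_mul_right ?_ (memR_prod _ _ fun j _ => memR_sub memR_one (memR_pow hR _))
  rw [show l - 1 + 1 = l by omega, ← BlockChar.res_eq_iff memR_one (memR_pow hR _), res_pow hR, h1,
    res_one]

/-- The lifted eigenvalue sum of a representation in characteristic `p`, zero at the
`p`-singular elements. -/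
noncomputable def bchar (p : ℕ) (M : Ideal AlgInt) [M.IsMaximal] {n : ℕ}
    (σ : G →* Matrix (Fin n) (Fin n) (Res M)) (g : G) : ℂ :=
  if p ∣ orderOf g then 0 else
    ∑ i : Fin (orderOf g),
      ((eMat σ g (res M (zetaO (orderOf g)) ^ (i : ℕ))).rank : ℂ) * zetaO (orderOf g) ^ (i : ℕ)

variable {n : ℕ} (σ : G →* Matrix (Fin n) (Fin n) (Res M))

theorem bchar_of_dvd {g : G} (h : p ∣ orderOf g) : bchar p M σ g = 0 := if_pos h

theorem bchar_memR (g : G) : MemLocalRing M (bchar p M σ g) := by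
  unfold bchar
  split_ifs with h
  · exact memR_zero
  · exact memR_sum _ _ fun i _ => memR_mul (memR_natCast _) (memR_pow (memR_zetaO (M := M)
      (fun h0 => h (by rw [h0]; exact dvd_zero p))) _)

theorem res_bchar (hpM : (p : AlgInt) ∈ M) {g : G} (h : ¬ p ∣ orderOf g) :
    res M (bchar p M σ g) = (σ g).trace := by
  have hne : orderOf g ≠ 0 := fun h0 => h (h0 ▸ dvd_zero p)
  have hR := memR_zetaO (M := M) hne
  rw [bchar, if_neg h, res_sum _ _ fun i _ => memR_mul (memR_natCast _) (memR_pow hR _),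
    ← sum_trace σ g (isPrimitiveRoot_res hpM h) (cast_ne_zero hpM h)]
  refine Finset.sum_congr rfl fun i _ => ?_
  rw [res_mul (memR_natCast _) (memR_pow hR _), res_natCast, res_pow hR, mul_comm]

theorem bchar_one : bchar p M σ 1 = n := by
  have h1 : orderOf (1 : G) = 1 := orderOf_one
  rw [bchar, if_neg (by rw [h1]; exact (Fact.out : p.Prime).not_dvd_one)]
  have he : ∀ i : Fin (orderOf (1 : G)), (i : ℕ) = 0 := fun i => by have := i.2; omega
  have hE : eMat σ (1 : G) (1 : Res M) = 1 := by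
    rw [eMat, h1, Finset.sum_range_one, pow_zero, Nat.cast_one, inv_one, one_smul]
  simp only [he, pow_zero, hE, Matrix.rank_one, Fintype.card_fin, mul_one, Finset.sum_const,
    Finset.card_univ, h1, one_smul]

theorem bchar_conj (c g : G) : bchar p M σ (c * g * c⁻¹) = bchar p M σ g := by
  have ho : orderOf (c * g * c⁻¹) = orderOf g := by
    rw [← MulAut.conj_apply]; exact MulEquiv.orderOf_eq (MulAut.conj c) g
  have key : ∀ (a : Res M) (h : G), (eMat σ (c * h * c⁻¹) a).rank ≤ (eMat σ h a).rank := by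
    intro a h
    have ho' : orderOf (c * h * c⁻¹) = orderOf h := by
      rw [← MulAut.conj_apply]; exact MulEquiv.orderOf_eq (MulAut.conj c) h
    refine (le_of_eq ?_).trans (rank_mul_mul_le (σ c) (eMat σ h a) (σ c⁻¹))
    congr 1
    rw [eMat, eMat, ho', Matrix.mul_smul, Matrix.smul_mul, Finset.mul_sum, Finset.sum_mul]
    congr 1
    refine Finset.sum_congr rfl fun j _ => ?_
    rw [smul_pow, smul_pow, ← map_pow, ← map_pow, conj_pow, Matrix.mul_smul, Matrix.smul_mul,
      ← map_mul, ← map_mul]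
  have hrank : ∀ a, (eMat σ (c * g * c⁻¹) a).rank = (eMat σ g a).rank := fun a => by
    refine le_antisymm (key a g) ?_
    have h3 : (eMat σ (c⁻¹ * (c * g * c⁻¹) * c⁻¹⁻¹) a).rank ≤ (eMat σ (c * g * c⁻¹) a).rank := by
      refine (le_of_eq ?_).trans (rank_mul_mul_le (σ c⁻¹) (eMat σ (c * g * c⁻¹) a) (σ c))
      congr 1
      rw [show c⁻¹ * (c * g * c⁻¹) * c⁻¹⁻¹ = g by group, eMat, eMat, ho, Matrix.mul_smul,
        Matrix.smul_mul, Finset.mul_sum, Finset.sum_mul]
      congr 1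
      refine Finset.sum_congr rfl fun j _ => ?_
      rw [smul_pow, smul_pow, ← map_pow, ← map_pow, conj_pow, Matrix.mul_smul, Matrix.smul_mul,
        ← map_mul, ← map_mul, show c⁻¹ * (c * g ^ j * c⁻¹) * c = g ^ j by group]
    rwa [show c⁻¹ * (c * g * c⁻¹) * c⁻¹⁻¹ = g by group] at h3
  unfold bchar
  simp only [hrank]
  rw [ho]

theorem bchar_comp {H : Type*} [Group H] (f : H →* G) {g : H} (hf : orderOf (f g) = orderOf g) :
    bchar p M (σ.comp f) g = bchar p M σ (f g) := by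
  have hE : ∀ a, eMat (σ.comp f) g a = eMat σ (f g) a := fun a => by
    rw [eMat, eMat, hf]; rfl
  unfold bchar
  simp only [hE]
  rw [hf]

theorem map_smul_hom {R S : Type*} [Semiring R] [Semiring S] {m : ℕ} (f : R →+* S) (c : R)
    (A : Matrix (Fin m) (Fin m) R) : (c • A).map f = f c • A.map f := by
  ext a b
  simp [Matrix.map_apply]

theorem rank_le_of_lift {m : ℕ} (E : Matrix (Fin m) (Fin m) ℂ)
    (hE : ∀ a b, MemLocalRing M (E a b))
    (hidem : IsIdempotentElem (Matrix.of fun a b => res M (E a b))) :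
    (Matrix.of fun a b => res M (E a b)).rank ≤ E.rank := by
  classical
  set F : Matrix (Fin m) (Fin m) (Res M) := Matrix.of fun a b => res M (E a b) with hF
  obtain ⟨-, C, R, hCR, hRC⟩ := exists_factor hidem
  choose C₀ hC₀ using fun a b => BlockChar.res_surjective (M := M) (C a b)
  choose R₀ hR₀ using fun a b => BlockChar.res_surjective (M := M) (R a b)
  let C' : Matrix (Fin m) (Fin F.rank) (loc M) :=
    Matrix.of fun a b => ⟨(C₀ a b : ℂ), mem_loc.2 (memR_of_algInt _)⟩
  let R' : Matrix (Fin F.rank) (Fin m) (loc M) :=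
    Matrix.of fun a b => ⟨(R₀ a b : ℂ), mem_loc.2 (memR_of_algInt _)⟩
  let E' : Matrix (Fin m) (Fin m) (loc M) := Matrix.of fun a b => ⟨E a b, mem_loc.2 (hE a b)⟩
  have hC' : C'.map (residue M) = C := by
    ext a b
    simp only [C', Matrix.map_apply, Matrix.of_apply]
    rw [← BlockChar.res_of_mem (memR_of_algInt _), hC₀]
  have hR' : R'.map (residue M) = R := by
    ext a b
    simp only [R', Matrix.map_apply, Matrix.of_apply]
    rw [← BlockChar.res_of_mem (memR_of_algInt _), hR₀]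
  have hE' : E'.map (residue M) = F := by
    ext a b
    simp only [E', hF, Matrix.map_apply, Matrix.of_apply]
    rw [← BlockChar.res_of_mem (hE a b)]
  have h1 : (R' * E' * C').map (residue M) = 1 := by
    rw [Matrix.map_mul, Matrix.map_mul, hC', hR', hE']
    calc R * F * C = R * (C * R) * C := by rw [hCR]
      _ = (R * C) * (R * C) := by simp only [Matrix.mul_assoc]
      _ = 1 := by rw [hRC, Matrix.mul_one]
  have hu := (isUnit_matrix_of_residue (R' * E' * C') (by rw [h1]; exact isUnit_one)).map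
    ((loc M).subtype.mapMatrix)
  have h2 : (R' * E' * C').map (loc M).subtype =
      R'.map (loc M).subtype * E * C'.map (loc M).subtype := by
    rw [Matrix.map_mul, Matrix.map_mul]; rfl
  have h3 := Matrix.rank_of_isUnit _ hu
  rw [RingHom.mapMatrix_apply, h2, Fintype.card_fin] at h3
  rw [← h3]
  exact (Matrix.rank_mul_le_left _ _).trans (Matrix.rank_mul_le_right _ _)

/-- The lift of the reduction of an integral representation is its trace. -/
theorem bchar_reduction (hpM : (p : AlgInt) ∈ M) {m : ℕ} (ρ : G →* Matrix (Fin m) (Fin m) ℂ)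
    (hρ : ∀ g a b, MemLocalRing M (ρ g a b)) (σ : G →* Matrix (Fin m) (Fin m) (Res M))
    (hσ : ∀ g a b, σ g a b = res M (ρ g a b)) {g : G} (h : ¬ p ∣ orderOf g) :
    bchar p M σ g = (ρ g).trace := by
  classical
  have hne : orderOf g ≠ 0 := fun h0 => h (h0 ▸ dvd_zero p)
  have hζ := isPrimitiveRoot_zetaO hne
  have hζ' := isPrimitiveRoot_res (M := M) hpM h
  have hR := memR_zetaO (M := M) hne
  have hoC : ((orderOf g : ℕ) : ℂ) ≠ 0 := Nat.cast_ne_zero.2 hne
  have hinvR : ∀ i : ℕ, MemLocalRing M ((zetaO (orderOf g) ^ i)⁻¹) ∧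
      res M ((zetaO (orderOf g) ^ i)⁻¹) = (res M (zetaO (orderOf g)) ^ i)⁻¹ := by
    intro i
    have h1 : (zetaO (orderOf g) ^ i)⁻¹ = zetaO (orderOf g) ^ (i * (orderOf g - 1)) := by
      refine (eq_inv_of_mul_eq_one_right ?_).symm
      rw [← pow_add, show i + i * (orderOf g - 1) = i * (orderOf g - 1 + 1) by ring, Nat.sub_add_cancel (Nat.pos_of_ne_zero hne),
        mul_comm, pow_mul, hζ.pow_eq_one, one_pow]
    refine ⟨by rw [h1]; exact memR_pow hR _, ?_⟩
    refine eq_inv_of_mul_eq_one_right ?_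
    rw [← res_pow hR, ← res_mul (memR_pow hR _) (by rw [h1]; exact memR_pow hR _),
      mul_inv_cancel₀ (pow_ne_zero _ (hζ.ne_zero hne)), res_one]
  have hoI : MemLocalRing M ((orderOf g : ℂ)⁻¹) ∧
      res M ((orderOf g : ℂ)⁻¹) = ((orderOf g : ℕ) : Res M)⁻¹ := by
    have hR' := memR_inv_natCast hpM h
    refine ⟨hR', eq_inv_of_mul_eq_one_right ?_⟩
    rw [← res_natCast, ← res_mul (memR_natCast _) hR', mul_inv_cancel₀ hoC, res_one]
  let L : Subring (Matrix (Fin m) (Fin m) ℂ) :=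
    (((loc M).subtype.mapMatrix : Matrix (Fin m) (Fin m) (loc M) →+* _)).range
  let r : ∀ i : ℕ, Matrix (Fin m) (Fin m) (loc M) := fun i =>
    (⟨_, mem_loc.2 hoI.1⟩ : loc M) • ∑ j ∈ Finset.range (orderOf g),
      ((⟨_, mem_loc.2 (hinvR i).1⟩ : loc M) •
        (Matrix.of fun a b => (⟨ρ g a b, mem_loc.2 (hρ g a b)⟩ : loc M))) ^ j
  have hup : ∀ i : ℕ, (r i).map (loc M).subtype = eMat ρ g (zetaO (orderOf g) ^ i) := by
    intro i
    show (loc M).subtype.mapMatrix (r i) = _
    simp only [r, eMat]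
    rw [RingHom.mapMatrix_apply, map_smul_hom, ← RingHom.mapMatrix_apply,
      map_sum]
    refine congrArg₂ (· • ·) rfl (Finset.sum_congr rfl fun j _ => ?_)
    rw [map_pow, RingHom.mapMatrix_apply, map_smul_hom]
    rfl
  have hdown : ∀ i : ℕ, (r i).map (residue M) = eMat σ g (res M (zetaO (orderOf g)) ^ i) := by
    intro i
    show (residue M).mapMatrix (r i) = _
    simp only [r, eMat]
    rw [RingHom.mapMatrix_apply, map_smul_hom, ← RingHom.mapMatrix_apply,
      map_sum, ← BlockChar.res_of_mem hoI.1, hoI.2]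
    refine congrArg₂ (· • ·) rfl (Finset.sum_congr rfl fun j _ => ?_)
    rw [map_pow, RingHom.mapMatrix_apply, map_smul_hom,
      ← BlockChar.res_of_mem (hinvR i).1, (hinvR i).2]
    congr 2
    ext a b
    rw [Matrix.map_apply, Matrix.of_apply, ← BlockChar.res_of_mem (hρ g a b), hσ]
  have hle : ∀ i : Fin (orderOf g), (eMat σ g (res M (zetaO (orderOf g)) ^ (i : ℕ))).rank ≤
      (eMat ρ g (zetaO (orderOf g) ^ (i : ℕ))).rank := by
    intro i
    have hmem : ∀ a b, MemLocalRing M (eMat ρ g (zetaO (orderOf g) ^ (i : ℕ)) a b) := fun a b => by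
      rw [← hup i]; exact (r i a b).2
    have he : (Matrix.of fun a b => res M (eMat ρ g (zetaO (orderOf g) ^ (i : ℕ)) a b)) =
        eMat σ g (res M (zetaO (orderOf g)) ^ (i : ℕ)) := by
      rw [← hdown i]
      ext a b
      rw [Matrix.of_apply, Matrix.map_apply, BlockChar.res_of_mem (hmem a b)]
      congr 1
      exact Subtype.ext (congrFun (congrFun (hup i) a) b).symm
    rw [← he]
    exact rank_le_of_lift _ hmem (by
      rw [he]; exact (eMat_orth σ g hζ' (cast_ne_zero hpM h)).idem i)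
  have heq : ∀ i ∈ (Finset.univ : Finset (Fin (orderOf g))),
      (eMat σ g (res M (zetaO (orderOf g)) ^ (i : ℕ))).rank =
        (eMat ρ g (zetaO (orderOf g) ^ (i : ℕ))).rank :=
    (Finset.sum_eq_sum_iff_of_le fun i _ => hle i).1
      (by rw [sum_rank σ g hζ' (cast_ne_zero hpM h), sum_rank ρ g hζ hoC])
  rw [bchar, if_neg h, ← sum_trace ρ g hζ hoC]
  exact Finset.sum_congr rfl fun i hi => by rw [heq i hi, mul_comm]

end Cfsg.Agent.Blocks.EigenLift
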