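import Cfsg.Agent.Blocks.Covering
import Cfsg.Agent.Blocks.Defect
import Cfsg.Agent.BlockChar.Bridge

/-!
Fong's theorem on the covering blocks of largest defect.
-/

namespace Cfsg.Agent.Blocks

open Cfsg Cfsg.Agent
open scoped ComplexConjugate

set_option linter.style.haveILetI false
set_option linter.unusedSectionVars false

universe u

variable {G : Type u} [Group G] [Fintype G] {p : ℕ} [Fact p.Prime] {M : Ideal AlgInt} [M.IsMaximal]
variable {N : Subgroup G} [hN : N.Normal] [Fintype N]

theorem centralChar_conjIrr (θ : IrrCharacter N) (g : G) (n : N) :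
    centralChar (conjIrr θ g : N → ℂ) n =
      centralChar (θ : N → ℂ) ((MulAut.conjNormal g⁻¹ : MulAut N) n) := by
  rw [← BlockChar.centralChar_comp_equiv (MulAut.conjNormal g⁻¹ : MulAut N) θ n]
  congr 1

theorem defect_le_of_unit_centralChar (hpM : (p : AlgInt) ∈ M) {B : Set (IrrCharacter G)}
    (hB : IsPBlock M B) {g : G}
    (h : ∀ χ ∈ B, ¬ MemLocalIdeal M (centralChar (χ : G → ℂ) g)) :
    blockDefect p B ≤ (Nat.card (Subgroup.centralizer ({g} : Set G))).factorization p := by
  have h1 := index_factorization (p := p) g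
  have h2 : (Subgroup.centralizer ({g} : Set G)).index.factorization p ≤
      sInf ((fun χ : IrrCharacter G => (charDegree (χ : G → ℂ)).factorization p) '' B) := by
    refine le_csInf ((block_nonempty hB).image _) ?_
    rintro _ ⟨ψ, hψ, rfl⟩
    exact factorization_index_le hpM ψ (h ψ hψ)
  rw [blockDefect]
  omega

set_option maxHeartbeats 1000000 in
theorem fong_covering (hpM : (p : AlgInt) ∈ M) {b : Set (IrrCharacter N)} (hb : IsPBlock M b)
    (hinv : ConjInv b) {B : Set (IrrCharacter G)} (hB : IsPBlock M B)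
    (hcov : ∃ χ ∈ B, ∃ θ ∈ b, classInner (fun n : N => (χ : G → ℂ) n) (θ : N → ℂ) ≠ 0)
    (hmax : ∀ B' : Set (IrrCharacter G), IsPBlock M B' →
      (∃ χ ∈ B', ∃ θ ∈ b, classInner (fun n : N => (χ : G → ℂ) n) (θ : N → ℂ) ≠ 0) →
      blockDefect p B' ≤ blockDefect p B)
    {P : Subgroup G} (hP : IsDefectGroup p M B P) :
    ¬ p ∣ (P ⊔ N).index ∧ IsDefectGroup p M b ((P ⊓ N).subgroupOf N) ∧
      blockDefect p B = blockDefect p b + N.index.factorization p := by
  classical
  have hp := (Fact.out : p.Prime)
  set f := liftCoeff (G := G) b with hf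
  have hfc : IsClassFunction G f := isClassFunction_liftCoeff hinv
  have hfR : RFun M f := rFun_liftCoeff (rFun_blockCoeff hpM hb)
  obtain ⟨χ, hχ, θ, hθ, hcon⟩ := hcov
  -- a class of `N` where the idempotent of `b` and the central character are units
  have h1 : omega (χ : G → ℂ) f = 1 := by rw [hf, omega_liftCoeff hcon hinv, if_pos hθ]
  rw [omega_eq_sum_clsFun (Chars.isClassFunction_irr χ) hfc] at h1
  obtain ⟨C, hC⟩ : ∃ C : ConjClasses G,
      ¬ MemLocalIdeal M (f (clsRep C) * centralChar (χ : G → ℂ) (clsRep C)) := by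
    by_contra hc
    push Not at hc
    exact not_memI_one (h1 ▸ memI_sum _ _ fun C _ => hc C)
  set k := clsRep C with hk
  have hkN : k ∈ N := by
    by_contra hk'
    exact hC (by rw [hf, liftCoeff_supported b k hk', zero_mul]; exact memI_zero)
  have hfk : ¬ MemLocalIdeal M (f k) := fun hI => hC (memI_mul_right hI (centralChar_memR hpM χ _))
  have hχk : ¬ MemLocalIdeal M (centralChar (χ : G → ℂ) k) := fun hI =>
    hC (memI_mul_left (hfR _) hI)
  have hcov' : ∀ B' : Set (IrrCharacter G), IsPBlock M B' →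
      (∃ χ ∈ B', ∃ θ ∈ b, classInner (fun n : N => (χ : G → ℂ) n) (θ : N → ℂ) ≠ 0) →
      ∀ χ' ∈ B', ¬ MemLocalIdeal M (centralChar (χ' : G → ℂ) k) := by
    intro B' hB' hc χ' hχ' hI
    have h2 := (covers_iff hpM hB' hb).1 hc χ' hχ' θ hθ ⟨k, hkN⟩
    rw [← centralChar_eq_induced hcon hkN] at h2
    exact hχk (by simpa using memI_sub hI h2)
  -- some covering block has `k` as a defect class
  obtain ⟨B₁, hB₁, hcov₁, hB₁k⟩ : ∃ B₁ : Set (IrrCharacter G), IsPBlock M B₁ ∧
      (∃ χ ∈ B₁, ∃ θ ∈ b, classInner (fun n : N => (χ : G → ℂ) n) (θ : N → ℂ) ≠ 0) ∧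
      ¬ MemLocalIdeal M (blockCoeff B₁ k) := by
    set Cov := (blockFinset M G).filter (fun B' : Set (IrrCharacter G) => ∃ χ ∈ B', ∃ θ ∈ b,
      classInner (fun n : N => (χ : G → ℂ) n) (θ : N → ℂ) ≠ 0) with hCov
    have he : f = ∑ B' ∈ Cov, blockCoeff B' := by
      refine omega_ext hfc (Chars.isClassFunction_sum _ _ fun B' _ => isClassFunction_blockCoeff B')
        fun ψ => ?_
      obtain ⟨φ, hφ⟩ := exists_constituent (N := N) ψ
      rw [hf, omega_liftCoeff hφ hinv, omega_sum]
      simp only [omega_blockCoeff]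
      have hblk : ∀ B' ∈ Cov, ψ ∈ B' → B' = blockOf M (ψ : G → ℂ) := fun B' hB' h =>
        block_eq_of_mem (mem_blockFinset.1 (Finset.mem_filter.1 hB').1) h
      by_cases hφb : φ ∈ b
      · rw [if_pos hφb, Finset.sum_eq_single (blockOf M (ψ : G → ℂ))]
        · rw [if_pos (mem_blockOf_self ψ)]
        · exact fun B' hB' hne => if_neg fun h => hne (hblk B' hB' h)
        · intro h
          exact absurd (Finset.mem_filter.2 ⟨mem_blockFinset.2 (isPBlock_blockOf ψ),
            ψ, mem_blockOf_self ψ, φ, hφb, hφ⟩) h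
      · rw [if_neg hφb, Finset.sum_eq_zero]
        intro B' hB'
        refine if_neg fun h => hφb ?_
        obtain ⟨hB'b, ψ', hψ', φ', hφ'b, hφ'⟩ := Finset.mem_filter.1 hB'
        exact (mem_iff_of_sameBlock (sameBlock_of_mem (mem_blockFinset.1 hB'b) hψ' h) hφ' hφ hinv
          (rFun_blockCoeff hpM hb)).1 hφ'b
    by_contra hc
    push Not at hc
    apply hfk
    rw [he, Finset.sum_apply]
    exact memI_sum _ _ fun B' hB' => hc B' (mem_blockFinset.1 (Finset.mem_filter.1 hB').1)
      (Finset.mem_filter.1 hB').2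
  have hd₁ : blockDefect p B₁ =
      (Nat.card (Subgroup.centralizer ({k} : Set G))).factorization p :=
    (blockDefect_eq hpM hB₁ ⟨rFun_blockCoeff hpM hB₁ k, hB₁k, hcov' B₁ hB₁ hcov₁⟩).1
  have hdB : blockDefect p B = (Nat.card (Subgroup.centralizer ({k} : Set G))).factorization p :=
    le_antisymm (defect_le_of_unit_centralChar hpM hB
      (hcov' B hB ⟨χ, hχ, θ, hθ, hcon⟩)) (hd₁ ▸ hmax B₁ hB₁ hcov₁)
  -- move the class into the centralizer of `P`
  obtain ⟨y, hky, hyP⟩ := defect_centralizes hpM hB hP hχ hχk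
  have hyN : y ∈ N := mem_of_isConj hky hkN
  obtain ⟨x, rfl⟩ := isConj_iff.1 hky
  set y := x * k * x⁻¹ with hy
  have hfy : ¬ MemLocalIdeal M (f y) := by rw [hy, hfc k x]; exact hfk
  have hdy : blockDefect p B = (Nat.card (Subgroup.centralizer ({y} : Set G))).factorization p := by
    rw [hdB, hy, ← centralizer_singleton_conj, card_conjSub]
  have hωy : omega (χ : G → ℂ) (clsFun y) = omega (χ : G → ℂ) (clsFun k) := by
    congr 1
    funext z
    by_cases hz : IsConj k z
    · rw [clsFun_of_conj hz, clsFun_of_conj (hky.symm.trans hz)]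
    · rw [clsFun_of_not hz, clsFun_of_not fun h => hz (hky.trans h)]
  set yN : N := ⟨y, hyN⟩ with hyN'
  -- the classes of `N` in the class of `y`
  set S := (Finset.univ : Finset (ConjClasses N)).filter (fun D => IsConj y ((clsRep D : N) : G))
    with hS
  have hsplit : ∀ φ : IrrCharacter N, omega (φ : N → ℂ) (resFun N (clsFun y)) =
      ∑ D ∈ S, centralChar (φ : N → ℂ) (clsRep D) := by
    intro φ
    rw [omega_eq_sum_clsFun (Chars.isClassFunction_irr φ)
      (isClassFunction_resFun N (isClassFunction_clsFun y)), hS, Finset.sum_filter]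
    refine Finset.sum_congr rfl fun D _ => ?_
    by_cases hD : IsConj y ((clsRep D : N) : G)
    · rw [if_pos hD, show resFun N (clsFun y) (clsRep D) = 1 from clsFun_of_conj hD, one_mul]
    · rw [if_neg hD, show resFun N (clsFun y) (clsRep D) = 0 from clsFun_of_not hD, zero_mul]
  have hmove : ∀ D ∈ S, ∀ φ : IrrCharacter N, ∃ g : G,
      centralChar (φ : N → ℂ) (clsRep D) = centralChar (conjIrr φ g : N → ℂ) yN := by
    intro D hD φ
    obtain ⟨g, hg⟩ := isConj_iff.1 (Finset.mem_filter.1 hD).2
    refine ⟨g⁻¹, ?_⟩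
    rw [centralChar_conjIrr, inv_inv]
    congr 1
    exact Subtype.ext (by rw [MulAut.conjNormal_apply]; exact hg.symm)
  have hsize : ∀ D ∈ S, (Subgroup.centralizer ({clsRep D} : Set N)).index =
      (Subgroup.centralizer ({yN} : Set N)).index := by
    intro D hD
    obtain ⟨g, hg⟩ := hmove D hD (oneChar N)
    have h1 : conjIrr (oneChar N : IrrCharacter N) g = oneChar N := Subtype.ext (funext fun n => rfl)
    rw [h1] at hg
    simp only [centralChar, coe_oneChar, mul_one, div_one] at hg
    exact_mod_cast hg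
  have hone : classInner (fun n : N => ((oneChar G : IrrCharacter G) : G → ℂ) n)
      ((oneChar N : IrrCharacter N) : N → ℂ) ≠ 0 := by
    rw [show (fun n : N => ((oneChar G : IrrCharacter G) : G → ℂ) n) =
      ((oneChar N : IrrCharacter N) : N → ℂ) from funext fun n => rfl,
      Chars.classInner_self_irr (oneChar N).2]
    exact one_ne_zero
  have hcount : (Subgroup.centralizer ({y} : Set G)).index =
      S.card * (Subgroup.centralizer ({yN} : Set N)).index := by
    have h2 := omega_eq_res hone (isClassFunction_clsFun y) (clsFun_supported hyN)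
    rw [hsplit, omega_clsFun (Chars.isClassFunction_irr _)] at h2
    simp only [centralChar, coe_oneChar, mul_one, div_one] at h2
    rw [← Nat.cast_sum, Finset.sum_congr rfl hsize, Finset.sum_const, smul_eq_mul] at h2
    exact_mod_cast h2
  have hunit : ¬ MemLocalIdeal M ((S.card : ℂ) * centralChar (θ : N → ℂ) yN) := by
    intro hI
    apply hχk
    have h2 := omega_eq_res hcon (isClassFunction_clsFun y) (clsFun_supported hyN)
    rw [hωy, omega_clsFun (Chars.isClassFunction_irr χ), hsplit] at h2
    have h3 : MemLocalIdeal M (∑ D ∈ S,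
        (centralChar (θ : N → ℂ) (clsRep D) - centralChar (θ : N → ℂ) yN)) := by
      refine memI_sum _ _ fun D hD => ?_
      obtain ⟨g, hg⟩ := hmove D hD θ
      rw [hg]
      exact sameBlock_of_mem hb (hinv θ g hθ) hθ yN
    rw [Finset.sum_sub_distrib, Finset.sum_const, nsmul_eq_mul, ← h2] at h3
    simpa using memI_add h3 hI
  have hθy : ¬ MemLocalIdeal M (centralChar (θ : N → ℂ) yN) := fun hI =>
    hunit (memI_mul_left (memR_natCast _) hI)
  have hm : ¬ p ∣ S.card := fun h =>
    hunit (memI_mul_right ((memI_natCast_iff hpM _).2 h) (centralChar_memR hpM θ yN))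
  have hbclass : IsDefectClass M b yN := by
    refine ⟨rFun_blockCoeff hpM hb yN, ?_, fun φ hφ hI =>
      hθy ((memI_iff_of_sub (sameBlock_of_mem hb hθ hφ yN)).2 hI)⟩
    have : f y = blockCoeff b yN := congrFun (resFun_liftCoeff b) yN
    rwa [← this]
  obtain ⟨hdb, -⟩ := blockDefect_eq hpM hb hbclass
  have hnum : blockDefect p B = blockDefect p b + N.index.factorization p := by
    have e1 : (Subgroup.centralizer ({y} : Set G)).index.factorization p =
        (Subgroup.centralizer ({yN} : Set N)).index.factorization p := by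
      rw [hcount, Nat.factorization_mul (a := S.card) (fun h => hm (by rw [h]; exact dvd_zero p))
        Subgroup.index_ne_zero_of_finite, Finsupp.add_apply,
        Nat.factorization_eq_zero_of_not_dvd hm, zero_add]
    have e2 := index_factorization (p := p) y
    have e3 := index_factorization (p := p) yN
    have e4 : (Nat.card G).factorization p =
        (Nat.card N).factorization p + N.index.factorization p := by
      rw [← Subgroup.card_mul_index N, Nat.factorization_mul Nat.card_pos.ne'
        Subgroup.index_ne_zero_of_finite, Finsupp.add_apply]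
    omega
  -- the groups
  have hPcard := card_defectGroup hpM hB hP
  have hPp := isPGroup_defect hP
  set Q := (P ⊓ N).subgroupOf N with hQ
  have hQle : Q ≤ Subgroup.centralizer ({yN} : Set N) := by
    intro z hz
    rw [Subgroup.mem_centralizer_singleton_iff]
    exact Subtype.ext (Subgroup.mem_centralizer_iff.1 hyP _ (Subgroup.mem_subgroupOf.1 hz).1)
  have hQp : IsPGroup p Q :=
    (hPp.to_le inf_le_left).comap_of_injective N.subtype N.subtype_injective
  obtain ⟨j, -, hj⟩ := (Nat.dvd_prime_pow hp).1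
    (hPcard ▸ Subgroup.index_dvd_card (N.subgroupOf P))
  have hjN : j ≤ N.index.factorization p := by
    refine (hp.pow_dvd_iff_le_factorization Subgroup.index_ne_zero_of_finite).1 ?_
    rw [← hj]
    exact Subgroup.relIndex_dvd_index_of_normal N P
  have hQcard : Nat.card Q * p ^ j = p ^ blockDefect p B := by
    rw [← hPcard, ← hj, ← Subgroup.card_mul_index (N.subgroupOf P)]
    congr 1
    rw [Nat.card_congr (Subgroup.subgroupOfEquivOfLe (inf_le_right : P ⊓ N ≤ N)).toEquiv,
      ← Subgroup.inf_subgroupOf_left,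
      Nat.card_congr (Subgroup.subgroupOfEquivOfLe (inf_le_left : P ⊓ N ≤ P)).toEquiv]
  obtain ⟨i, hi⟩ := hQp.exists_card_eq
  have hij : i + j = blockDefect p B :=
    Nat.pow_right_injective hp.two_le (show p ^ (i + j) = _ by rw [pow_add, ← hi, hQcard])
  have hib : i ≤ blockDefect p b := by
    rw [hdb]
    refine (hp.pow_dvd_iff_le_factorization Nat.card_pos.ne').1 ?_
    rw [← hi]
    exact Subgroup.card_dvd_of_le hQle
  have hjeq : j = N.index.factorization p := by omega
  refine ⟨fun hdvd => ?_, isDefectGroup_iff.2 ⟨yN, hbclass, hQle, hQp, ?_⟩, hnum⟩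
  · have h1 : N.index = N.relIndex (P ⊔ N) * (P ⊔ N).index :=
      (Subgroup.relIndex_mul_index le_sup_right).symm
    have h2 : N.relIndex (P ⊔ N) = p ^ j := by
      rw [Subgroup.relIndex_sup_right]; exact hj
    have h3 : p ^ (j + 1) ∣ N.index := by
      rw [h1, h2, pow_succ]; exact mul_dvd_mul_left _ hdvd
    have := (hp.pow_dvd_iff_le_factorization Subgroup.index_ne_zero_of_finite).1 h3
    omega
  · rw [hi, ← hdb, show i = blockDefect p b by omega]

end Cfsg.Agent.Blocks
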