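import Cfsg.Agent.Blocks.Height
import Cfsg.Agent.Blocks.FirstMain
import Cfsg.Agent.Blocks.RealOdd

/-! Green's theorem: defect groups are intersections of two Sylow subgroups. -/

set_option autoImplicit false
set_option linter.style.haveILetI false
set_option linter.unusedSectionVars false

namespace Cfsg.Agent.Blocks

open Cfsg Cfsg.Agent
open scoped ComplexConjugate

universe u v

theorem sum_eq_sum_orbits {Γ : Type v} [Group Γ] [Finite Γ] {X : Type u} [Fintype X] [MulAction Γ X]
    [Fintype (MulAction.orbitRel.Quotient Γ X)] {f : X → ℂ} (hf : ∀ (γ : Γ) (x : X), f (γ • x) = f x) :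
    ∑ x, f x = ∑ O : MulAction.orbitRel.Quotient Γ X,
      ((MulAction.stabilizer Γ O.out).index : ℂ) * f O.out := by
  classical
  haveI : ∀ O : MulAction.orbitRel.Quotient Γ X, Fintype (MulAction.orbit Γ O.out) := fun O =>
    Fintype.ofFinite _
  rw [← (MulAction.selfEquivSigmaOrbits Γ X).symm.sum_comp, Fintype.sum_sigma]
  refine Finset.sum_congr rfl fun O _ => ?_
  rw [Finset.sum_congr rfl (g := fun _ => f O.out) fun x _ => ?_]
  · rw [Finset.sum_const, nsmul_eq_mul, MulAction.index_stabilizer, ← Nat.card_coe_set_eq,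
      Nat.card_eq_fintype_card]
    rfl
  · obtain ⟨γ, hγ⟩ := x.2
    show f (x : X) = f O.out
    rw [← hγ]
    exact hf γ _

theorem exists_mem_normalizer_diff {G : Type u} [Group G] [Finite G] {p : ℕ} [Fact p.Prime]
    {D Q : Subgroup G} (hQ : IsPGroup p Q) (hlt : D < Q) :
    ∃ r ∈ Q, r ∈ Subgroup.normalizer (D : Set G) ∧ r ∉ D := by
  haveI := hQ.isNilpotent
  have hne : D.subgroupOf Q < ⊤ := lt_top_iff_ne_top.2 fun h =>
    hlt.not_ge (Subgroup.subgroupOf_eq_top.1 h)
  obtain ⟨⟨r, hrQ⟩, hr, hrD⟩ :=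
    SetLike.exists_of_lt (Group.normalizerCondition_of_isNilpotent _ hne)
  refine ⟨r, hrQ, ?_, fun h => hrD h⟩
  rw [Subgroup.mem_normalizer_iff] at hr ⊢
  intro w
  constructor
  · exact fun hw => (hr ⟨w, hlt.le hw⟩).1 hw
  · intro hw
    have hwQ : w ∈ Q := by
      have := Q.mul_mem (Q.mul_mem (Q.inv_mem hrQ) (hlt.le hw)) hrQ
      simpa [mul_assoc] using this
    exact (hr ⟨w, hwQ⟩).2 hw

variable {G : Type u} [Group G] [Fintype G] {p : ℕ} [Fact p.Prime] {M : Ideal AlgInt} [M.IsMaximal]

/-- The key case: the defect group is normal. -/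
theorem green_normal (hpM : (p : AlgInt) ∈ M) {B : Set (IrrCharacter G)} (hB : IsPBlock M B)
    {D : Subgroup G} [D.Normal] (hD : IsDefectGroup p M B D) (S : Sylow p G) :
    ∃ y : G, ¬ p ∣ orderOf y ∧ y ∈ Subgroup.centralizer (D : Set G) ∧
      IsSylowIn p (Subgroup.centralizer ({y} : Set G)) D ∧
      (S : Subgroup G) ⊓ conjSub y S = D := by
  classical
  have hp := (Fact.out : p.Prime)
  have hDS : D ≤ (S : Subgroup G) := (isPGroup_defect hD).le_sylow_of_normal S
  obtain ⟨χ, hχ, h0⟩ := exists_height_zero (p := p) hB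
  set e := blockCoeff B with he
  set f := regConj p (χ : G → ℂ) with hf
  have hec : IsClassFunction G e := isClassFunction_blockCoeff B
  have heR : RFun M e := rFun_blockCoeff hpM hB
  have hfc : IsClassFunction G f := isClassFunction_regConj (Chars.isClassFunction_irr χ)
  have hfe : conv f e = f := by
    refine omega_ext (isClassFunction_conv hfc hec) hfc fun ψ => ?_
    rw [omega_conv ψ.2 hfc hec, omega_blockCoeff]
    split_ifs with h
    · rw [mul_one]
    · rw [mul_zero, omega_regConj_of_not_sameBlock hpM fun hs => h ?_]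
      rw [block_eq_of_mem hB hχ]
      exact fun g => by simpa using memI_neg (hs g)
  have hχ1 : (χ : G → ℂ) 1 ≠ 0 := Chars.irr_apply_one_ne_zero χ.2
  have hfS : ∀ u : (S : Subgroup G), u ≠ 1 → f u = 0 := by
    intro u hu
    rw [hf, regConj_apply, if_neg (not_not.2 ?_)]
    obtain ⟨k, hk⟩ := IsPGroup.iff_orderOf.1 S.isPGroup' u
    rw [Subgroup.orderOf_coe, hk]
    rcases k with _ | k
    · exact absurd (orderOf_eq_one_iff.1 (by rw [hk, pow_zero])) hu
    · exact dvd_pow_self p k.succ_ne_zero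
  set E : G → ℂ := fun y => ∑ u : (S : Subgroup G), e (y⁻¹ * u) with hE
  have hmain : ∑ y : G, f y * E y = (χ : G → ℂ) 1 := by
    have h1 : ∑ y : G, f y * E y = ∑ u : (S : Subgroup G), f u := by
      simp only [hE, Finset.mul_sum]
      rw [Finset.sum_comm]
      refine Finset.sum_congr rfl fun u _ => ?_
      conv_rhs => rw [← hfe]
      rfl
    rw [h1, Finset.sum_eq_single (1 : (S : Subgroup G)) (fun u _ hu => hfS u hu) (by simp)]
    rw [hf, regConj_apply, OneMemClass.coe_one, if_pos (by rw [orderOf_one]; exact hp.not_dvd_one),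
      (charDegree_eq χ.2).1, Complex.conj_natCast]
  let act : MulAction (S : Subgroup G) G :=
    MulAction.compHom G ((ConjAct.toConjAct : G ≃* ConjAct G).toMonoidHom.comp (S : Subgroup G).subtype)
  have hsmul : ∀ (s : (S : Subgroup G)) (y : G), s • y = (s : G) * y * (s : G)⁻¹ := fun s y => rfl
  have hEinv : ∀ (s : (S : Subgroup G)) (y : G), f (s • y) * E (s • y) = f y * E y := by
    intro s y
    rw [hsmul, hfc y s]
    congr 1
    simp only [hE]
    let c : (S : Subgroup G) ≃ (S : Subgroup G) := (MulAut.conj s).toEquiv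
    rw [← c.sum_comp]
    refine Finset.sum_congr rfl fun u _ => ?_
    rw [show ((s : G) * y * (s : G)⁻¹)⁻¹ * ((c u : (S : Subgroup G)) : G) =
      (s : G) * (y⁻¹ * (u : G)) * (s : G)⁻¹ by simp [c, mul_assoc], hec]
  haveI : Fintype (MulAction.orbitRel.Quotient (S : Subgroup G) G) := Fintype.ofFinite _
  rw [sum_eq_sum_orbits hEinv] at hmain
  obtain ⟨O, hO⟩ : ∃ O : MulAction.orbitRel.Quotient (S : Subgroup G) G, ¬ MemLocalIdeal M
      (((MulAction.stabilizer (S : Subgroup G) O.out).index : ℂ) * (f O.out * E O.out) /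
        (χ : G → ℂ) 1) := by
    by_contra h
    push Not at h
    refine not_memI_one (M := M) ?_
    have := memI_sum Finset.univ _ fun O _ => h O
    rwa [← Finset.sum_div, hmain, div_self hχ1] at this
  set y := O.out
  have hreg : ¬ p ∣ orderOf y := fun h => hO (by
    rw [hf, regConj_apply, if_neg (not_not.2 h)]
    simp [memI_zero])
  set C := Subgroup.centralizer ({y} : Set G) with hC
  set T := MulAction.stabilizer (S : Subgroup G) y with hT
  -- the term as a product of three local integers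
  have hER : MemLocalRing M (E y) := memR_sum _ _ fun u _ => heR _
  have homR : MemLocalRing M (conj (centralChar (χ : G → ℂ) y)) :=
    memR_of_isIntegral ((Chars.centralChar_isIntegral_irr χ.2 y).map (starRingEnd ℂ).toIntAlgHom)
  have hTC : T.map (S : Subgroup G).subtype = (S : Subgroup G) ⊓ C := by
    ext w
    simp only [Subgroup.mem_map, Subgroup.mem_inf, hC, Subgroup.mem_centralizer_singleton_iff]
    constructor
    · rintro ⟨s, hs, rfl⟩
      exact ⟨s.2, mul_inv_eq_iff_eq_mul.1 ((hsmul s y).symm.trans hs)⟩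
    · rintro ⟨hw, hwy⟩
      exact ⟨⟨w, hw⟩, (hsmul _ _).trans (mul_inv_eq_iff_eq_mul.2 hwy), rfl⟩
  have hTd : Nat.card T ∣ Nat.card C := by
    rw [← card_map_subtype (S : Subgroup G) T, hTC]
    exact Subgroup.card_dvd_of_le inf_le_right
  obtain ⟨m, hm⟩ := hTd
  have hidx : ¬ p ∣ (S : Subgroup G).index := S.not_dvd_index
  have hratio : ((T.index : ℕ) : ℂ) = ((m : ℂ) * ((S : Subgroup G).index : ℂ)⁻¹) * (C.index : ℂ) := by
    have e1 := T.card_mul_index
    have e2 := (S : Subgroup G).card_mul_index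
    have e3 := C.card_mul_index
    have hi : ((S : Subgroup G).index : ℂ) ≠ 0 := Nat.cast_ne_zero.2 Subgroup.index_ne_zero_of_finite
    have key : T.index * (S : Subgroup G).index = m * C.index := by
      refine Nat.eq_of_mul_eq_mul_left (Nat.card_pos (α := T)) ?_
      rw [← mul_assoc, e1, e2, ← mul_assoc, ← hm, e3]
    rw [mul_comm (m : ℂ), mul_assoc, eq_inv_mul_iff_mul_eq₀ hi]
    exact_mod_cast (mul_comm _ _).trans key
  have hterm : ((T.index : ℂ)) * (f y * E y) / (χ : G → ℂ) 1 =
      ((m : ℂ) * ((S : Subgroup G).index : ℂ)⁻¹) * conj (centralChar (χ : G → ℂ) y) * E y := by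
    rw [hratio, hf, regConj_apply, if_pos hreg, centralChar, map_div₀, map_mul, Complex.conj_natCast,
      (charDegree_eq χ.2).1, Complex.conj_natCast, ← hC]
    ring
  rw [hterm] at hO
  have hm' : ¬ p ∣ m := fun h => hO (memI_mul_right (memI_mul_right
    (memI_mul_right ((memI_natCast_iff hpM m).2 h) (memR_inv_natCast hpM hidx)) homR) hER)
  have hEu : ¬ MemLocalIdeal M (E y) := fun h => hO (memI_mul_left
    (memR_mul (memR_mul (memR_natCast m) (memR_inv_natCast hpM hidx)) homR) h)
  have hom : ¬ MemLocalIdeal M (conj (centralChar (χ : G → ℂ) y)) := fun h => hO (memI_mul_right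
    (memI_mul_left (memR_mul (memR_natCast m) (memR_inv_natCast hpM hidx)) h) hER)
  have hyC : y ∈ Subgroup.centralizer (D : Set G) := by
    rw [show conj (centralChar (χ : G → ℂ) y) = centralChar (fun x => conj ((χ : G → ℂ) x)) y by
      simp only [centralChar, map_div₀, map_mul, Complex.conj_natCast], ← centralChar_inv χ y] at hom
    obtain ⟨y', hy', hyD⟩ := defect_centralizes hpM hB hD hχ hom
    haveI : (Subgroup.centralizer (D : Set G)).Normal := Subgroup.normal_centralizer
    obtain ⟨a, ha⟩ := isConj_iff.1 hy'.symm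
    exact inv_mem_iff.1 (ha ▸ (inferInstance : (Subgroup.centralizer (D : Set G)).Normal).conj_mem _ hyD a)
  set R := (S : Subgroup G) ⊓ conjSub y⁻¹ S with hR
  have hmemR : ∀ {r : G}, r ∈ R ↔ r ∈ (S : Subgroup G) ∧ y * r * y⁻¹ ∈ (S : Subgroup G) := by
    intro r; rw [hR, Subgroup.mem_inf, mem_conjSub, inv_inv]
  have hyd : ∀ d ∈ D, y * d = d * y := fun d hd => (Subgroup.mem_centralizer_iff.1 hyC d hd).symm
  have hDR : D ≤ R := fun d hd => hmemR.2 ⟨hDS hd, by
    rw [hyd d hd, mul_inv_cancel_right]; exact hDS hd⟩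
  have hRD : R = D := by
    refine (Subgroup.eq_of_le_of_card_ge hDR ?_).symm
    by_contra hcon
    push Not at hcon
    refine hEu ?_
    let actR : MulAction R (S : Subgroup G) :=
      { smul := fun r u => ⟨y * r * y⁻¹ * u * (r : G)⁻¹,
          Subgroup.mul_mem _ (Subgroup.mul_mem _ (hmemR.1 r.2).2 u.2) (Subgroup.inv_mem _ (hmemR.1 r.2).1)⟩
        one_smul := fun u => Subtype.ext (by
          show y * ((1 : R) : G) * y⁻¹ * u * ((1 : R) : G)⁻¹ = u
          simp)
        mul_smul := fun a b u => Subtype.ext (by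
          show y * ((a * b : R) : G) * y⁻¹ * u * ((a * b : R) : G)⁻¹ =
            y * a * y⁻¹ * (y * b * y⁻¹ * u * (b : G)⁻¹) * (a : G)⁻¹
          simp [mul_assoc]) }
    have hsm : ∀ (r : R) (u : (S : Subgroup G)),
        y⁻¹ * ((r • u : (S : Subgroup G)) : G) = (r : G) * (y⁻¹ * u) * (r : G)⁻¹ := fun r u => by
      show y⁻¹ * (y * r * y⁻¹ * u * (r : G)⁻¹) = _
      group
    have hinv : ∀ (r : R) (u : (S : Subgroup G)),
        e (y⁻¹ * ((r • u : (S : Subgroup G)) : G)) = e (y⁻¹ * u) := fun r u => by rw [hsm, hec]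
    haveI : Fintype (MulAction.orbitRel.Quotient R (S : Subgroup G)) := Fintype.ofFinite _
    simp only [hE]
    rw [sum_eq_sum_orbits hinv]
    refine memI_sum _ _ fun O _ => ?_
    set u := O.out
    by_cases hu : MemLocalIdeal M (e (y⁻¹ * u))
    · exact memI_mul_left (memR_natCast _) hu
    refine memI_mul_right ((memI_natCast_iff hpM _).2 ?_) (heR _)
    set U := MulAction.stabilizer R u with hU
    have hRp : IsPGroup p R := S.isPGroup'.to_le inf_le_left
    have hUz : (y⁻¹ * (u : G)) ∈ Subgroup.centralizer ((U.map R.subtype : Subgroup G) : Set G) := by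
      rw [Subgroup.mem_centralizer_iff]
      rintro _ ⟨r, hr, rfl⟩
      have := hsm r u
      rw [show r • u = u from hr] at this
      exact mul_inv_eq_iff_eq_mul.1 this.symm
    obtain ⟨c, hc⟩ := le_defect_of_coeff hpM hB hD hu ((hRp.to_subgroup U).map _) hUz
    have hle : Nat.card U ≤ Nat.card D := by
      rw [← card_map_subtype R U, ← card_conjSub c]
      exact Nat.card_le_card_of_injective _ (Subgroup.inclusion_injective hc)
    obtain ⟨i, hi⟩ := hRp.index U
    rcases i with _ | i
    · exfalso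
      have := U.card_mul_index
      rw [hi, pow_zero, mul_one] at this
      omega
    · rw [hi]; exact dvd_pow_self p i.succ_ne_zero
  refine ⟨y, hreg, hyC, ?_, ?_⟩
  · have hSC : (S : Subgroup G) ⊓ C = D := by
      refine le_antisymm (fun w hw => ?_) (le_inf hDS fun d hd => ?_)
      · rw [← hRD]
        refine hmemR.2 ⟨hw.1, ?_⟩
        rw [← Subgroup.mem_centralizer_singleton_iff.1 hw.2, mul_inv_cancel_right]
        exact hw.1
      · exact Subgroup.mem_centralizer_singleton_iff.2 (hyd d hd).symm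
    have hcard : Nat.card C = Nat.card D * m := by
      rw [hm, ← card_map_subtype (S : Subgroup G) T, hTC, hSC]
    obtain ⟨k, hk⟩ := (isPGroup_defect hD).exists_card_eq
    refine ⟨hSC ▸ inf_le_right, isPGroup_defect hD, ?_⟩
    rw [hcard, hk, Nat.factorization_mul (pow_ne_zero _ hp.ne_zero) (fun h => hm' (by rw [h]; exact dvd_zero p)),
      hp.factorization_pow, Finsupp.add_apply, Finsupp.single_eq_same,
      Nat.factorization_eq_zero_of_not_dvd hm', add_zero]
  · ext w
    rw [Subgroup.mem_inf, mem_conjSub]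
    constructor
    · rintro ⟨hw, hw'⟩
      have : y⁻¹ * w * y ∈ D := hRD ▸ hmemR.2 ⟨hw', by simpa [mul_assoc] using hw⟩
      have h2 := (inferInstance : D.Normal).conj_mem _ this y
      simpa [mul_assoc] using h2
    · intro hw
      refine ⟨hDS hw, hDS ?_⟩
      rw [mul_assoc, ← hyd w hw, inv_mul_cancel_left]
      exact hw

/-- Green's theorem. -/
theorem green (hpM : (p : AlgInt) ∈ M) {B : Set (IrrCharacter G)} (hB : IsPBlock M B)
    {D : Subgroup G} (hD : IsDefectGroup p M B D) (P : Sylow p G) (hDP : D ≤ P) :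
    ∃ x : G, ¬ p ∣ orderOf x ∧ IsSylowIn p (Subgroup.centralizer ({x} : Set G)) D ∧
      (P : Subgroup G) ⊓ conjSub x P = D := by
  classical
  have hp := (Fact.out : p.Prime)
  set N := Subgroup.normalizer (D : Set G) with hN
  have hDN : D ≤ N := Subgroup.le_normalizer
  obtain ⟨b, ⟨hb, hbD, -⟩, -⟩ := (first_main hpM D).2 B hB hD
  haveI : (D.subgroupOf N).Normal := Subgroup.normal_subgroupOf_of_le_normalizer le_rfl
  obtain ⟨S, hS⟩ := IsPGroup.exists_le_sylow (P := (P : Subgroup G).subgroupOf N)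
    (P.isPGroup'.comap_of_injective N.subtype N.subtype_injective)
  obtain ⟨⟨x, hxN⟩, hxr, hxC, hxS, hxI⟩ := green_normal hpM hb hbD S
  rw [Subgroup.orderOf_mk] at hxr
  have hxd : ∀ d ∈ D, d * x = x * d := fun d hd =>
    congrArg Subtype.val (Subgroup.mem_centralizer_iff.1 hxC ⟨d, hDN hd⟩ hd)
  have hDp := isPGroup_defect hD
  refine ⟨x, hxr, ?_, ?_⟩
  · have hDC : D ≤ Subgroup.centralizer ({x} : Set G) := fun d hd =>
      Subgroup.mem_centralizer_singleton_iff.2 (hxd d hd)
    obtain ⟨Q, hQ, hDQ⟩ := exists_isSylowIn_ge (p := p) hDC hDp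
    rcases hDQ.eq_or_lt with h | h
    · exact h ▸ hQ
    exfalso
    obtain ⟨r, hrQ, hrN, hrD⟩ := exists_mem_normalizer_diff hQ.2.1 h
    set Q' := Q.subgroupOf N with hQ'
    have hQ'p : IsPGroup p Q' := hQ.2.1.comap_of_injective N.subtype N.subtype_injective
    have hQ'C : Q' ≤ Subgroup.centralizer ({(⟨x, hxN⟩ : N)} : Set N) := fun w hw =>
      Subgroup.mem_centralizer_singleton_iff.2 (Subtype.ext
        (Subgroup.mem_centralizer_singleton_iff.1 (hQ.1 hw)))
    have hle : D.subgroupOf N < Q' := lt_of_le_of_ne (fun w hw => hDQ hw) fun he => hrD (by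
      have : (⟨r, hrN⟩ : N) ∈ Q' := hrQ
      rw [← he] at this
      exact this)
    have h1 := isSylowIn_card_le hxS hQ'C hQ'p
    exact hle.ne (Subgroup.eq_of_le_of_card_ge hle.le (Nat.le_of_dvd Nat.card_pos h1))
  · have hDR : D ≤ (P : Subgroup G) ⊓ conjSub x P := by
      refine fun d hd => Subgroup.mem_inf.2 ⟨hDP hd, mem_conjSub.2 (hDP ?_)⟩
      rw [mul_assoc, hxd d hd, inv_mul_cancel_left]; exact hd
    rcases hDR.eq_or_lt with h | h
    · exact h.symm
    exfalso
    obtain ⟨r, hr, hrN, hrD⟩ := exists_mem_normalizer_diff (P.isPGroup'.to_le inf_le_left) h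
    obtain ⟨hr1, hr2⟩ := Subgroup.mem_inf.1 hr
    have hmem : (⟨r, hrN⟩ : N) ∈ (S : Subgroup N) ⊓ conjSub (⟨x, hxN⟩ : N) S :=
      Subgroup.mem_inf.2 ⟨hS hr1, mem_conjSub.2 (hS (show x⁻¹ * r * x ∈ (P : Subgroup G) from mem_conjSub.1 hr2))⟩
    rw [hxI] at hmem
    exact hrD hmem

end Cfsg.Agent.Blocks
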