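import Mathlib

/-! Automorphisms induced on a homocyclic Sylow `2`-subgroup of rank two. -/

set_option autoImplicit false
set_option linter.unusedSectionVars false

namespace Cfsg.Agent.Blocks.Homocyclic

open Subgroup

universe u

variable {G : Type u} [Group G] [Finite G] (P : Sylow 2 G)

theorem card_two_torsion (m : ℕ) (hm : 1 ≤ m) :
    Nat.card {x : ZMod (2 ^ m) × ZMod (2 ^ m) // (2 : ℕ) • x = 0} = 4 := by
  haveI : NeZero (2 ^ m) := ⟨pow_ne_zero _ two_ne_zero⟩
  have hA : Nat.card {a : ZMod (2 ^ m) // (2 : ℕ) • a = 0} = 2 := by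
    have hc : Nat.card (ZMod (2 ^ m)) = 2 ^ m := Nat.card_zmod _
    have h := IsAddCyclic.card_nsmulAddMonoidHom_ker (G := ZMod (2 ^ m)) 2
    rw [hc, Nat.gcd_eq_right (dvd_pow_self 2 (by omega))] at h
    exact h
  rw [Nat.card_congr
    (show {x : ZMod (2 ^ m) × ZMod (2 ^ m) // (2 : ℕ) • x = 0} ≃
      {a : ZMod (2 ^ m) // (2 : ℕ) • a = 0} × {a : ZMod (2 ^ m) // (2 : ℕ) • a = 0} from
      { toFun := fun x => (⟨x.1.1, congrArg Prod.fst x.2⟩, ⟨x.1.2, congrArg Prod.snd x.2⟩)
        invFun := fun y => ⟨(y.1.1, y.2.1), Prod.ext y.1.2 y.2.2⟩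
        left_inv := fun x => rfl
        right_inv := fun y => rfl }), Nat.card_prod, hA]

/-- The involutions of `P`. -/
abbrev Inv := {t : (P : Subgroup G) // orderOf t = 2}

variable {P}

theorem card_inv {m : ℕ} (hm : 1 ≤ m)
    (e : (P : Subgroup G) ≃* Multiplicative (ZMod (2 ^ m) × ZMod (2 ^ m))) :
    Nat.card (Inv P) = 3 := by
  classical
  haveI : NeZero (2 ^ m) := ⟨pow_ne_zero _ two_ne_zero⟩
  haveI : Fintype (P : Subgroup G) := Fintype.ofFinite _
  have h4 : Nat.card {t : (P : Subgroup G) // t ^ 2 = 1} = 4 := by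
    rw [← card_two_torsion m hm]
    refine Nat.card_congr (Equiv.subtypeEquiv (e.toEquiv.trans Multiplicative.toAdd) fun t => ?_)
    rw [← e.injective.eq_iff, map_pow, map_one]
    exact Iff.rfl
  rw [Nat.card_eq_fintype_card, Fintype.card_subtype] at h4 ⊢
  have hsplit : (Finset.univ.filter fun t : (P : Subgroup G) => t ^ 2 = 1) =
      insert 1 (Finset.univ.filter fun t : (P : Subgroup G) => orderOf t = 2) := by
    ext t
    simp only [Finset.mem_filter, Finset.mem_univ, true_and, Finset.mem_insert]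
    constructor
    · intro h
      by_cases h1 : t = 1
      · exact .inl h1
      · exact .inr (orderOf_eq_prime h h1)
    · rintro (rfl | h)
      · simp
      · have := pow_orderOf_eq_one t; rwa [h] at this
  rw [hsplit, Finset.card_insert_of_notMem (by simp)] at h4
  omega

theorem comm_of_equiv {m : ℕ}
    (e : (P : Subgroup G) ≃* Multiplicative (ZMod (2 ^ m) × ZMod (2 ^ m)))
    {a b : G} (ha : a ∈ (P : Subgroup G)) (hb : b ∈ (P : Subgroup G)) : a * b = b * a :=
  congrArg Subtype.val (e.injective (by rw [map_mul, map_mul, mul_comm]) :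
    (⟨a, ha⟩ : (P : Subgroup G)) * ⟨b, hb⟩ = ⟨b, hb⟩ * ⟨a, ha⟩)

theorem le_centralizer (hab : ∀ a ∈ (P : Subgroup G), ∀ b ∈ (P : Subgroup G), a * b = b * a) :
    (P : Subgroup G) ≤ centralizer ((P : Subgroup G) : Set G) := fun a ha =>
  mem_centralizer_iff.2 fun b hb => hab b hb a ha

theorem odd_relIndex (hab : ∀ a ∈ (P : Subgroup G), ∀ b ∈ (P : Subgroup G), a * b = b * a) :
    ¬ 2 ∣ (centralizer ((P : Subgroup G) : Set G)).relIndex
      (normalizer ((P : Subgroup G) : Set G)) := fun h =>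
  P.not_dvd_index (h.trans ((Dvd.intro _ (relIndex_mul_index (centralizer_le_normalizer _))).trans
    (index_dvd_of_le (le_centralizer hab))))

theorem exists_odd_pow (hab : ∀ a ∈ (P : Subgroup G), ∀ b ∈ (P : Subgroup G), a * b = b * a)
    {g : G} (hg : g ∈ normalizer ((P : Subgroup G) : Set G)) :
    ∃ n, Odd n ∧ g ^ n ∈ centralizer ((P : Subgroup G) : Set G) := by
  set N := normalizer ((P : Subgroup G) : Set G)
  set C := centralizer ((P : Subgroup G) : Set G)
  haveI : (C.subgroupOf N).Normal := by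
    refine ⟨fun c hc a => ?_⟩
    rw [mem_subgroupOf, mem_centralizer_iff] at hc ⊢
    intro w hw
    have h := hc _ ((mem_normalizer_iff''.1 a.2 w).1 hw)
    have e1 : (a : G) * ((a : G)⁻¹ * w * (a : G) * (c : G)) * (a : G)⁻¹ =
        w * ((a * c * a⁻¹ : N) : G) := by
      simp only [coe_mul, coe_inv]; group
    have e2 : (a : G) * ((c : G) * ((a : G)⁻¹ * w * (a : G))) * (a : G)⁻¹ =
        ((a * c * a⁻¹ : N) : G) * w := by
      simp only [coe_mul, coe_inv]; group
    rw [← e1, ← e2, h]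
  refine ⟨C.relIndex N, Nat.odd_iff.2 (by have := odd_relIndex hab; change ¬ 2 ∣ C.relIndex N at this; omega), ?_⟩
  exact (C.subgroupOf N).pow_index_mem ⟨g, hg⟩

/-- An element of the normalizer fixing all involutions centralizes `P`. -/
theorem mem_centralizer_of_fix
    (hab : ∀ a ∈ (P : Subgroup G), ∀ b ∈ (P : Subgroup G), a * b = b * a)
    {g : G} (hg : g ∈ normalizer ((P : Subgroup G) : Set G))
    (hfix : ∀ t ∈ (P : Subgroup G), t ^ 2 = 1 → g * t = t * g) :
    g ∈ centralizer ((P : Subgroup G) : Set G) := by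
  obtain ⟨n, hn, hgn⟩ := exists_odd_pow hab hg
  suffices h : ∀ (k : ℕ) (x : G), x ∈ (P : Subgroup G) → x ^ 2 ^ k = 1 → g * x = x * g by
    refine mem_centralizer_iff.2 fun x hx => ?_
    obtain ⟨k, hk⟩ := P.isPGroup' ⟨x, hx⟩
    exact (h k x hx (congrArg Subtype.val hk)).symm
  intro k
  induction k with
  | zero => intro x _ h; simp at h; simp [h]
  | succ k ih =>
    intro x hx hk
    have hgx : g * x * g⁻¹ ∈ (P : Subgroup G) := (mem_normalizer_iff.1 hg x).1 hx
    set d := x⁻¹ * (g * x * g⁻¹) with hd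
    have hdP : d ∈ (P : Subgroup G) := mul_mem (inv_mem hx) hgx
    have hx2 : g * x ^ 2 * g⁻¹ = x ^ 2 := by
      rw [ih (x ^ 2) (pow_mem hx 2) (by rw [← pow_mul, ← pow_succ', hk]), mul_inv_cancel_right]
    have hd2 : d ^ 2 = 1 := by
      rw [hd, (show Commute x⁻¹ (g * x * g⁻¹) from hab _ (inv_mem hx) _ hgx).mul_pow, conj_pow, hx2,
        inv_pow, inv_mul_cancel]
    have hgd : g * d * g⁻¹ = d := by rw [hfix d hdP hd2, mul_inv_cancel_right]
    have hit : ∀ j : ℕ, g ^ j * x * (g ^ j)⁻¹ = x * d ^ j := by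
      intro j
      induction j with
      | zero => simp
      | succ j ihj =>
        calc g ^ (j + 1) * x * (g ^ (j + 1))⁻¹ = g * (g ^ j * x * (g ^ j)⁻¹) * g⁻¹ := by
              rw [pow_succ']; group
          _ = (g * x * g⁻¹) * (g * d * g⁻¹) ^ j := by rw [ihj, conj_pow]; group
          _ = x * d ^ (j + 1) := by rw [hgd, hd]; simp [pow_succ', mul_assoc]
    have hn1 : d ^ n = 1 := by
      have := hit n
      rw [← (mem_centralizer_iff.1 hgn x hx), mul_inv_cancel_right] at this
      exact left_eq_mul.1 this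
    obtain ⟨i, rfl⟩ := hn
    rw [pow_succ, pow_mul, hd2, one_pow, one_mul] at hn1
    rw [hd, inv_mul_eq_one] at hn1
    exact (mul_inv_eq_iff_eq_mul.1 hn1.symm)

/-- The action of the normalizer on the involutions. -/
noncomputable def act : (normalizer ((P : Subgroup G) : Set G)) →* Equiv.Perm (Inv P) where
  toFun g :=
    { toFun := fun t => ⟨⟨(g : G) * t.1 * (g : G)⁻¹, (mem_normalizer_iff.1 g.2 _).1 t.1.2⟩, by
        exact (Subgroup.orderOf_coe _).symm.trans ((MulEquiv.orderOf_eq (MulAut.conj (g : G)) _).trans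
          ((Subgroup.orderOf_coe _).trans t.2))⟩
      invFun := fun t => ⟨⟨(g : G)⁻¹ * t.1 * (g : G), (mem_normalizer_iff''.1 g.2 _).1 t.1.2⟩, by
        exact (Subgroup.orderOf_coe _).symm.trans ((MulEquiv.orderOf_eq (MulAut.conj (g : G)).symm _).trans
          ((Subgroup.orderOf_coe _).trans t.2))⟩
      left_inv := fun t => Subtype.ext (Subtype.ext (by simp [mul_assoc]))
      right_inv := fun t => Subtype.ext (Subtype.ext (by simp [mul_assoc])) }
  map_one' := by ext t; simp
  map_mul' := fun a b => by ext t; simp [mul_assoc]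

theorem ker_act (hab : ∀ a ∈ (P : Subgroup G), ∀ b ∈ (P : Subgroup G), a * b = b * a) :
    (act (P := P)).ker = (centralizer ((P : Subgroup G) : Set G)).subgroupOf _ := by
  ext g
  rw [MonoidHom.mem_ker, mem_subgroupOf]
  constructor
  · intro h
    refine mem_centralizer_of_fix hab g.2 fun t ht ht2 => ?_
    by_cases h1 : t = 1
    · simp [h1]
    have h2 := congrArg (fun q => (((q : Inv P).1 : (P : Subgroup G)) : G))
      (DFunLike.congr_fun h (⟨⟨t, ht⟩, orderOf_eq_prime (Subtype.ext ht2)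
        (fun e => h1 (congrArg Subtype.val e))⟩ : Inv P))
    exact mul_inv_eq_iff_eq_mul.1 h2
  · intro h
    ext t
    show (g : G) * t.1 * (g : G)⁻¹ = t.1
    rw [← mem_centralizer_iff.1 h t.1 t.1.2, mul_inv_cancel_right]

theorem relIndex_dvd {m : ℕ} (hm : 1 ≤ m)
    (e : (P : Subgroup G) ≃* Multiplicative (ZMod (2 ^ m) × ZMod (2 ^ m))) :
    (centralizer ((P : Subgroup G) : Set G)).relIndex (normalizer ((P : Subgroup G) : Set G)) = 1 ∨
      (centralizer ((P : Subgroup G) : Set G)).relIndex (normalizer ((P : Subgroup G) : Set G)) = 3 := by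
  have hab : ∀ a ∈ (P : Subgroup G), ∀ b ∈ (P : Subgroup G), a * b = b * a :=
    fun a ha b hb => comm_of_equiv e ha hb
  have hodd := odd_relIndex hab
  have h : (centralizer ((P : Subgroup G) : Set G)).relIndex
      (normalizer ((P : Subgroup G) : Set G)) ∣ 6 := by
    rw [relIndex, ← ker_act hab, index_ker]
    refine (card_subgroup_dvd_card _).trans ?_
    rw [Nat.card_perm, card_inv hm e]
    rfl
  have hle := Nat.le_of_dvd (by norm_num) h
  interval_cases hk : (centralizer ((P : Subgroup G) : Set G)).relIndex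
      (normalizer ((P : Subgroup G) : Set G)) <;> simp_all (config := { decide := true })

theorem mem_centralizer_of_commute {m : ℕ} (hm : 1 ≤ m)
    (e : (P : Subgroup G) ≃* Multiplicative (ZMod (2 ^ m) × ZMod (2 ^ m)))
    {g : G} (hg : g ∈ normalizer ((P : Subgroup G) : Set G)) {z : G} (hz : z ∈ (P : Subgroup G))
    (hz1 : z ≠ 1) (hgz : g * z = z * g) : g ∈ centralizer ((P : Subgroup G) : Set G) := by
  classical
  have hab : ∀ a ∈ (P : Subgroup G), ∀ b ∈ (P : Subgroup G), a * b = b * a :=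
    fun a ha b hb => comm_of_equiv e ha hb
  -- some power of `z` is an involution
  obtain ⟨k, hk⟩ := IsPGroup.iff_orderOf.1 P.isPGroup' ⟨z, hz⟩
  rcases k with _ | k
  · exact absurd (congrArg Subtype.val (orderOf_eq_one_iff.1 hk)) hz1
  let t₀ : Inv P := ⟨⟨z, hz⟩ ^ 2 ^ k, by
    rw [orderOf_pow' _ (by positivity), hk, Nat.gcd_eq_right (pow_dvd_pow 2 (Nat.le_succ k)),
      pow_succ, Nat.mul_div_cancel_left _ (by positivity)]⟩
  obtain ⟨n, hn, hgn⟩ := exists_odd_pow hab hg
  set σ := act (P := P) ⟨g, hg⟩ with hσ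
  have hσ0 : σ t₀ = t₀ := by
    refine Subtype.ext (Subtype.ext ?_)
    show g * z ^ 2 ^ k * g⁻¹ = z ^ 2 ^ k
    rw [((show Commute g z from hgz).pow_right _).eq, mul_inv_cancel_right]
  have hσn : σ ^ n = 1 := by
    rw [hσ, ← map_pow]
    exact MonoidHom.mem_ker.1 (by rw [ker_act hab]; exact hgn)
  haveI : Fintype (Inv P) := Fintype.ofFinite _
  have hσ1 : σ = 1 := by
    refine orderOf_eq_one_iff.1 ?_
    have h1 : σ.support ⊆ Finset.univ.erase t₀ := fun t ht =>
      Finset.mem_erase.2 ⟨fun e => Equiv.Perm.mem_support.1 ht (e ▸ hσ0), Finset.mem_univ t⟩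
    have h2 : σ.support.card ≤ 2 := by
      refine (Finset.card_le_card h1).trans ?_
      rw [Finset.card_erase_of_mem (Finset.mem_univ _), Finset.card_univ, ← Nat.card_eq_fintype_card,
        card_inv hm e]
    have h3 : σ = 1 ∨ orderOf σ = 2 := by
      rcases Nat.lt_or_ge σ.support.card 2 with h | h
      · exact .inl (Equiv.Perm.support_eq_empty_iff.1 (Finset.card_eq_zero.1 (by
          have := Equiv.Perm.card_support_ne_one σ; omega)))
      · exact .inr (Equiv.Perm.IsSwap.orderOf (Equiv.Perm.card_support_eq_two.1 (le_antisymm h2 h)))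
    rcases h3 with h | h
    · rw [h]; exact orderOf_one
    · exfalso
      exact Nat.not_even_iff_odd.2 hn (even_iff_two_dvd.2 (h ▸ orderOf_dvd_of_pow_eq_one hσn))
  have := MonoidHom.mem_ker.2 hσ1
  rw [ker_act hab, mem_subgroupOf] at this
  exact this

theorem centralizer_singleton_inf {m : ℕ} (hm : 1 ≤ m)
    (e : (P : Subgroup G) ≃* Multiplicative (ZMod (2 ^ m) × ZMod (2 ^ m))) {z : G}
    (hz : z ∈ (P : Subgroup G)) (hz1 : z ≠ 1) :
    centralizer ({z} : Set G) ⊓ normalizer ((P : Subgroup G) : Set G) =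
      centralizer ((P : Subgroup G) : Set G) := by
  refine le_antisymm (fun g hg => ?_) (le_inf ?_ (centralizer_le_normalizer _))
  · exact mem_centralizer_of_commute hm e hg.2 hz hz1
      (mem_centralizer_iff.1 hg.1 z rfl).symm
  · exact centralizer_le (Set.singleton_subset_iff.2 hz)

theorem complement_or_isConj {m : ℕ} (hm : 1 ≤ m)
    (e : (P : Subgroup G) ≃* Multiplicative (ZMod (2 ^ m) × ZMod (2 ^ m))) :
    (∃ N : Subgroup G, N.Normal ∧ IsComplement' N (P : Subgroup G)) ∨
      ∀ s t : G, orderOf s = 2 → orderOf t = 2 → IsConj s t := by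
  haveI : Fact (Nat.Prime 2) := ⟨Nat.prime_two⟩
  have hab : ∀ a ∈ (P : Subgroup G), ∀ b ∈ (P : Subgroup G), a * b = b * a :=
    fun a ha b hb => comm_of_equiv e ha hb
  rcases relIndex_dvd hm e with h | h
  · exact .inl ⟨_, inferInstance,
      MonoidHom.ker_transferSylow_isComplement' P (relIndex_eq_one.1 h)⟩
  right
  have hcard : Nat.card (act (P := P)).range = Nat.card (Inv P) := by
    rw [card_inv hm e, ← index_ker, ker_act hab]
    exact h
  have htrans : ∀ t₁ t₂ : Inv P, IsConj (((t₁ : Inv P).1 : (P : Subgroup G)) : G)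
      (((t₂ : Inv P).1 : (P : Subgroup G)) : G) := by
    intro t₁ t₂
    have hinj : Function.Injective
        (fun σ : (act (P := P)).range => (σ : Equiv.Perm (Inv P)) t₁) := by
      rintro ⟨_, a, rfl⟩ ⟨_, b, rfl⟩ hab'
      refine Subtype.ext ?_
      show act a = act b
      have h1 : act (b⁻¹ * a) t₁ = t₁ := by
        rw [map_mul, Equiv.Perm.mul_apply, show act a t₁ = act b t₁ from hab', map_inv]
        exact (act b).symm_apply_apply t₁
      have h2 : act (b⁻¹ * a) = 1 := by
        rw [← MonoidHom.mem_ker, ker_act hab, mem_subgroupOf]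
        refine mem_centralizer_of_commute hm e (b⁻¹ * a).2 t₁.1.2 ?_ ?_
        · intro h0
          have := t₁.2
          rw [show (t₁.1 : (P : Subgroup G)) = 1 from Subtype.ext h0, orderOf_one] at this
          omega
        · exact mul_inv_eq_iff_eq_mul.1
            (congrArg (fun q : Inv P => ((q.1 : (P : Subgroup G)) : G)) h1)
      rw [map_mul, map_inv] at h2
      exact (inv_mul_eq_one.1 h2).symm
    obtain ⟨⟨_, g, rfl⟩, hg⟩ := (hinj.bijective_of_nat_card_le hcard.ge).2 t₂
    exact isConj_iff.2 ⟨g, congrArg (fun q : Inv P => ((q.1 : (P : Subgroup G)) : G)) hg⟩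
  have key : ∀ s : G, orderOf s = 2 →
      ∃ t : Inv P, IsConj s ((t.1 : (P : Subgroup G)) : G) := by
    intro s hs
    have hp : IsPGroup 2 (zpowers s) := IsPGroup.of_card (n := 1) (by rw [Nat.card_zpowers, hs, pow_one])
    obtain ⟨Q, hQ⟩ := hp.exists_le_sylow
    obtain ⟨g, hg⟩ := MulAction.exists_smul_eq G Q P
    have hmem : MulAut.conj g s ∈ (P : Subgroup G) := by
      rw [← hg]
      exact smul_mem_pointwise_smul s (MulAut.conj g) _ (hQ (mem_zpowers s))
    refine ⟨⟨⟨MulAut.conj g s, hmem⟩, ?_⟩, isConj_iff.2 ⟨g, rfl⟩⟩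
    rw [← Subgroup.orderOf_coe]
    exact (MulEquiv.orderOf_eq _ s).trans hs
  intro s t hs ht
  obtain ⟨a, ha⟩ := key s hs
  obtain ⟨b, hb⟩ := key t ht
  exact ha.trans ((htrans a b).trans hb.symm)

end Cfsg.Agent.Blocks.Homocyclic
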