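import Mathlib.LinearAlgebra.Matrix.Rank
import Mathlib.LinearAlgebra.Matrix.ToLin
import Mathlib.RingTheory.Idempotents
import Mathlib.LinearAlgebra.FiniteDimensional.Lemmas
import Mathlib.Algebra.Ring.GeomSum
import Mathlib.LinearAlgebra.Matrix.Trace

/-!
Ranks of idempotent matrices, and their transfer along a surjection with nil kernel: if
`π : A → Π Mat_{d i}` is onto with nil kernel, the rank of the image of an idempotent in any
matrix representation of `A` is a natural combination of the ranks of its components.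
-/

set_option autoImplicit false
set_option linter.unusedSectionVars false
set_option linter.style.haveILetI false
set_option linter.unusedSimpArgs false

namespace Cfsg.Agent.Blocks.IdemRank

open Matrix Module

variable {k : Type*} [Field k]

/-- Factorisation of an idempotent matrix. -/
theorem exists_factor {n : ℕ} {f : Matrix (Fin n) (Fin n) k} (hf : IsIdempotentElem f) :
    f.rank ≤ n ∧ ∃ (C : Matrix (Fin n) (Fin f.rank) k) (R : Matrix (Fin f.rank) (Fin n) k),
      C * R = f ∧ R * C = 1 := by
  classical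
  set L := Matrix.toLin' f with hL
  have hr : finrank k (LinearMap.range L) = f.rank := rfl
  let b : Basis (Fin f.rank) k (LinearMap.range L) := Module.finBasisOfFinrankEq k _ hr
  let C : (Fin f.rank → k) →ₗ[k] (Fin n → k) :=
    (LinearMap.range L).subtype ∘ₗ b.equivFun.symm.toLinearMap
  let R : (Fin n → k) →ₗ[k] (Fin f.rank → k) := b.equivFun.toLinearMap ∘ₗ L.rangeRestrict
  refine ⟨by simpa using Matrix.rank_le_card_width f, LinearMap.toMatrix' C, LinearMap.toMatrix' R,
    ?_, ?_⟩
  · rw [← LinearMap.toMatrix'_comp, show C ∘ₗ R = L from ?_, hL, LinearMap.toMatrix'_toLin']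
    refine LinearMap.ext fun x => ?_
    simp [C, R]
  · rw [← LinearMap.toMatrix'_comp, show R ∘ₗ C = LinearMap.id from ?_, LinearMap.toMatrix'_id]
    refine LinearMap.ext fun x => ?_
    simp only [C, R, LinearMap.comp_apply, LinearEquiv.coe_coe, Submodule.subtype_apply,
      LinearMap.id_apply]
    obtain ⟨y, hy⟩ := (b.equivFun.symm x).2
    have h2 : L.rangeRestrict ((b.equivFun.symm x : LinearMap.range L) : Fin n → k) =
        b.equivFun.symm x := Subtype.ext (by
      show L _ = _
      rw [← hy, ← LinearMap.comp_apply, hL, ← Matrix.toLin'_mul, hf.eq])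
    rw [h2, LinearEquiv.apply_symm_apply]

/-- The trace of an idempotent is its rank. -/
theorem trace_eq_rank {n : ℕ} {f : Matrix (Fin n) (Fin n) k} (hf : IsIdempotentElem f) :
    f.trace = (f.rank : k) := by
  obtain ⟨-, C, R, h1, h2⟩ := exists_factor hf
  calc f.trace = (C * R).trace := by rw [h1]
    _ = (R * C).trace := Matrix.trace_mul_comm C R
    _ = _ := by rw [h2, Matrix.trace_one, Fintype.card_fin]

theorem rank_mul_mul_le {n : ℕ} (A B C : Matrix (Fin n) (Fin n) k) :
    (A * B * C).rank ≤ B.rank :=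
  (Matrix.rank_mul_le_left _ _).trans (Matrix.rank_mul_le_right _ _)

theorem rank_add_orth {n : ℕ} {P Q : Matrix (Fin n) (Fin n) k} (hP : IsIdempotentElem P)
    (hQ : IsIdempotentElem Q) (hPQ : P * Q = 0) (hQP : Q * P = 0) :
    (P + Q).rank = P.rank + Q.rank := by
  have hr : ∀ A : Matrix (Fin n) (Fin n) k, A.rank = finrank k (LinearMap.range A.toLin') :=
    fun _ => rfl
  have happ : ∀ (A B : Matrix (Fin n) (Fin n) k) x, A.toLin' (B.toLin' x) = (A * B).toLin' x :=
    fun A B x => by rw [Matrix.toLin'_mul]; rfl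
  have hrange : LinearMap.range (P + Q).toLin' =
      LinearMap.range P.toLin' ⊔ LinearMap.range Q.toLin' := by
    refine le_antisymm ?_ (sup_le ?_ ?_)
    · rintro _ ⟨x, rfl⟩
      rw [map_add, LinearMap.add_apply]
      exact Submodule.add_mem_sup ⟨x, rfl⟩ ⟨x, rfl⟩
    · rintro _ ⟨x, rfl⟩
      exact ⟨P.toLin' x, by rw [happ, add_mul, hP.eq, hQP, add_zero]⟩
    · rintro _ ⟨x, rfl⟩
      exact ⟨Q.toLin' x, by rw [happ, add_mul, hQ.eq, hPQ, zero_add]⟩
  have hdisj : LinearMap.range P.toLin' ⊓ LinearMap.range Q.toLin' = ⊥ := by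
    rw [eq_bot_iff]
    rintro x ⟨⟨y, hy⟩, z, hz⟩
    have h1 : P.toLin' x = x := by rw [← hy, happ, hP.eq]
    rw [Submodule.mem_bot, ← h1, ← hz, happ, hPQ, map_zero, LinearMap.zero_apply]
  rw [hr, hr, hr, hrange, ← Submodule.finrank_sup_add_finrank_inf_eq, hdisj, finrank_bot,
    add_zero]

theorem rank_sum_orth {n : ℕ} {ι : Type*} (s : Finset ι) {E : ι → Matrix (Fin n) (Fin n) k}
    (hE : OrthogonalIdempotents E) : (∑ i ∈ s, E i).rank = ∑ i ∈ s, (E i).rank := by
  classical
  induction s using Finset.induction_on with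
  | empty => simp
  | @insert a s ha ih =>
    rw [Finset.sum_insert ha, Finset.sum_insert ha, ← ih]
    exact rank_add_orth (hE.idem a) hE.isIdempotentElem_sum (hE.mul_sum_of_notMem ha)
      (by rw [Finset.sum_mul]
          exact Finset.sum_eq_zero fun j hj => hE.ortho fun h => ha (h ▸ hj))

variable {A : Type*} [Ring A] [Algebra k A] {s : ℕ} {d : Fin s → ℕ}

/-- Comparison of ranks of idempotents through a map with nil kernel. -/
theorem rank_le_of_factor (π : A →ₐ[k] Π i, Matrix (Fin (d i)) (Fin (d i)) k)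
    (hnil : ∀ x, π x = 0 → IsNilpotent x) {n : ℕ} (Ψ : A →ₐ[k] Matrix (Fin n) (Fin n) k)
    {e e' u v : A} (he : IsIdempotentElem e) (h : π (u * e' * v) = π e) :
    (Ψ e).rank ≤ (Ψ e').rank := by
  set y := e * (u * e' * v) * e with hy
  set x := e - y with hx
  have hex : e * x = x := by
    rw [hx, mul_sub, he.eq, hy, ← mul_assoc e (e * (u * e' * v)) e, ← mul_assoc e e, he.eq]
  obtain ⟨N, hN⟩ := hnil x (by
    rw [hx, hy, map_sub, map_mul, map_mul, h, ← map_mul, he.eq, ← map_mul, he.eq, sub_self])
  have hw : (1 - x) * (∑ j ∈ Finset.range N, x ^ j) = 1 := by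
    rw [mul_neg_geom_sum, hN, sub_zero]
  have hey : e = y * ∑ j ∈ Finset.range N, x ^ j := by
    rw [show y = e * (1 - x) by rw [mul_sub, mul_one, hex, hx, sub_sub_cancel], mul_assoc, hw,
      mul_one]
  rw [hey, hy, show e * (u * e' * v) * e * ∑ j ∈ Finset.range N, x ^ j =
    (e * u) * e' * (v * e * ∑ j ∈ Finset.range N, x ^ j) by simp only [mul_assoc], map_mul, map_mul]
  exact rank_mul_mul_le _ _ _

/-- Ranks of idempotents in an arbitrary representation. -/
theorem exists_mult (π : A →ₐ[k] Π i, Matrix (Fin (d i)) (Fin (d i)) k)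
    (hπ : Function.Surjective π) (hd : ∀ i, NeZero (d i))
    (hnil : ∀ x, π x = 0 → IsNilpotent x) {n : ℕ} (Ψ : A →ₐ[k] Matrix (Fin n) (Fin n) k) :
    ∃ m : Fin s → ℕ, ∀ e : A, IsIdempotentElem e →
      (Ψ e).rank = ∑ i, m i * (π e i).rank := by
  classical
  haveI := hd
  let E : (Σ i, Fin (d i)) → Π i, Matrix (Fin (d i)) (Fin (d i)) k :=
    fun x => Pi.single x.1 (Matrix.single x.2 x.2 1)
  have hE : OrthogonalIdempotents E := by
    refine ⟨fun x => ?_, fun x y hxy => ?_⟩
    · show E x * E x = E x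
      simp only [E]
      rw [← Pi.single_mul, Matrix.single_mul_single_same, mul_one]
    · show E x * E y = 0
      obtain ⟨i, a⟩ := x
      obtain ⟨j, b⟩ := y
      simp only [E]
      by_cases hij : i = j
      · subst hij
        rw [← Pi.single_mul, Matrix.single_mul_single_of_ne _ _ _ _ (fun h => hxy (by rw [h])),
          Pi.single_zero]
      · funext l
        by_cases hli : l = i
        · subst hli
          rw [Pi.mul_apply, Pi.single_eq_of_ne hij, mul_zero, Pi.zero_apply]
        · rw [Pi.mul_apply, Pi.single_eq_of_ne hli, zero_mul, Pi.zero_apply]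
  obtain ⟨E', hE', hcomp⟩ := hE.lift_of_isNilpotent_ker π.toRingHom
    (fun x hx => hnil x hx) fun x => ⟨(hπ _).choose, (hπ _).choose_spec⟩
  have hπE : ∀ x, π (E' x) = E x := fun x => congrFun hcomp x
  refine ⟨fun i => (Ψ (E' ⟨i, 0⟩)).rank, fun e he => ?_⟩
  have hsame : ∀ i a, (Ψ (E' ⟨i, a⟩)).rank = (Ψ (E' ⟨i, 0⟩)).rank := by
    have key : ∀ i (a b : Fin (d i)), (Ψ (E' ⟨i, a⟩)).rank ≤ (Ψ (E' ⟨i, b⟩)).rank := by
      intro i a b
      obtain ⟨u, hu⟩ := hπ (Pi.single i (Matrix.single a b 1))
      obtain ⟨v, hv⟩ := hπ (Pi.single i (Matrix.single b a 1))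
      refine rank_le_of_factor π hnil Ψ (hE'.idem _) (u := u) (v := v) ?_
      rw [map_mul, map_mul, hu, hv, hπE, hπE]
      simp only [E]
      rw [← Pi.single_mul, ← Pi.single_mul, Matrix.single_mul_single_same,
        Matrix.single_mul_single_same, mul_one, mul_one]
    exact fun i a => le_antisymm (key i a 0) (key i 0 a)
  have hf : ∀ i, IsIdempotentElem (π e i) := fun i => by
    show π e i * π e i = π e i
    rw [← Pi.mul_apply, ← map_mul, he.eq]
  choose hle C R hCR hRC using fun i => exists_factor (hf i)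
  let J : ∀ i, Matrix (Fin (π e i).rank) (Fin (d i)) k :=
    fun i => Matrix.of fun a b => if (b : ℕ) = a then 1 else 0
  have hJJ : ∀ i, J i * (J i)ᵀ = 1 := fun i => by
    ext a b
    rw [Matrix.mul_apply, Finset.sum_eq_single ⟨(a : ℕ), a.2.trans_le (hle i)⟩]
    · simp [J, Matrix.one_apply, Fin.ext_iff, eq_comm]
    · intro c _ hc
      have : (c : ℕ) ≠ a := fun h => hc (Fin.ext h)
      simp [J, this]
    · simp
  let S : Finset (Σ i, Fin (d i)) := Finset.univ.sigma fun i =>
    Finset.univ.filter fun a : Fin (d i) => (a : ℕ) < (π e i).rank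
  have hD : ∀ i, π (∑ x ∈ S, E' x) i = (J i)ᵀ * J i := fun i => by
    rw [map_sum, Finset.sum_apply, Finset.sum_sigma, Finset.sum_eq_single i]
    · ext a b
      rw [Matrix.sum_apply, Matrix.mul_apply]
      simp only [hπE, E, Pi.single_eq_same, Finset.sum_filter, J, Matrix.transpose_apply,
        Matrix.of_apply]
      by_cases hab : a = b
      · subst hab
        rw [Finset.sum_eq_single a]
        · by_cases ha : (a : ℕ) < (π e i).rank
          · rw [if_pos ha, Matrix.single_apply_same, Finset.sum_eq_single ⟨(a : ℕ), ha⟩]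
            · simp
            · intro c _ hc
              have : (a : ℕ) ≠ c := fun h => hc (Fin.ext h.symm)
              simp [this]
            · simp
          · rw [if_neg ha]
            refine (Finset.sum_eq_zero fun c _ => ?_).symm
            have : (a : ℕ) ≠ c := fun h => ha (h ▸ c.2)
            simp [this]
        · intro c _ hc
          simp [Matrix.single_apply, hc]
        · simp
      · rw [Finset.sum_eq_zero, Finset.sum_eq_zero]
        · intro c _
          have hab' : (a : ℕ) ≠ b := fun h => hab (Fin.ext h)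
          by_cases hac : (a : ℕ) = c
          · rw [if_neg (show (b : ℕ) ≠ c from hac ▸ Ne.symm hab'), mul_zero]
          · rw [if_neg hac, zero_mul]
        · intro c _
          split_ifs
          · simp only [Matrix.single_apply]
            rw [if_neg]
            rintro ⟨rfl, rfl⟩
            exact hab rfl
          · rfl
    · intro j _ hj
      refine Finset.sum_eq_zero fun a _ => ?_
      rw [hπE]
      exact Pi.single_eq_of_ne (Ne.symm hj) _
    · simp
  obtain ⟨u, hu⟩ := hπ fun i => C i * J i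
  obtain ⟨v, hv⟩ := hπ fun i => (J i)ᵀ * R i
  have h1 : π (u * (∑ x ∈ S, E' x) * v) = π e := funext fun i => by
    rw [map_mul, map_mul, Pi.mul_apply, Pi.mul_apply, hu, hv, hD]
    calc C i * J i * ((J i)ᵀ * J i) * ((J i)ᵀ * R i)
        = C i * (J i * (J i)ᵀ) * (J i * (J i)ᵀ) * R i := by simp only [Matrix.mul_assoc]
      _ = _ := by rw [hJJ, Matrix.mul_one, Matrix.mul_one, hCR]
  have h2 : π (v * e * u) = π (∑ x ∈ S, E' x) := funext fun i => by
    rw [map_mul, map_mul, Pi.mul_apply, Pi.mul_apply, hu, hv, hD]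
    calc (J i)ᵀ * R i * π e i * (C i * J i)
        = (J i)ᵀ * R i * (C i * R i) * (C i * J i) := by rw [hCR]
      _ = (J i)ᵀ * (R i * C i) * (R i * C i) * J i := by simp only [Matrix.mul_assoc]
      _ = _ := by rw [hRC, Matrix.mul_one, Matrix.mul_one]
  rw [le_antisymm (rank_le_of_factor π hnil Ψ he h1)
      (rank_le_of_factor π hnil Ψ hE'.isIdempotentElem_sum h2),
    map_sum, rank_sum_orth (E := fun x => Ψ (E' x)) S (hE'.map Ψ.toRingHom), Finset.sum_sigma]
  refine Finset.sum_congr rfl fun i _ => ?_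
  rw [Finset.sum_congr rfl fun a _ => (hsame i a : _), Finset.sum_const, smul_eq_mul, mul_comm]
  congr 1
  rw [Fin.card_filter_val_lt, Nat.min_eq_right (hle i)]

end Cfsg.Agent.Blocks.IdemRank
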