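import Cfsg.Agent.Blocks.Height
import Cfsg.Agent.BlockChar.Bridge
import Mathlib.GroupTheory.Nilpotent

/-!
A character vanishing on all elements of order `p` has defect zero.
-/

namespace Cfsg.Agent.Blocks

open Cfsg Cfsg.Agent

set_option linter.style.haveILetI false
set_option linter.unusedSectionVars false
set_option linter.unusedVariables false
set_option maxHeartbeats 1000000

universe u

theorem isNilpotent_add_mul {R : Type*} [Ring R] {A Y Z : R} (hA : IsNilpotent A)
    (hZ : IsNilpotent Z) (hZA : Commute Z A) (hZY : Commute Z Y) : IsNilpotent (A + Y * Z) := by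
  obtain ⟨m, hm⟩ := hA
  obtain ⟨k, hk⟩ := hZ
  have key : ∀ j : ℕ, ∃ W, Commute Z W ∧ (A + Y * Z) ^ j = A ^ j + W * Z := by
    intro j
    induction j with
    | zero => exact ⟨0, Commute.zero_right Z, by simp⟩
    | succ j ih =>
      obtain ⟨W, hW, he⟩ := ih
      refine ⟨A ^ j * Y + W * A + W * Y * Z,
        (((hZA.pow_right j).mul_right hZY).add_right (hW.mul_right hZA)).add_right
          ((hW.mul_right hZY).mul_right (Commute.refl Z)), ?_⟩
      rw [pow_succ, he, pow_succ]
      simp only [add_mul, mul_add, mul_assoc]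
      rw [hZA.eq, ← mul_assoc Z Y Z, hZY.eq, mul_assoc Y Z Z]
      abel
  obtain ⟨W, hW, he⟩ := key m
  rw [hm, zero_add] at he
  refine ⟨m * k, ?_⟩
  rw [pow_mul, he, (hW.symm).mul_pow, hk, mul_zero]

theorem isNilpotent_sum_mul {R : Type*} [Ring R] {ι : Type*} (s : Finset ι) (Y Z : ι → R)
    (hn : ∀ i ∈ s, IsNilpotent (Z i)) (hY : ∀ i ∈ s, ∀ j ∈ s, Commute (Z i) (Y j))
    (hZ : ∀ i ∈ s, ∀ j ∈ s, Commute (Z i) (Z j)) : IsNilpotent (∑ i ∈ s, Y i * Z i) := by
  classical
  induction s using Finset.induction_on with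
  | empty => simp
  | insert i s hi ih =>
    rw [Finset.sum_insert hi, add_comm]
    refine isNilpotent_add_mul (ih (fun j hj => hn j (Finset.mem_insert_of_mem hj))
      (fun a ha b hb => hY a (Finset.mem_insert_of_mem ha) b (Finset.mem_insert_of_mem hb))
      (fun a ha b hb => hZ a (Finset.mem_insert_of_mem ha) b (Finset.mem_insert_of_mem hb)))
      (hn i (Finset.mem_insert_self i s)) ?_
      (hY i (Finset.mem_insert_self i s) i (Finset.mem_insert_self i s))
    exact Commute.sum_right _ _ _ fun j hj =>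
      (hY i (Finset.mem_insert_self i s) j (Finset.mem_insert_of_mem hj)).mul_right
        (hZ i (Finset.mem_insert_self i s) j (Finset.mem_insert_of_mem hj))

variable {M : Ideal AlgInt} [M.IsMaximal]

/-- A sum over a set with a group action is congruent to the sum over the fixed points, when the
orbit sums outside are in the ideal. -/
theorem sum_congr_fixed {D : Type*} [Group D] {X : Type*} [Fintype X] [MulAction D X]
    [DecidablePred (· ∈ MulAction.fixedPoints D X)] (φ : X → ℂ)
    (hφ : ∀ (d : D) x, φ (d • x) = φ x)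
    (hI : ∀ x, x ∉ MulAction.fixedPoints D X →
      MemLocalIdeal M ((Nat.card (MulAction.orbit D x) : ℂ) * φ x)) :
    MemLocalIdeal M (∑ x, φ x -
      ∑ x ∈ Finset.univ.filter (· ∈ MulAction.fixedPoints D X), φ x) := by
  classical
  rw [← Finset.sum_filter_add_sum_filter_not Finset.univ (· ∈ MulAction.fixedPoints D X) φ,
    add_sub_cancel_left]
  haveI : Fintype (MulAction.orbitRel.Quotient D X) := Fintype.ofFinite _
  rw [← Finset.sum_fiberwise (Finset.univ.filter fun x => x ∉ MulAction.fixedPoints D X)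
    (fun x => (Quotient.mk'' x : MulAction.orbitRel.Quotient D X)) φ]
  refine memI_sum _ _ fun ω _ => ?_
  induction ω using Quotient.inductionOn' with
  | h x =>
    by_cases hx : x ∈ MulAction.fixedPoints D X
    · rw [Finset.sum_eq_zero]
      · exact memI_zero
      intro y hy
      simp only [Finset.mem_filter, Finset.mem_univ, true_and] at hy
      obtain ⟨d, hd⟩ := MulAction.orbitRel_apply.1 (Quotient.eq''.1 hy.2)
      exact absurd (by rw [← hd]; show d • x ∈ _; rw [hx d]; exact hx) hy.1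
    · have hfib : Finset.filter (fun y => (Quotient.mk'' y : MulAction.orbitRel.Quotient D X) =
          Quotient.mk'' x) (Finset.univ.filter fun y => y ∉ MulAction.fixedPoints D X) =
          (MulAction.orbit D x).toFinset := by
        ext y
        simp only [Finset.mem_filter, Finset.mem_univ, true_and, Set.mem_toFinset]
        constructor
        · exact fun h => MulAction.orbitRel_apply.1 (Quotient.eq''.1 h.2)
        · intro h
          refine ⟨fun hy => hx ?_, Quotient.eq''.2 (MulAction.orbitRel_apply.2 h)⟩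
          obtain ⟨d, rfl⟩ := h
          intro e
          have h1 := hy (d * e * d⁻¹)
          rw [← mul_smul, inv_mul_cancel_right, mul_smul] at h1
          exact MulAction.injective d h1
      rw [hfib, Finset.sum_congr rfl (g := fun _ => φ x) (fun y hy => by
        obtain ⟨d, rfl⟩ := Set.mem_toFinset.1 hy; exact hφ d x), Finset.sum_const,
        Set.toFinset_card, ← Nat.card_eq_fintype_card, nsmul_eq_mul]
      exact hI x hx

section lattice

variable {G : Type u} [Group G] [Fintype G] {p : ℕ} [Fact p.Prime] {n : ℕ}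

/-- The embedding of matrices over the local ring. -/
noncomputable abbrev emb (M : Ideal AlgInt) [M.IsPrime] (n : ℕ) :
    Matrix (Fin n) (Fin n) (loc M) →+* Matrix (Fin n) (Fin n) ℂ := (loc M).subtype.mapMatrix

theorem memR_trace_emb (c : Matrix (Fin n) (Fin n) (loc M)) :
    MemLocalRing M (emb M n c).trace := memR_sum _ _ fun i _ => (c i i).2

variable (ρ : G →* Matrix (Fin n) (Fin n) (loc M))

/-- The normalised trace at a subgroup. -/
noncomputable def tq (D : Subgroup G) (c : Matrix (Fin n) (Fin n) (loc M)) : ℂ :=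
  (D.index : ℂ) * (emb M n c).trace / n

theorem tq_add (D : Subgroup G) (a b : Matrix (Fin n) (Fin n) (loc M)) :
    tq D (a + b) = tq D a + tq D b := by
  simp only [tq, map_add, Matrix.trace_add]; ring

theorem tq_sum (D : Subgroup G) {ι : Type*} (s : Finset ι)
    (f : ι → Matrix (Fin n) (Fin n) (loc M)) : tq D (∑ i ∈ s, f i) = ∑ i ∈ s, tq D (f i) := by
  simp only [tq, map_sum, Matrix.trace_sum, Finset.mul_sum, Finset.sum_div]

/-- Commuting with the subgroup. -/
def Fix (D : Subgroup G) (c : Matrix (Fin n) (Fin n) (loc M)) : Prop :=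
  ∀ d ∈ D, Commute (ρ d) c

/-- Conjugation by an element. -/
noncomputable def cjm (g : G) (c : Matrix (Fin n) (Fin n) (loc M)) :
    Matrix (Fin n) (Fin n) (loc M) := ρ g * c * ρ g⁻¹

theorem cjm_mul (g : G) (a b : Matrix (Fin n) (Fin n) (loc M)) :
    cjm ρ g (a * b) = cjm ρ g a * cjm ρ g b := by
  simp only [cjm, mul_assoc]
  rw [← mul_assoc (ρ g⁻¹) (ρ g), ← map_mul, inv_mul_cancel, map_one, one_mul]

theorem cjm_cjm (g h : G) (c : Matrix (Fin n) (Fin n) (loc M)) :
    cjm ρ g (cjm ρ h c) = cjm ρ (g * h) c := by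
  simp only [cjm, mul_inv_rev, map_mul, mul_assoc]

theorem cjm_rho (g x : G) : cjm ρ g (ρ x) = ρ (g * x * g⁻¹) := by simp [cjm, map_mul]

theorem cjm_of_commute {d : G} {c : Matrix (Fin n) (Fin n) (loc M)} (h : Commute (ρ d) c) :
    cjm ρ d c = c := by
  rw [cjm, h.eq, mul_assoc, ← map_mul, mul_inv_cancel, map_one, mul_one]

theorem commute_of_cjm {d : G} {c : Matrix (Fin n) (Fin n) (loc M)} (h : cjm ρ d c = c) :
    Commute (ρ d) c := by
  have h1 := congrArg (· * ρ d) h
  simp only [cjm, mul_assoc, ← map_mul, inv_mul_cancel, map_one, mul_one] at h1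
  exact h1

theorem trace_cjm (g : G) (c : Matrix (Fin n) (Fin n) (loc M)) :
    (emb M n (cjm ρ g c)).trace = (emb M n c).trace := by
  rw [cjm, map_mul, map_mul, Matrix.trace_mul_cycle, ← map_mul, ← map_mul, ← map_mul,
    inv_mul_cancel, map_one, one_mul]

variable (hs : ∀ T : Matrix (Fin n) (Fin n) ℂ, (∀ g, T * emb M n (ρ g) = emb M n (ρ g) * T) →
  ∃ c : ℂ, T = c • 1) (hn : 0 < n)

include hs hn in
theorem sum_cjm_eq_tq {D : Subgroup G} [Fintype (G ⧸ D)]
    {c : Matrix (Fin n) (Fin n) (loc M)} (hc : Fix ρ D c) :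
    emb M n (∑ q : G ⧸ D, cjm ρ q.out c) = tq D c • 1 := by
  set S := ∑ q : G ⧸ D, cjm ρ q.out c with hS
  have hcomm : ∀ g, cjm ρ g S = S := by
    intro g
    rw [hS, cjm, Finset.mul_sum, Finset.sum_mul]
    refine Fintype.sum_equiv (MulAction.toPerm g) _ _ fun q => ?_
    show cjm ρ g (cjm ρ q.out c) = cjm ρ (g • q).out c
    rw [cjm_cjm]
    obtain ⟨d, hd⟩ : ∃ d ∈ D, (g • q).out = g * q.out * d := by
      obtain ⟨d, hd⟩ := QuotientGroup.mk_out_eq_mul D (g * q.out)
      refine ⟨d, d.2, ?_⟩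
      rw [← hd]
      conv_lhs => rw [← QuotientGroup.out_eq' q]
      rfl
    rw [hd.2, ← cjm_cjm ρ (g * q.out) d, cjm_of_commute ρ (hc d hd.1)]
  obtain ⟨s, hs'⟩ := hs (emb M n S) (fun g => by
    rw [← map_mul, ← map_mul, (commute_of_cjm ρ (hcomm g)).eq])
  rw [hs']
  congr 1
  have h1 := congrArg Matrix.trace hs'
  rw [Matrix.trace_smul, Matrix.trace_one, Fintype.card_fin, hS, map_sum, Matrix.trace_sum,
    Finset.sum_congr rfl (fun q _ => trace_cjm ρ _ c), Finset.sum_const, Finset.card_univ,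
    nsmul_eq_mul, smul_eq_mul, ← Nat.card_eq_fintype_card, ← Subgroup.index_eq_card] at h1
  rw [tq, h1, mul_div_cancel_right₀ _ (Nat.cast_ne_zero.2 hn.ne')]

include hs hn in
theorem tq_memR {D : Subgroup G} {c : Matrix (Fin n) (Fin n) (loc M)} (hc : Fix ρ D c) :
    MemLocalRing M (tq D c) := by
  classical
  letI := Fintype.ofFinite (G ⧸ D)
  have h := congrFun (congrFun (sum_cjm_eq_tq ρ hs hn hc) ⟨0, hn⟩) ⟨0, hn⟩
  rw [Matrix.smul_apply, Matrix.one_apply_eq, smul_eq_mul, mul_one] at h
  exact h ▸ ((∑ q : G ⧸ D, cjm ρ q.out c) ⟨0, hn⟩ ⟨0, hn⟩).2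

include hs hn in
theorem tq_memI {D : Subgroup G} {c : Matrix (Fin n) (Fin n) (loc M)} (hc : Fix ρ D c)
    (h0 : (residue M).mapMatrix c = 0) : MemLocalIdeal M (tq D c) := by
  classical
  letI := Fintype.ofFinite (G ⧸ D)
  have h := congrFun (congrFun (sum_cjm_eq_tq ρ hs hn hc) ⟨0, hn⟩) ⟨0, hn⟩
  rw [Matrix.smul_apply, Matrix.one_apply_eq, smul_eq_mul, mul_one] at h
  rw [← h]
  show MemLocalIdeal M (((∑ q : G ⧸ D, cjm ρ q.out c) ⟨0, hn⟩ ⟨0, hn⟩ : loc M) : ℂ)
  rw [← residue_eq_zero_iff]
  have h1 : (residue M).mapMatrix (∑ q : G ⧸ D, cjm ρ q.out c) = 0 := by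
    rw [map_sum]
    exact Finset.sum_eq_zero fun q _ => by rw [cjm, map_mul, map_mul, h0, mul_zero, zero_mul]
  exact congrFun (congrFun h1 ⟨0, hn⟩) ⟨0, hn⟩

variable {D : Subgroup G}
  (hmin : ∀ E : Subgroup G, E < D → ∀ c, Fix ρ E c → MemLocalIdeal M (tq E c))

include hmin in
theorem orbit_term_memI {X : Type*} [Finite X] [MulAction D X] {x : X}
    (hx : x ∉ MulAction.fixedPoints D X) {c : Matrix (Fin n) (Fin n) (loc M)}
    (hc : ∀ d : D, d • x = x → Commute (ρ d) c) :
    MemLocalIdeal M ((Nat.card (MulAction.orbit D x) : ℂ) * tq D c) := by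
  set E : Subgroup G := (MulAction.stabilizer D x).map D.subtype with hE
  have hlt : E < D := by
    refine lt_of_le_of_ne (Subgroup.map_subtype_le _) fun h => hx fun d => ?_
    obtain ⟨d', hd', he⟩ := Subgroup.mem_map.1 ((le_of_eq h.symm) d.2)
    rwa [← Subtype.ext he]
  have h := hmin E hlt c (fun e he => by
    obtain ⟨d', hd', rfl⟩ := Subgroup.mem_map.1 he
    exact hc d' hd')
  have hidx : E.index = Nat.card (MulAction.orbit D x) * D.index := by
    rw [hE, Subgroup.index_map_subtype, MulAction.index_stabilizer, ← Nat.card_coe_set_eq]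
  rw [tq, hidx, Nat.cast_mul] at h
  rw [tq]
  convert h using 1
  ring

include hs hn hmin in
theorem tq_mul_congr {Y W : Matrix (Fin n) (Fin n) (loc M)} (hY : Fix ρ D Y) (hW : Fix ρ D W)
    [Fintype (G ⧸ D)] [DecidablePred (· ∈ MulAction.fixedPoints D (G ⧸ D))] :
    MemLocalIdeal M (tq D Y * tq D W - tq D (Y * ∑ q ∈ Finset.univ.filter
      (· ∈ MulAction.fixedPoints D (G ⧸ D)), cjm ρ q.out W)) := by
  have hout : ∀ (d : D) (q : G ⧸ D), cjm ρ (d • q).out W = cjm ρ d (cjm ρ q.out W) := by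
    intro d q
    obtain ⟨e, he, hd⟩ : ∃ e ∈ D, (d • q).out = (d : G) * q.out * e := by
      obtain ⟨e, he⟩ := QuotientGroup.mk_out_eq_mul D ((d : G) * q.out)
      refine ⟨e, e.2, ?_⟩
      rw [← he]
      conv_lhs => rw [← QuotientGroup.out_eq' q]
      rfl
    rw [hd, ← cjm_cjm ρ ((d : G) * q.out) e, cjm_of_commute ρ (hW e he), cjm_cjm]
  have hinv : ∀ (d : D) (q : G ⧸ D),
      tq D (Y * cjm ρ (d • q).out W) = tq D (Y * cjm ρ q.out W) := by
    intro d q
    rw [hout, tq, tq]
    nth_rw 1 [← cjm_of_commute ρ (hY d d.2)]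
    rw [← cjm_mul, trace_cjm]
  have hsum : ∑ q : G ⧸ D, tq D (Y * cjm ρ q.out W) = tq D Y * tq D W := by
    rw [← tq_sum, ← Finset.mul_sum, tq, tq, map_mul, sum_cjm_eq_tq ρ hs hn hW, Matrix.mul_smul,
      mul_one, Matrix.trace_smul, smul_eq_mul, tq]
    ring
  rw [← hsum, tq_sum' (Y := Y)]
  refine sum_congr_fixed _ hinv fun q hq => orbit_term_memI ρ hmin hq fun d hd => ?_
  refine (hY d d.2).mul_right (commute_of_cjm ρ ?_)
  rw [← hout, hd]
where
  tq_sum' {D : Subgroup G} {Y : Matrix (Fin n) (Fin n) (loc M)} {ι : Type _} {s : Finset ι}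
      {f : ι → Matrix (Fin n) (Fin n) (loc M)} :
      tq D (Y * ∑ i ∈ s, f i) = ∑ i ∈ s, tq D (Y * f i) := by rw [Finset.mul_sum, tq_sum]

end lattice

/-- A character vanishing on all elements of order `p` has defect zero. -/
theorem knorr {G : Type u} [Group G] [Fintype G] {p : ℕ} [Fact p.Prime]
    (hpM : (p : AlgInt) ∈ M) (χ : IrrCharacter G)
    (hvan : ∀ g : G, orderOf g = p → (χ : G → ℂ) g = 0) :
    (charDegree (χ : G → ℂ)).factorization p = (Nat.card G).factorization p := by
  classical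
  have hp := (Fact.out : p.Prime)
  obtain ⟨n, ρc, hn, h1, htr, hρR, hs⟩ := exists_locRep hpM χ.2
  let ρ : G →* Matrix (Fin n) (Fin n) (loc M) :=
    { toFun := fun g => toLoc (ρc g) (hρR g)
      map_one' := by
        refine Matrix.map_injective (Subtype.val_injective) ?_
        show ρc 1 = (loc M).subtype.mapMatrix (1 : Matrix (Fin n) (Fin n) (loc M))
        rw [map_one, map_one]
      map_mul' := fun a b => by
        refine Matrix.map_injective (Subtype.val_injective) ?_
        show ρc (a * b) = (loc M).subtype.mapMatrix (toLoc (ρc a) (hρR a) * toLoc (ρc b) (hρR b))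
        rw [map_mul, map_mul]
        rfl }
  have hemb : ∀ g, emb M n (ρ g) = ρc g := fun g => rfl
  have hs' : ∀ T : Matrix (Fin n) (Fin n) ℂ, (∀ g, T * emb M n (ρ g) = emb M n (ρ g) * T) →
      ∃ c : ℂ, T = c • 1 := fun T hT => hs T hT
  have hdeg : charDegree (χ : G → ℂ) = n := by
    have := (charDegree_eq χ.2).1
    rw [h1] at this
    exact_mod_cast this.symm
  -- the minimal subgroup
  obtain ⟨P⟩ := (inferInstance : Nonempty (Sylow p G))
  let S : Set (Subgroup G) :=
    {D | IsPGroup p D ∧ ∃ b, Fix ρ D b ∧ ¬ MemLocalIdeal M (tq (M := M) (n := n) D b)}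
  have hPS : (P : Subgroup G) ∈ S := by
    refine ⟨P.2, 1, fun d _ => Commute.one_right _, ?_⟩
    rw [tq, map_one, Matrix.trace_one, Fintype.card_fin,
      mul_div_cancel_right₀ _ (Nat.cast_ne_zero.2 hn.ne'), memI_natCast_iff hpM]
    exact P.not_dvd_index
  obtain ⟨D, ⟨hD, b, hb, hbI⟩, hmin'⟩ := S.toFinite.exists_minimal ⟨_, hPS⟩
  have hmin : ∀ E : Subgroup G, E < D → ∀ c, Fix ρ E c → MemLocalIdeal M (tq E c) := by
    intro E hE c hc
    by_contra hI
    exact hE.not_ge (hmin' (y := E) ⟨hD.to_le hE.le, c, hc, hI⟩ hE.le)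
  letI := Fintype.ofFinite (G ⧸ D)
  by_cases hbot : D = ⊥
  · -- defect zero
    rw [hdeg]
    refine le_antisymm ?_ ?_
    · rw [← hdeg]; exact charDegree_factorization_le χ
    by_contra hlt
    apply hbI
    rw [tq, hbot, Subgroup.index_bot, mul_comm, mul_div_assoc]
    refine memI_mul_left (memR_trace_emb b) ?_
    exact natRatio_memI hpM Nat.card_pos.ne' hn.ne' (not_le.1 hlt)
  exfalso
  -- a central element of order `p`
  obtain ⟨z, hzD, hzp, hzc⟩ : ∃ z ∈ D, orderOf z = p ∧ ∀ d ∈ D, Commute z d := by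
    haveI : Group.IsNilpotent D := hD.isNilpotent
    haveI : Nontrivial D := D.nontrivial_iff_ne_bot.2 hbot
    obtain ⟨w, hw, hw1⟩ := (Subgroup.bot_or_exists_ne_one _).resolve_left
      (Group.IsNilpotent.center_ne_bot (G := D))
    obtain ⟨k, hk⟩ := IsPGroup.iff_orderOf.1 hD w
    have hk0 : k ≠ 0 := fun h => hw1 (orderOf_eq_one_iff.1 (by rw [hk, h, pow_zero]))
    refine ⟨((w ^ p ^ (k - 1) : D) : G), SetLike.coe_mem _, ?_, fun d hd => ?_⟩
    · rw [Subgroup.orderOf_coe, orderOf_pow' _ (pow_ne_zero _ hp.ne_zero), hk,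
        Nat.gcd_eq_right (pow_dvd_pow p (Nat.sub_le k 1)), Nat.pow_div (Nat.sub_le k 1) hp.pos,
        show k - (k - 1) = 1 by omega, pow_one]
    · have h : (⟨d, hd⟩ : D) * w ^ p ^ (k - 1) = w ^ p ^ (k - 1) * ⟨d, hd⟩ :=
        Subgroup.mem_center_iff.1 (Subgroup.pow_mem _ hw _) ⟨d, hd⟩
      exact (congrArg Subtype.val h).symm
  -- translation by a central element does not change the functional
  have hcong : ∀ c, Fix ρ D c → MemLocalIdeal M (tq D (c * ρ z) - tq D c) := by
    intro c hc
    set Z := ρ z - 1 with hZ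
    have hzfix : Fix ρ D (ρ z) := fun d hd => by
      show ρ d * ρ z = ρ z * ρ d
      rw [← map_mul, ← map_mul, (hzc d hd).eq]
    have hWfix : Fix ρ D (c * Z) := fun d hd =>
      (hc d hd).mul_right ((hzfix d hd).sub_right (Commute.one_right _))
    have hgoal : tq D (c * ρ z) - tq D c = tq D (c * Z) := by
      rw [sub_eq_iff_eq_add, ← tq_add, hZ, mul_sub, mul_one, sub_add_cancel]
    rw [hgoal]
    set T := ∑ q ∈ Finset.univ.filter (· ∈ MulAction.fixedPoints D (G ⧸ D)), cjm ρ q.out (c * Z)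
      with hT
    have hnorm : ∀ q ∈ MulAction.fixedPoints D (G ⧸ D), ∀ d ∈ D, q.out⁻¹ * d * q.out ∈ D := by
      intro q hq d hd
      have h1 : ((d * q.out : G) : G ⧸ D) = (q.out : G ⧸ D) := by
        have h0 := hq ⟨d, hd⟩
        rw [← QuotientGroup.out_eq' q] at h0
        exact h0
      have h2 := QuotientGroup.eq.1 h1.symm
      rwa [← mul_assoc] at h2
    have hfixq : ∀ q ∈ MulAction.fixedPoints D (G ⧸ D), ∀ a, Fix ρ D a →
        Fix ρ D (cjm ρ q.out a) := by
      intro q hq a ha d hd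
      refine commute_of_cjm ρ ?_
      rw [cjm_cjm, show d * q.out = q.out * (q.out⁻¹ * d * q.out) by group,
        ← cjm_cjm ρ q.out (q.out⁻¹ * d * q.out), cjm_of_commute ρ (ha _ (hnorm q hq d hd))]
    have hTfix : Fix ρ D T := fun d hd => Commute.sum_right _ _ _ fun q hq =>
      hfixq q (Finset.mem_filter.1 hq).2 _ hWfix d hd
    have hconjD : ∀ q ∈ MulAction.fixedPoints D (G ⧸ D), q.out * z * q.out⁻¹ ∈ D := by
      intro q hq
      have hbij : Function.Bijective (fun d : D => (⟨q.out⁻¹ * d * q.out, hnorm q hq d d.2⟩ : D)) :=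
        Finite.injective_iff_bijective.1 fun a b h =>
          Subtype.ext (by simpa using congrArg Subtype.val h)
      obtain ⟨d, hd⟩ := hbij.2 ⟨z, hzD⟩
      have h2 : q.out⁻¹ * d * q.out = z := congrArg Subtype.val hd
      rw [← h2]
      simpa [mul_assoc] using d.2
    have hnil : IsNilpotent ((residue M).mapMatrix T) := by
      rw [hT, map_sum]
      simp only [cjm_mul, map_mul]
      refine isNilpotent_sum_mul _ _ _ (fun q hq => ?_) (fun q hq r hr => ?_) (fun q hq r hr => ?_)
      · have hX : ∀ w : G, w ^ p = 1 → IsNilpotent ((residue M).mapMatrix (ρ w - 1)) := by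
          intro w hw
          haveI : Nonempty (Fin n) := ⟨⟨0, hn⟩⟩
          haveI := BlockChar.charP_res (p := p) (M := M) hpM
          haveI : CharP (Matrix (Fin n) (Fin n) (Res M)) p :=
            charP_of_injective_ringHom (f := Matrix.scalar (Fin n)) (fun _ _ h => Matrix.scalar_inj.1 h) p
          refine ⟨p, ?_⟩
          rw [map_sub, map_one, sub_pow_char_of_commute p (Commute.one_right _), one_pow,
            ← map_pow, ← map_pow, hw, map_one, map_one, sub_self]
        have h2 : cjm ρ q.out Z = ρ (q.out * z * q.out⁻¹) - 1 := by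
          rw [hZ, ← cjm_rho, cjm, cjm, mul_sub, sub_mul, mul_one, ← map_mul ρ q.out q.out⁻¹, mul_inv_cancel,
            map_one]
        rw [h2]
        exact hX _ (by rw [conj_pow, ← hzp, pow_orderOf_eq_one, mul_one, mul_inv_cancel])
      all_goals
        have hq' := (Finset.mem_filter.1 hq).2
        have hr' := (Finset.mem_filter.1 hr).2
        have h2 : cjm ρ q.out Z = ρ (q.out * z * q.out⁻¹) - 1 := by
          rw [hZ, ← cjm_rho, cjm, cjm, mul_sub, sub_mul, mul_one, ← map_mul ρ q.out q.out⁻¹, mul_inv_cancel,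
            map_one]
        rw [h2]
        refine Commute.map ?_ _
        refine Commute.sub_left ?_ (Commute.one_left _)
      · exact hfixq r hr' c hc _ (hconjD q hq')
      · exact hfixq r hr' Z (fun d hd => (hzfix d hd).sub_right (Commute.one_right _)) _
          (hconjD q hq')
    have hpow : ∀ m : ℕ, Fix ρ D (b * T ^ m) ∧
        MemLocalIdeal M (tq D b * tq D (c * Z) ^ m - tq D (b * T ^ m)) := by
      intro m
      induction m with
      | zero => exact ⟨by simpa using hb, by simpa using memI_zero⟩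
      | succ m ih =>
        refine ⟨fun d hd => (hb d hd).mul_right ((hTfix d hd).pow_right _), ?_⟩
        have h2 := tq_mul_congr ρ hs' hn hmin ih.1 hWfix
        rw [← hT, mul_assoc, ← pow_succ] at h2
        have h3 := memI_mul_right ih.2 (tq_memR ρ hs' hn hWfix)
        have h4 := memI_add h3 h2
        rw [pow_succ]
        convert h4 using 1
        ring
    obtain ⟨m, hm⟩ := hnil
    obtain ⟨hfixm, hm2⟩ := hpow m
    have h5 : MemLocalIdeal M (tq D (b * T ^ m)) :=
      tq_memI ρ hs' hn hfixm (by rw [map_mul, map_pow, hm, mul_zero])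
    have h6 := (memI_iff_of_sub hm2).2 h5
    by_contra hcI
    have hpowI : ∀ j : ℕ, ¬ MemLocalIdeal M (tq D (c * Z) ^ j) := by
      intro j
      induction j with
      | zero => rw [pow_zero]; exact not_memI_one
      | succ j ih =>
        rw [pow_succ]
        exact not_memI_mul (memR_pow (tq_memR ρ hs' hn hWfix) _) (tq_memR ρ hs' hn hWfix) ih hcI
    exact not_memI_mul (tq_memR ρ hs' hn hb) (memR_pow (tq_memR ρ hs' hn hWfix) _) hbI (hpowI m) h6
  -- the sum over the elements with `g ^ p = 1`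
  apply hbI
  let act' : D →* Equiv.Perm {g : G // g ^ p = 1} :=
    { toFun := fun d => (MulAut.conj (d : G)).toEquiv.subtypeEquiv fun g => by
        show _ ↔ ((MulAut.conj (d : G)) g) ^ p = 1
        rw [← map_pow, map_eq_one_iff _ (MulAut.conj (d : G)).injective]
      map_one' := by ext g; simp
      map_mul' := fun a b => by ext g; simp [mul_assoc] }
  letI : MulAction D {g : G // g ^ p = 1} := MulAction.compHom _ act'
  have hsmul : ∀ (d : D) (g : {g : G // g ^ p = 1}),
      ((d • g : {g : G // g ^ p = 1}) : G) = (d : G) * g * (d : G)⁻¹ := fun d g => rfl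
  let φ : {g : G // g ^ p = 1} → ℂ := fun g => tq D (b * ρ g)
  have hφ : ∀ (d : D) g, φ (d • g) = φ g := by
    intro d g
    simp only [φ, hsmul, tq, ← cjm_rho]
    nth_rw 1 [← cjm_of_commute ρ (hb d d.2)]
    rw [← cjm_mul, trace_cjm]
  have hfix : ∀ g, g ∈ MulAction.fixedPoints D {g : G // g ^ p = 1} ↔
      ∀ d ∈ D, Commute d (g : G) := by
    intro g
    constructor
    · intro h d hd
      have h1 := congrArg Subtype.val (h ⟨d, hd⟩)
      rw [hsmul] at h1
      exact mul_inv_eq_iff_eq_mul.1 h1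
    · intro h d
      refine Subtype.ext ?_
      rw [hsmul, (h d d.2).eq, mul_inv_cancel_right]
  have htot : ∑ g, φ g = tq D b := by
    set X := ∑ g : {g : G // g ^ p = 1}, ρ (g : G) with hX
    have hXc : ∀ h, cjm ρ h X = X := by
      intro h
      rw [hX, cjm, Finset.mul_sum, Finset.sum_mul]
      refine Fintype.sum_equiv ((MulAut.conj h).toEquiv.subtypeEquiv fun g => by
        show _ ↔ ((MulAut.conj h) g) ^ p = 1
        rw [← map_pow, map_eq_one_iff _ (MulAut.conj h).injective]) _ _ fun g => ?_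
      show cjm ρ h (ρ (g : G)) = _
      rw [cjm_rho]
      rfl
    obtain ⟨s, hs1⟩ := hs' (emb M n X) (fun g => by
      rw [← map_mul, ← map_mul, (commute_of_cjm ρ (hXc g)).eq])
    have hs2 := congrArg Matrix.trace hs1
    rw [Matrix.trace_smul, Matrix.trace_one, Fintype.card_fin, hX, map_sum, Matrix.trace_sum,
      smul_eq_mul] at hs2
    rw [Fintype.sum_eq_single (⟨1, one_pow p⟩ : {g : G // g ^ p = 1}) (fun g hg => by
      rw [hemb, htr]
      refine hvan g (orderOf_eq_prime g.2 fun h => hg (Subtype.ext h))), hemb, map_one,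
      Matrix.trace_one, Fintype.card_fin] at hs2
    have hs3 : s = 1 := by
      field_simp [Nat.cast_ne_zero.2 hn.ne'] at hs2
      exact hs2.symm
    simp only [φ]
    rw [← tq_sum, ← Finset.mul_sum, tq, tq, map_mul, hs1, hs3, one_smul, mul_one]
  have h7 : MemLocalIdeal M (∑ g, φ g - ∑ g ∈ Finset.univ.filter
      (· ∈ MulAction.fixedPoints D {g : G // g ^ p = 1}), φ g) :=
    sum_congr_fixed φ hφ fun g hg => orbit_term_memI ρ hmin hg fun d hd => by
      refine (hb d d.2).mul_right ?_
      have h1 := congrArg Subtype.val hd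
      rw [hsmul] at h1
      exact (Commute.map (show Commute (d : G) (g : G) from mul_inv_eq_iff_eq_mul.1 h1) ρ)
  rw [htot] at h7
  refine (memI_iff_of_sub h7).2 ?_
  -- the fixed points are a union of cosets of `⟨z⟩`
  have hprod : ∀ g : G, (∀ d ∈ D, Commute d g) → g ^ p = 1 → (g * z) ^ p = 1 := by
    intro g hg hgp
    rw [(hg z hzD).symm.mul_pow, hgp, ← hzp, pow_orderOf_eq_one, one_mul]
  haveI : Fintype {g : G // (∀ d ∈ D, Commute d g) ∧ g ^ p = 1} := Fintype.ofFinite _
  let F : Type u := {g : G // (∀ d ∈ D, Commute d g) ∧ g ^ p = 1}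
  have hmulz : ∀ w ∈ Subgroup.zpowers z, ∀ g : F, (∀ d ∈ D, Commute d ((g : G) * w)) ∧
      ((g : G) * w) ^ p = 1 := by
    intro w hw g
    obtain ⟨j, rfl⟩ := hw
    refine ⟨fun d hd => (g.2.1 d hd).mul_right ((hzc d hd).symm.zpow_right j), ?_⟩
    rw [((g.2.1 z hzD).symm.zpow_right j).mul_pow, g.2.2, one_mul, ← zpow_natCast, zpow_comm,
      zpow_natCast, ← hzp, pow_orderOf_eq_one, one_zpow]
  letI : MulAction (Subgroup.zpowers z) F :=
    { smul := fun w g => ⟨(g : G) * (w : G), hmulz w w.2 g⟩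
      one_smul := fun g => Subtype.ext (mul_one _)
      mul_smul := fun a c g => Subtype.ext (by
        show (g : G) * ((a : G) * (c : G)) = (g : G) * (c : G) * (a : G)
        rw [mul_assoc]
        obtain ⟨i, hi⟩ := a.2
        obtain ⟨j, hj⟩ := c.2
        rw [← hi, ← hj, ((Commute.refl z).zpow_zpow i j).eq]) }
  have hρfix : ∀ g : F, Fix ρ D (b * ρ (g : G)) := fun g d hd =>
    (hb d hd).mul_right (Commute.map (g.2.1 d hd) ρ)
  let ψ : F → Res M := fun g => residue M ⟨_, tq_memR ρ hs' hn (hρfix g)⟩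
  have hψz : ∀ (j : ℕ) (g g' : F), (g' : G) = (g : G) * z ^ j → ψ g' = ψ g := by
    intro j
    induction j with
    | zero => intro g g' h; rw [pow_zero, mul_one] at h; rw [Subtype.ext h]
    | succ j ih =>
      intro g g' h
      let g'' : F := ⟨(g : G) * z ^ j, hmulz _ (Subgroup.pow_mem _ (Subgroup.mem_zpowers z) j) g⟩
      rw [← ih g g'' rfl]
      refine (residue_eq_iff _ _).2 ?_
      show MemLocalIdeal M (tq D (b * ρ (g' : G)) - tq D (b * ρ ((g : G) * z ^ j)))
      rw [h, pow_succ, ← mul_assoc (g : G), map_mul, ← mul_assoc]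
      exact hcong _ (hρfix g'')
  have hzP : IsPGroup p (Subgroup.zpowers z) :=
    IsPGroup.of_card (n := 1) (by rw [Nat.card_zpowers, hzp, pow_one])
  have hzero : ∑ g : F, ψ g = 0 := by
    rw [sum_eq_sum_fixed hzP (res_nsmul_eq_zero hpM) ψ (fun w g => by
      obtain ⟨j, hj⟩ := (isOfFinOrder_of_finite z).mem_zpowers_iff_mem_range_orderOf.1 w.2
        |> Finset.mem_image.1
      exact hψz j g _ (by show (g : G) * (w : G) = _; rw [hj.2])), Finset.sum_eq_zero]
    intro g hg
    have h1 := congrArg Subtype.val ((Finset.mem_filter.1 hg).2 ⟨z, Subgroup.mem_zpowers z⟩)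
    have h2 : (g : G) * z = (g : G) := h1
    have h3 : z = 1 := mul_eq_left.1 h2
    exact absurd hzp (by rw [h3, orderOf_one]; exact hp.ne_one.symm)
  have h8 : ∑ g ∈ Finset.univ.filter (· ∈ MulAction.fixedPoints D {g : G // g ^ p = 1}), φ g =
      ∑ g : F, tq D (b * ρ (g : G)) := by
    refine Finset.sum_bij' (fun g hg => (⟨g, (hfix g).1 (Finset.mem_filter.1 hg).2, g.2⟩ : F))
      (fun g _ => ⟨g, g.2.2⟩) (fun g _ => Finset.mem_univ _)
      (fun g _ => Finset.mem_filter.2 ⟨Finset.mem_univ _, (hfix _).2 g.2.1⟩)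
      (fun _ _ => rfl) (fun _ _ => rfl) (fun _ _ => rfl)
  rw [h8]
  have h9 : residue M (∑ g : F, ⟨_, tq_memR ρ hs' hn (hρfix g)⟩) = 0 := by
    rw [map_sum]; exact hzero
  have h10 := (residue_eq_zero_iff _).1 h9
  rwa [AddSubmonoidClass.coe_finsetSum] at h10

end Cfsg.Agent.Blocks
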