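import Cfsg.Agent.Blocks.ZStarFusion

/-!
The order formula for an isolated involution and a commuting involution.
-/

namespace Cfsg.Agent.Blocks

open Cfsg

set_option linter.style.haveILetI false
set_option linter.unusedSectionVars false
set_option linter.unusedVariables false

universe u

variable {G : Type u} [Group G] [Finite G]

/-- `|G| = |C(z)| · |K ∩ C(sz)| · |K ∩ C(s)|`. -/
theorem card_eq_midpoint {z : G} (hz : IsIsolatedInvolution z) {s : G} (hs : orderOf s = 2)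
    (hsz : Commute s z) :
    Nat.card G = Nat.card (Subgroup.centralizer ({z} : Set G)) *
      Nat.card {k : G // Odd (orderOf k) ∧ z * k * z⁻¹ = k⁻¹ ∧ Commute k (s * z)} *
      Nat.card {k : G // Odd (orderOf k) ∧ z * k * z⁻¹ = k⁻¹ ∧ Commute k s} := by
  classical
  set C := Subgroup.centralizer ({z} : Set G) with hC
  set O : Subgroup G := oddCore G with hO
  obtain ⟨r, hr⟩ := odd_card_oddCore G
  let rt : G → G := fun a => a ^ (r + 1)
  have hrt : ∀ a ∈ O, rt a * rt a = a := by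
    intro a ha
    have h1 : a ^ (2 * r + 1) = 1 := orderOf_dvd_iff_pow_eq_one.1 (hr ▸ Subgroup.orderOf_dvd_natCard _ ha)
    show a ^ (r + 1) * a ^ (r + 1) = a
    rw [← pow_add, show r + 1 + (r + 1) = 2 * r + 1 + 1 by omega, pow_succ, h1, one_mul]
  have hrtmem : ∀ a ∈ O, rt a ∈ O := fun a ha => O.pow_mem ha _
  have hrtu : ∀ a ∈ O, rt (a * a) = a := by
    intro a ha
    have h1 : a ^ (2 * r + 1) = 1 := orderOf_dvd_iff_pow_eq_one.1 (hr ▸ Subgroup.orderOf_dvd_natCard _ ha)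
    show (a * a) ^ (r + 1) = a
    rw [← pow_two, ← pow_mul, show 2 * (r + 1) = 2 * r + 1 + 1 by omega, pow_succ, h1, one_mul]
  have hodd : ∀ a ∈ O, Odd (orderOf a) := fun a ha =>
    (odd_card_oddCore G).of_dvd_nat (Subgroup.orderOf_dvd_natCard _ ha)
  -- the inverted elements lie in the core
  have hKO : ∀ k : G, Odd (orderOf k) → z * k * z⁻¹ = k⁻¹ → k ∈ O := by
    intro k hk hki
    have h1 := glauberman_zstar hz k
    rw [hki] at h1
    have h2 : k ^ 2 ∈ O := by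
      have := O.inv_mem h1
      rwa [mul_inv_rev, inv_inv, ← pow_two] at this
    obtain ⟨j, hj⟩ := hk
    have : k = (k ^ 2) ^ (j + 1) := by
      rw [← pow_mul, show 2 * (j + 1) = orderOf k + 1 by omega, pow_succ, pow_orderOf_eq_one, one_mul]
    rw [this]; exact O.pow_mem h2 _
  -- cosets of the centraliser
  have hbij : Nat.card G = Nat.card C * Nat.card {k : G // Odd (orderOf k) ∧ z * k * z⁻¹ = k⁻¹} := by
    rw [← C.card_mul_index, Subgroup.index]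
    congr 1
    refine (Nat.card_congr (Equiv.ofBijective
      (fun k : {k : G // Odd (orderOf k) ∧ z * k * z⁻¹ = k⁻¹} => (QuotientGroup.mk k.1 : G ⧸ C))
      ⟨?_, ?_⟩)).symm
    · rintro ⟨a, ha⟩ ⟨b, hb⟩ he
      obtain ⟨k, -, huni⟩ := Cfsg.Agent.S1185.result z hz a
      exact Subtype.ext ((huni a ⟨ha, by simp⟩).trans (huni b ⟨hb, QuotientGroup.eq.1 he⟩).symm)
    · intro q
      obtain ⟨g, rfl⟩ := QuotientGroup.mk_surjective q
      obtain ⟨k, ⟨hk, hkC⟩, -⟩ := Cfsg.Agent.S1185.result z hz g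
      exact ⟨⟨k, hk⟩, (QuotientGroup.eq.2 hkC).symm⟩
  rw [hbij, mul_assoc, mul_comm (Nat.card {k : G // Odd (orderOf k) ∧ _ ∧ Commute k (s * z)})]
  congr 1
  rw [← Nat.card_prod]
  -- the midpoint bijection
  have hinv : ∀ {a : G}, z * a * z⁻¹ = a⁻¹ → z * rt a * z⁻¹ = (rt a)⁻¹ := fun {a} h => by
    show z * a ^ (r + 1) * z⁻¹ = (a ^ (r + 1))⁻¹
    rw [← conj_pow, h, inv_pow]
  have hsconj : ∀ {a a' : G}, s * a * s⁻¹ = a' → s * rt a * s⁻¹ = rt a' := fun {a a'} h => by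
    show s * a ^ (r + 1) * s⁻¹ = a' ^ (r + 1)
    rw [← conj_pow, h]
  have hss : s * s = 1 := TwoGroups.sq_one_of_order_two hs
  have hb' : ∀ {b : G}, z * b * z⁻¹ = b⁻¹ → Commute b (s * z) → s * b * s⁻¹ = b⁻¹ := by
    intro b hb hc
    have h1 : s * z * b * (s * z)⁻¹ = b := by rw [← hc.eq, mul_inv_cancel_right]
    have h2 : s * b⁻¹ * s⁻¹ = b := by
      rw [← hb]
      calc s * (z * b * z⁻¹) * s⁻¹ = s * z * b * (s * z)⁻¹ := by group
        _ = b := h1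
    calc s * b * s⁻¹ = (s * b⁻¹ * s⁻¹)⁻¹ := by group
      _ = b⁻¹ := by rw [h2]
  -- uniqueness of the midpoint
  have hmid : ∀ k ∈ O, ∀ k' ∈ O, ∀ x ∈ O, x * k⁻¹ * x = k' →
      x = rt k * rt ((rt k)⁻¹ * k' * (rt k)⁻¹) * rt k := by
    intro k hk k' hk' x hx he
    have hqO := hrtmem k hk
    have h1 : ((rt k)⁻¹ * x * (rt k)⁻¹) * ((rt k)⁻¹ * x * (rt k)⁻¹) = (rt k)⁻¹ * k' * (rt k)⁻¹ := by
      rw [← he, show k⁻¹ = (rt k * rt k)⁻¹ from (congrArg Inv.inv (hrt k hk)).symm]; group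
    rw [← h1, hrtu _ (O.mul_mem (O.mul_mem (O.inv_mem hqO) hx) (O.inv_mem hqO))]
    group
  refine (Nat.card_congr (Equiv.ofBijective (fun p :
      {k : G // Odd (orderOf k) ∧ z * k * z⁻¹ = k⁻¹ ∧ Commute k s} ×
      {k : G // Odd (orderOf k) ∧ z * k * z⁻¹ = k⁻¹ ∧ Commute k (s * z)} =>
    (⟨p.1.1 * p.2.1 * p.1.1, ?_, ?_⟩ : {k : G // Odd (orderOf k) ∧ z * k * z⁻¹ = k⁻¹})) ⟨?_, ?_⟩)).symm
  · have ha := hKO _ p.1.2.1 p.1.2.2.1
    have hb := hKO _ p.2.2.1 p.2.2.2.1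
    exact hodd _ (O.mul_mem (O.mul_mem ha hb) ha)
  · rw [show z * (p.1.1 * p.2.1 * p.1.1) * z⁻¹ =
      (z * p.1.1 * z⁻¹) * (z * p.2.1 * z⁻¹) * (z * p.1.1 * z⁻¹) by group, p.1.2.2.1, p.2.2.2.1]
    group
  · rintro ⟨⟨a, ha1, ha2, ha3⟩, ⟨b, hb1, hb2, hb3⟩⟩ ⟨⟨c, hc1, hc2, hc3⟩, ⟨d, hd1, hd2, hd3⟩⟩ he
    have he' : a * b * a = c * d * c := congrArg Subtype.val he
    have haO := hKO a ha1 ha2
    have hcO := hKO c hc1 hc2
    have hkO : a * b * a ∈ O := O.mul_mem (O.mul_mem haO (hKO b hb1 hb2)) haO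
    have key : ∀ a b : G, Commute a s → s * b * s⁻¹ = b⁻¹ →
        (a * a) * (a * b * a)⁻¹ * (a * a) = s * (a * b * a) * s⁻¹ := by
      intro a b ha hb
      rw [show s * (a * b * a) * s⁻¹ = (s * a * s⁻¹) * (s * b * s⁻¹) * (s * a * s⁻¹) by group, hb,
        show s * a * s⁻¹ = a by rw [← ha.eq, mul_inv_cancel_right]]
      group
    have hk'O : s * (a * b * a) * s⁻¹ ∈ O := (inferInstance : O.Normal).conj_mem _ hkO s
    have e1 := hmid _ hkO _ hk'O (a * a) (O.mul_mem haO haO) (key a b ha3 (hb' hb2 hb3))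
    have e2 := hmid _ hkO _ hk'O (c * c) (O.mul_mem hcO hcO)
      (by rw [he']; exact key c d hc3 (hb' hd2 hd3))
    have hac : a = c := by rw [← hrtu a haO, ← hrtu c hcO, e1, e2]
    subst hac
    have hbd : b = d := mul_left_cancel (mul_right_cancel he')
    subst hbd
    rfl
  · rintro ⟨k, hk1, hk2⟩
    have hkO := hKO k hk1 hk2
    set k' := s * k * s⁻¹ with hk'
    have hk'O : k' ∈ O := (inferInstance : O.Normal).conj_mem _ hkO s
    have hk'2 : z * k' * z⁻¹ = k'⁻¹ := by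
      rw [hk', show z * (s * k * s⁻¹) * z⁻¹ = (z * s) * k * (z * s)⁻¹ by group, ← hsz.eq,
        show s * z * k * (s * z)⁻¹ = s * (z * k * z⁻¹) * s⁻¹ by group, hk2]
      group
    have hqO := hrtmem k hkO
    have hq2 := hinv hk2
    set w := (rt k)⁻¹ * k' * (rt k)⁻¹ with hw
    have hwO : w ∈ O := O.mul_mem (O.mul_mem (O.inv_mem hqO) hk'O) (O.inv_mem hqO)
    have hw2 : z * w * z⁻¹ = w⁻¹ := by
      rw [hw, show z * ((rt k)⁻¹ * k' * (rt k)⁻¹) * z⁻¹ =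
        (z * (rt k) * z⁻¹)⁻¹ * (z * k' * z⁻¹) * (z * (rt k) * z⁻¹)⁻¹ by group, hq2, hk'2]
      group
    set x := (rt k) * rt w * (rt k) with hx
    have hxO : x ∈ O := O.mul_mem (O.mul_mem hqO (hrtmem w hwO)) hqO
    have hxk : x * k⁻¹ * x = k' := by
      rw [hx, show k⁻¹ = (rt k * rt k)⁻¹ from (congrArg Inv.inv (hrt k hkO)).symm,
        show (rt k) * rt w * (rt k) * ((rt k) * (rt k))⁻¹ * ((rt k) * rt w * (rt k)) = (rt k) * (rt w * rt w) * (rt k) by group,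
        hrt w hwO, hw]
      group
    have hx2 : z * x * z⁻¹ = x⁻¹ := by
      rw [hx, show z * ((rt k) * rt w * (rt k)) * z⁻¹ = (z * (rt k) * z⁻¹) * (z * rt w * z⁻¹) * (z * (rt k) * z⁻¹) by group,
        hq2, hinv hw2]
      group
    have hxs : s * x * s⁻¹ = x := by
      set y := s * x * s⁻¹ with hy
      have h1 : y * k'⁻¹ * y = k := by
        rw [hy, hk', show s * x * s⁻¹ * (s * k * s⁻¹)⁻¹ * (s * x * s⁻¹) = s * (x * k⁻¹ * x) * s⁻¹ by group,
          hxk, hk', show s * (s * k * s⁻¹) * s⁻¹ = (s * s) * k * (s * s)⁻¹ by group, hss]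
        simp
      have hyO : y ∈ O := (inferInstance : O.Normal).conj_mem _ hxO s
      have h2 : y * k⁻¹ * y = k' := by
        have e : k⁻¹ = y⁻¹ * k' * y⁻¹ := by rw [← h1]; group
        rw [e]; group
      exact (hmid k hkO k' hk'O y hyO h2).trans (hmid k hkO k' hk'O x hxO hxk).symm
    have haO := hrtmem x hxO
    have ha2 := hinv hx2
    have has : s * (rt x) * s⁻¹ = (rt x) := hsconj hxs
    set b := (rt x)⁻¹ * k * (rt x)⁻¹ with hb
    have hbO : b ∈ O := O.mul_mem (O.mul_mem (O.inv_mem haO) hkO) (O.inv_mem haO)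
    have hb2 : z * b * z⁻¹ = b⁻¹ := by
      rw [hb, show z * ((rt x)⁻¹ * k * (rt x)⁻¹) * z⁻¹ =
        (z * (rt x) * z⁻¹)⁻¹ * (z * k * z⁻¹) * (z * (rt x) * z⁻¹)⁻¹ by group, ha2, hk2]
      group
    have hbs : s * b * s⁻¹ = b⁻¹ := by
      rw [hb, show s * ((rt x)⁻¹ * k * (rt x)⁻¹) * s⁻¹ =
        (s * (rt x) * s⁻¹)⁻¹ * (s * k * s⁻¹) * (s * (rt x) * s⁻¹)⁻¹ by group, has, ← hk', show k' = (rt x * rt x) * k⁻¹ * (rt x * rt x) from (hrt x hxO).symm ▸ hxk.symm]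
      group
    refine ⟨⟨⟨(rt x), hodd (rt x) haO, ha2, (mul_inv_eq_iff_eq_mul.1 has).symm⟩, ⟨b, hodd b hbO, hb2, ?_⟩⟩, ?_⟩
    · refine (mul_inv_eq_iff_eq_mul.1 ?_).symm
      rw [show s * z * b * (s * z)⁻¹ = s * (z * b * z⁻¹) * s⁻¹ by group, hb2,
        show s * b⁻¹ * s⁻¹ = (s * b * s⁻¹)⁻¹ by group, hbs, inv_inv]
    · refine Subtype.ext ?_
      show (rt x) * b * (rt x) = k
      rw [hb]; group

end Cfsg.Agent.Blocks
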