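import Cfsg.Agent.Blocks.MinimalDimC
import Cfsg.Agent.Blocks.Brauer
import Cfsg.Agent.BlockChar.Bridge
import Cfsg.Agent.BlockChar.Defect
import Cfsg.Agent.BlockChar.PairDict

/-!
A block of minimal dimension is nilpotent: for a Sylow subgroup `P` it is a single orbit
`k[P g P]` with `g` centralising the defect group.
-/

namespace Cfsg.Agent.Blocks.MinimalDim

open Cfsg Cfsg.Agent Cfsg.Agent.BlockChar Cfsg.Agent.Blocks Module
open scoped MonoidAlgebra

set_option autoImplicit false
set_option linter.unusedSectionVars false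
set_option linter.style.haveILetI false
set_option linter.unusedVariables false

universe u

variable {G : Type u} [Group G] [Fintype G] {p : ℕ} [Fact p.Prime] {M : Ideal AlgInt}
  [M.IsMaximal] {B : Set (IrrCharacter G)}

/-- Left and right translation. -/
noncomputable def tw (M : Ideal AlgInt) [M.IsMaximal] (x y : G) :
    (Res M)[G] →ₗ[Res M] (Res M)[G] :=
  (LinearMap.mulLeft (Res M) (MonoidAlgebra.single x 1)).comp
    (LinearMap.mulRight (Res M) (MonoidAlgebra.single y⁻¹ 1))

theorem coeff_tw (x y : G) (z : (Res M)[G]) (g : G) :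
    (tw M x y z).coeff g = z.coeff (x⁻¹ * g * y) := by
  show (MonoidAlgebra.single x 1 * (z * MonoidAlgebra.single y⁻¹ 1)).coeff g = _
  rw [MonoidAlgebra.coeff_single_mul_apply, one_mul, MonoidAlgebra.coeff_mul_single_apply, mul_one,
    inv_inv]

theorem tw_mul (x y x' y' : G) (z : (Res M)[G]) :
    tw M (x * x') (y * y') z = tw M x y (tw M x' y' z) := by
  ext g
  simp only [coeff_tw, mul_inv_rev]
  congr 1
  group

/-- Translation as a representation of `P × P`. -/
noncomputable def twHom (M : Ideal AlgInt) [M.IsMaximal] (P : Subgroup G) :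
    P × P →* Module.End (Res M) (Res M)[G] where
  toFun w := tw M (w.1 : G) (w.2 : G)
  map_one' := LinearMap.ext fun z => by ext g; simp [coeff_tw]
  map_mul' a b := LinearMap.ext fun z => tw_mul _ _ _ _ z

/-- A non-zero stable subspace has a non-zero invariant. -/
theorem exists_invariant (hpM : (p : AlgInt) ∈ M) {P : Subgroup G} (hP : IsPGroup p P)
    (U : Submodule (Res M) (Res M)[G]) (hU : U ≠ ⊥)
    (hst : ∀ x ∈ P, ∀ y ∈ P, ∀ z ∈ U, tw M x y z ∈ U) :
    ∃ z ∈ U, z ≠ 0 ∧ ∀ x ∈ P, ∀ y ∈ P, tw M x y z = z := by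
  classical
  set bas := Module.finBasis (Res M) U with hbas
  have hn : 0 < finrank (Res M) U := by
    rw [Nat.pos_iff_ne_zero, Ne, Submodule.finrank_eq_zero]; exact hU
  set r : P × P →* Module.End (Res M) U :=
    { toFun := fun w => (twHom M P w).restrict fun z hz => hst _ w.1.2 _ w.2.2 z hz
      map_one' := LinearMap.ext fun z => Subtype.ext (by simp)
      map_mul' := fun a b => LinearMap.ext fun z => Subtype.ext (by
        show twHom M P (a * b) (z : (Res M)[G]) = _
        rw [map_mul]; rfl) } with hr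
  have hPP : IsPGroup p (P × P) := by
    obtain ⟨n, hn⟩ := IsPGroup.iff_card.1 hP
    exact IsPGroup.of_card (n := n + n) (by rw [Nat.card_prod, hn, pow_add])
  obtain ⟨v, hv0, hv⟩ := exists_fixed_vector (M := M) hpM hn hPP
    ((LinearMap.toMatrixAlgEquiv bas).toMonoidHom.comp r)
  set z : U := bas.equivFun.symm v with hz
  refine ⟨z, z.2, fun h => hv0 ?_, fun x hx y hy => ?_⟩
  · have : z = 0 := Subtype.ext h
    rw [hz, LinearEquiv.map_eq_zero_iff] at this
    exact this
  · have h1 : r (⟨x, hx⟩, ⟨y, hy⟩) z = z := by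
      apply bas.equivFun.injective
      conv_rhs => rw [hz, LinearEquiv.apply_symm_apply, ← hv (⟨x, hx⟩, ⟨y, hy⟩)]
      have h2 := LinearMap.toMatrix_mulVec_repr bas bas (r (⟨x, hx⟩, ⟨y, hy⟩)) z
      rw [Basis.equivFun_apply, ← h2]
      congr 1
      · rw [hz, ← Basis.equivFun_apply, LinearEquiv.apply_symm_apply]
    exact congrArg Subtype.val h1

/-- The double coset of `g`. -/
def dc (P : Subgroup G) (g : G) : Set G := {h | ∃ x ∈ P, ∃ y ∈ P, x * g * y = h}

theorem mem_dc_self (P : Subgroup G) (g : G) : g ∈ dc P g :=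
  ⟨1, one_mem P, 1, one_mem P, by simp⟩

theorem dc_mul {P : Subgroup G} {g h x y : G} (hx : x ∈ P) (hy : y ∈ P) :
    x * h * y ∈ dc P g ↔ h ∈ dc P g := by
  constructor
  · rintro ⟨a, ha, b, hb, hab⟩
    exact ⟨x⁻¹ * a, P.mul_mem (P.inv_mem hx) ha, b * y⁻¹, P.mul_mem hb (P.inv_mem hy), by
      rw [show x⁻¹ * a * g * (b * y⁻¹) = x⁻¹ * (a * g * b) * y⁻¹ by group, hab]; group⟩
  · rintro ⟨a, ha, b, hb, rfl⟩
    exact ⟨x * a, P.mul_mem hx ha, b * y, P.mul_mem hb hy, by group⟩

/-- Functions supported on a set. -/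
noncomputable def supOn (M : Ideal AlgInt) [M.IsMaximal] (O : Set G) :
    Submodule (Res M) (Res M)[G] where
  carrier := {z | ∀ g ∉ O, z.coeff g = 0}
  add_mem' := fun ha hb g hg => by simp [ha g hg, hb g hg]
  zero_mem' := fun g hg => by simp
  smul_mem' := fun c a ha g hg => by simp [ha g hg]

theorem supOn_tw {P : Subgroup G} {g : G} {x y : G} (hx : x ∈ P) (hy : y ∈ P)
    {z : (Res M)[G]} (hz : z ∈ supOn M (dc P g)) : tw M x y z ∈ supOn M (dc P g) := by
  intro h hh
  rw [coeff_tw]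
  exact hz _ fun hc => hh ((dc_mul (P.inv_mem hx) hy).1 hc)

/-- The invariants in the functions on one double coset. -/
theorem eq_smul_of_invariant {P : Subgroup G} {g : G} {z : (Res M)[G]}
    (hz : z ∈ supOn M (dc P g)) (hinv : ∀ x ∈ P, ∀ y ∈ P, tw M x y z = z) :
    ∀ h ∈ dc P g, z.coeff h = z.coeff g := by
  rintro h ⟨x, hx, y, hy, rfl⟩
  conv_rhs => rw [← hinv x⁻¹ (P.inv_mem hx) y (hy), coeff_tw, inv_inv]

theorem finrank_supOn (O : Set G) :
    finrank (Res M) (supOn M O) = O.ncard := by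
  classical
  have e : supOn M O ≃ₗ[Res M] (O → Res M) :=
    { toFun := fun z g => (z : (Res M)[G]).coeff g.1
      map_add' := fun a b => by funext g; simp
      map_smul' := fun c a => by funext g; simp
      invFun := fun f => ⟨MonoidAlgebra.ofCoeff (Finsupp.equivFunOnFinite.symm fun g =>
        if h : g ∈ O then f ⟨g, h⟩ else 0), fun g hg => by simp [hg]⟩
      left_inv := fun z => Subtype.ext (by
        ext g
        by_cases hg : g ∈ O
        · simp [hg]
        · simp [hg, z.2 g hg])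
      right_inv := fun f => by funext g; simp }
  rw [e.finrank_eq, Module.finrank_pi, ← Nat.card_coe_set_eq, Nat.card_eq_fintype_card]

/-- Translation and multiplication by the block. -/
theorem tw_mul_block (hpM : (p : AlgInt) ∈ M) (hB : IsPBlock M B) (x y : G) (z : (Res M)[G]) :
    tw M x y (z * idemG M B) = tw M x y z * idemG M B := by
  have hc := ((isBlk_idemG hpM hB).central.comm (z := MonoidAlgebra.single y⁻¹ (1 : Res M))
    fun g hg => absurd (Subgroup.mem_top g) hg)
  show MonoidAlgebra.single x 1 * (z * idemG M B * MonoidAlgebra.single y⁻¹ 1) =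
    MonoidAlgebra.single x 1 * (z * MonoidAlgebra.single y⁻¹ 1) * idemG M B
  rw [mul_assoc z, hc]
  simp only [mul_assoc]

/-- The space of the block. -/
noncomputable abbrev blockSp (M : Ideal AlgInt) [M.IsMaximal] (B : Set (IrrCharacter G)) :
    Submodule (Res M) (Res M)[G] :=
  LinearMap.range (LinearMap.mulRight (Res M) (idemG M B))

theorem mul_eq_of_mem (hpM : (p : AlgInt) ∈ M) (hB : IsPBlock M B) {w : (Res M)[G]}
    (hw : w ∈ blockSp M B) : w * idemG M B = w := by
  obtain ⟨y, rfl⟩ := hw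
  show y * idemG M B * idemG M B = y * idemG M B
  rw [mul_assoc, (isBlk_idemG hpM hB).idem]

/-- The invariants of a block of minimal dimension are one-dimensional. -/
theorem exists_invariant_line (hpM : (p : AlgInt) ∈ M) (hB : IsPBlock M B) {P : Subgroup G}
    (hP : IsPGroup p P) {D : Subgroup G} (hD : IsDefectGroup p M B D) {a d : ℕ}
    (ha : (Nat.card G).factorization p = a) (hPa : Nat.card P = p ^ a) (hd : Nat.card D = p ^ d)
    (hmin : ∑ χ ∈ bf B, charDegree (χ : G → ℂ) ^ 2 = p ^ (2 * a - d)) :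
    ∃ w0 : (Res M)[G], ∀ w ∈ blockSp M B, (∀ x ∈ P, ∀ y ∈ P, tw M x y w = w) →
      w ∈ (Res M) ∙ w0 := by
  classical
  have hpp : p.Prime := Fact.out
  have hbd : blockDefect p B = d :=
    Nat.pow_right_injective hpp.two_le ((card_defectGroup hpM hB hD).symm.trans hd)
  have hda : d ≤ a := by rw [← hbd, ← ha]; exact blockDefect_le B
  choose m hm using fun χ : IrrCharacter G => mult_nat (p := p) hpM P χ
  have hsum : ∑ χ ∈ bf B, charDegree (χ : G → ℂ) * m χ = p ^ (a - d) := by
    apply Nat.cast_injective (R := ℂ)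
    push_cast
    have h1 := sum_mult hpM hB P hP
    rw [hmin, hPa] at h1
    push_cast at h1
    rw [Finset.sum_congr rfl (g := fun χ : IrrCharacter G =>
      (χ : G → ℂ) 1 * mult P (χ : G → ℂ)) fun χ _ => by
        rw [hm, charDegree_cast (Chars.irr_isCharacter χ)], h1]
    rw [show 2 * a - d = a + (a - d) by omega, pow_add, ← mul_assoc,
      inv_mul_cancel₀ (pow_ne_zero _ (Nat.cast_ne_zero.2 hpp.ne_zero)), one_mul]
  have hge : ∀ χ ∈ bf B, p ^ (a - d) ≤ charDegree (χ : G → ℂ) := by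
    intro χ hχ
    have h1 := degree_eq_height hpM hB (mem_bf.1 hχ)
    rw [hbd, ha] at h1
    exact (Nat.pow_le_pow_right hpp.pos (by omega)).trans
      (Nat.ordProj_le p (charDegree_eq χ.2).2.ne')
  obtain ⟨χ₀, hχ₀, hm0⟩ : ∃ χ ∈ bf B, m χ ≠ 0 := by
    by_contra h
    push Not at h
    rw [Finset.sum_eq_zero fun χ hχ => by rw [h χ hχ, mul_zero]] at hsum
    exact (pow_pos hpp.pos _).ne hsum
  rw [← Finset.add_sum_erase _ _ hχ₀] at hsum
  have h0 := hge χ₀ hχ₀
  have hm1 : m χ₀ = 1 := by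
    by_contra h
    have h2 : charDegree (χ₀ : G → ℂ) * 2 ≤ charDegree (χ₀ : G → ℂ) * m χ₀ :=
      Nat.mul_le_mul_left _ (by omega)
    have := pow_pos hpp.pos (a - d)
    omega
  have hrest : ∀ χ ∈ B, χ ≠ χ₀ → m χ = 0 := by
    intro χ hχ hne
    rw [hm1, mul_one] at hsum
    have hz : ∑ ψ ∈ (bf B).erase χ₀, charDegree (ψ : G → ℂ) * m ψ = 0 := by omega
    have h3 := Finset.sum_eq_zero_iff.1 hz χ (Finset.mem_erase.2 ⟨hne, mem_bf.2 hχ⟩)
    exact (Nat.mul_eq_zero.1 h3).resolve_left (charDegree_eq χ.2).2.ne'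
  obtain ⟨F, hF⟩ := exists_spanning hpM hB P χ₀ (mem_bf.1 hχ₀) (by rw [hm, hm1, Nat.cast_one])
    fun χ hχ hne => by rw [hm, hrest χ hχ hne, Nat.cast_zero]
  set I : Submodule (Res M) (Res M)[G] :=
    { carrier := {w | w ∈ blockSp M B ∧ ∀ x ∈ P, ∀ y ∈ P, tw M x y w = w}
      add_mem' := fun ha hb => ⟨Submodule.add_mem _ ha.1 hb.1, fun x hx y hy => by
        rw [map_add, ha.2 x hx y hy, hb.2 x hx y hy]⟩
      zero_mem' := ⟨Submodule.zero_mem _, fun x hx y hy => map_zero _⟩
      smul_mem' := fun c w hw => ⟨Submodule.smul_mem _ c hw.1, fun x hx y hy => by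
        rw [map_smul, hw.2 x hx y hy]⟩ } with hI
  have hI1 : finrank (Res M) I ≤ 1 := by
    refine (BlockDim.finrank_le_of_lift (ℂ ∙ F) I ?_).trans ((finrank_span_le_card _).trans (by simp))
    rintro w ⟨hw, hinv⟩
    choose s hs using res_surjective (M := M)
    set f : G → ℂ := fun g => (s (w.coeff g) : ℂ) with hf
    have hfR : RFun M f := fun g => memR_of_algInt _
    have hER : RFun M (blockCoeff B) := rFun_blockCoeff hpM hB
    refine ⟨conv f (blockCoeff B), hF f fun x hx y hy g => ?_, rFun_conv hfR hER, ?_⟩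
    · simp only [hf]
      conv_rhs => rw [← hinv x⁻¹ (P.inv_mem hx) y hy, coeff_tw, inv_inv]
    · rw [red_conv hfR hER, show red M (MonoidHom.id G) f = w from
        red_ext Function.injective_id (fun g hg => absurd ⟨g, rfl⟩ hg) fun x => by
          simp only [hf, hs, MonoidHom.id_apply]]
      exact mul_eq_of_mem hpM hB hw
  obtain ⟨⟨w0, hw0⟩, hspan⟩ := (finrank_le_one_iff).1 hI1
  refine ⟨w0, fun w hw hinv => ?_⟩
  obtain ⟨c, hc⟩ := hspan ⟨w, hw, hinv⟩
  exact Submodule.mem_span_singleton.2 ⟨c, congrArg Subtype.val hc⟩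

/-- A block of minimal dimension is the space of one double coset. -/
theorem exists_double_coset (hpM : (p : AlgInt) ∈ M) (hB : IsPBlock M B) {P : Subgroup G}
    (hP : IsPGroup p P) {D : Subgroup G} (hD : IsDefectGroup p M B D) {a d : ℕ}
    (ha : (Nat.card G).factorization p = a) (hPa : Nat.card P = p ^ a) (hd : Nat.card D = p ^ d)
    (hmin : ∑ χ ∈ bf B, charDegree (χ : G → ℂ) ^ 2 = p ^ (2 * a - d)) :
    ∃ g : G, (∀ z ∈ supOn M (dc P g), z * idemG M B = 0 → z = 0) ∧
      ∀ w ∈ blockSp M B, ∃ z ∈ supOn M (dc P g), z * idemG M B = w := by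
  classical
  haveI := charP_res (p := p) hpM
  set b := idemG M B with hb
  have hbb := isBlk_idemG hpM hB
  set W := blockSp M B with hW
  obtain ⟨w0, hline⟩ := exists_invariant_line hpM hB hP hD ha hPa hd hmin
  have hWne : W ≠ ⊥ := fun h => hbb.ne_zero (by
    have : b ∈ W := ⟨1, by show 1 * b = b; rw [one_mul]⟩
    rw [h] at this
    exact (Submodule.mem_bot _).1 this)
  have hWst : ∀ x ∈ P, ∀ y ∈ P, ∀ z ∈ W, tw M x y z ∈ W := by
    rintro x - y - _ ⟨z, rfl⟩
    exact ⟨tw M x y z, (tw_mul_block hpM hB x y z).symm⟩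
  obtain ⟨u0, hu0W, hu0, hu0inv⟩ := exists_invariant hpM hP W hWne hWst
  -- the form and the hyperplane
  have hform : ∀ z z' : (Res M)[G], ∀ x y : G,
      (tw M x y z * z').coeff 1 = (z * tw M y⁻¹ x⁻¹ z').coeff 1 := by
    intro z z' x y
    rw [coeff_mul_sum, coeff_mul_sum]
    refine Fintype.sum_equiv ((Equiv.mulLeft x⁻¹).trans (Equiv.mulRight y)) _ _ fun g => ?_
    simp only [Equiv.trans_apply, Equiv.coe_mulLeft, Equiv.coe_mulRight, mul_one, coeff_tw]
    congr 1
    congr 1
    group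
  set β : (Res M)[G] →ₗ[Res M] Res M :=
    { toFun := fun z => (z * u0).coeff 1
      map_add' := fun a b => by simp [add_mul]
      map_smul' := fun c a => by simp [smul_mul_assoc] } with hβ
  set H := W ⊓ LinearMap.ker β with hH
  have hWH : ¬ W ≤ H := by
    intro h
    apply hu0
    ext g
    have h1 : MonoidAlgebra.single g⁻¹ 1 * b ∈ W := ⟨_, rfl⟩
    have h2 : (MonoidAlgebra.single g⁻¹ (1 : Res M) * b * u0).coeff 1 = 0 := (h h1).2
    have hbu : b * u0 = u0 := by
      rw [hbb.central.comm (z := u0) fun g hg => absurd (Subgroup.mem_top g) hg]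
      exact mul_eq_of_mem hpM hB hu0W
    rw [mul_assoc, hbu, MonoidAlgebra.coeff_single_mul_apply, one_mul, inv_inv, mul_one] at h2
    simpa using h2
  have htop : ∀ U : Submodule (Res M) (Res M)[G], U ≤ W →
      (∀ x ∈ P, ∀ y ∈ P, ∀ z ∈ U, tw M x y z ∈ U) → ¬ U ≤ H → U = W := by
    intro U hUW hUst hUH
    refine le_antisymm hUW fun w hw => ?_
    by_contra hwU
    -- functionals vanishing on `U`, seen inside `W`
    set Ann : Submodule (Res M) (Res M)[G] :=
      { carrier := {v | v ∈ W ∧ ∀ z ∈ U, (z * v).coeff 1 = 0}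
        add_mem' := fun ha hb => ⟨Submodule.add_mem _ ha.1 hb.1, fun z hz => by
          simp [mul_add, ha.2 z hz, hb.2 z hz]⟩
        zero_mem' := ⟨Submodule.zero_mem _, fun z hz => by simp⟩
        smul_mem' := fun c v hv => ⟨Submodule.smul_mem _ c hv.1, fun z hz => by
          simp [hv.2 z hz]⟩ } with hAnn
    have hAne : Ann ≠ ⊥ := by
      obtain ⟨f, hfw, hfU⟩ := Submodule.exists_le_ker_of_notMem hwU
      set v : (Res M)[G] := ∑ g, f (MonoidAlgebra.single g 1) • MonoidAlgebra.single g⁻¹ 1 with hv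
      have hfv : ∀ z, (z * v).coeff 1 = f z := by
        intro z
        have hz : z = ∑ g, z.coeff g • MonoidAlgebra.single g (1 : Res M) := by
          ext x
          simp [MonoidAlgebra.coeff_sum, Finsupp.single_apply]
        conv_rhs => rw [hz, map_sum]
        rw [coeff_mul_sum]
        refine Finset.sum_congr rfl fun g _ => ?_
        rw [map_smul, smul_eq_mul, mul_one]
        congr 1
        simp [hv, MonoidAlgebra.coeff_sum, Finsupp.single_apply]
      have hvb : ∀ z ∈ W, (z * (v * b)).coeff 1 = f z := by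
        intro z hz
        rw [← hbb.central.comm (z := v) fun g hg => absurd (Subgroup.mem_top g) hg, ← mul_assoc,
          mul_eq_of_mem hpM hB hz, hfv]
      intro h
      have hmem : v * b ∈ Ann := ⟨⟨v, rfl⟩, fun z hz => by
        rw [hvb z (hUW hz)]; exact hfU hz⟩
      rw [h, Submodule.mem_bot] at hmem
      apply hfw
      rw [← hvb w hw, hmem]
      simp
    obtain ⟨v, hv, hv0, hvinv⟩ := exists_invariant hpM hP Ann hAne fun x hx y hy z hz =>
      ⟨hWst x hx y hy z hz.1, fun u hu => by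
        rw [show tw M x y z = tw M (x⁻¹)⁻¹ (y⁻¹)⁻¹ z by rw [inv_inv, inv_inv], ← hform]
        exact hz.2 _ (hUst _ (P.inv_mem hy) _ (P.inv_mem hx) u hu)⟩
    obtain ⟨c, hc⟩ := Submodule.mem_span_singleton.1 (hline v hv.1 hvinv)
    obtain ⟨c', hc'⟩ := Submodule.mem_span_singleton.1 (hline u0 hu0W hu0inv)
    have hc0 : c ≠ 0 := fun h => hv0 (by rw [← hc, h, zero_smul])
    refine hUH fun z hz => ⟨hUW hz, ?_⟩
    show (z * u0).coeff 1 = 0
    have h1 := hv.2 z hz
    rw [← hc, mul_smul_comm, MonoidAlgebra.coeff_smul, Finsupp.smul_apply, smul_eq_mul,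
      mul_eq_zero] at h1
    rw [← hc', mul_smul_comm, MonoidAlgebra.coeff_smul, Finsupp.smul_apply,
      h1.resolve_left hc0, smul_zero]
  -- the orbit
  obtain ⟨s, hsW, hsH⟩ := SetLike.not_le_iff_exists.1 hWH
  haveI : Setoid G := DoubleCoset.setoid (P : Set G) (P : Set G)
  set cl : G → DoubleCoset.Quotient (P : Set G) (P : Set G) :=
    fun g => DoubleCoset.mk P P g with hcl
  haveI : Finite (DoubleCoset.Quotient (P : Set G) (P : Set G)) := Quotient.finite _
  haveI := Fintype.ofFinite (DoubleCoset.Quotient (P : Set G) (P : Set G))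
  set part : DoubleCoset.Quotient (P : Set G) (P : Set G) → (Res M)[G] →ₗ[Res M] (Res M)[G] :=
    fun q =>
      { toFun := fun z => MonoidAlgebra.ofCoeff (z.coeff.filter fun g => cl g = q)
        map_add' := fun a b => by
          ext g; simp only [MonoidAlgebra.coeff_add, Finsupp.filter_apply,
            MonoidAlgebra.coeff_ofCoeff, Finsupp.add_apply]; split <;> simp
        map_smul' := fun c a => by
          ext g; simp only [MonoidAlgebra.coeff_smul, Finsupp.filter_apply,
            MonoidAlgebra.coeff_ofCoeff, RingHom.id_apply, Finsupp.smul_apply]; split <;> simp }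
    with hpart
  have hpc : ∀ q z g, (part q z).coeff g = if cl g = q then z.coeff g else 0 := fun q z g => by
    simp [hpart, Finsupp.filter_apply]
  have hsum : ∀ z, ∑ q, part q z = z := fun z => by
    ext g
    rw [MonoidAlgebra.coeff_sum, Finsupp.finsetSum_apply, Finset.sum_congr rfl fun q _ => hpc q z g]
    simp
  obtain ⟨q, hq⟩ : ∃ q, part q s * b ∉ H := by
    by_contra h
    push Not at h
    apply hsH
    rw [← mul_eq_of_mem hpM hB hsW, ← hsum s, Finset.sum_mul]
    exact Submodule.sum_mem _ fun q _ => h q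
  set g := q.out with hg
  have hqg : cl g = q := Quotient.out_eq q
  have hO : ∀ h, cl h = q ↔ h ∈ dc P g := by
    intro h
    rw [← hqg]
    show DoubleCoset.mk P P h = DoubleCoset.mk P P g ↔ _
    rw [eq_comm, DoubleCoset.eq]
    constructor
    · rintro ⟨x, hx, y, hy, rfl⟩; exact ⟨x, hx, y, hy, rfl⟩
    · rintro ⟨x, hx, y, hy, rfl⟩; exact ⟨x, hx, y, hy, rfl⟩
  have hqsup : ∀ z, part q z ∈ supOn M (dc P g) := fun z h hh => by
    rw [hpc, if_neg fun h' => hh ((hO h).1 h')]
  have hqtw : ∀ x ∈ P, ∀ y ∈ P, ∀ z, part q (tw M x y z) = tw M x y (part q z) := by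
    intro x hx y hy z
    ext h
    rw [hpc, coeff_tw, coeff_tw, hpc]
    refine if_congr ?_ rfl rfl
    rw [hO, hO, dc_mul (P.inv_mem hx) hy]
  set T : (Res M)[G] →ₗ[Res M] (Res M)[G] := (LinearMap.mulRight (Res M) b).comp (part q) with hT
  have hTW : W.map T = W := by
    refine htop _ ?_ ?_ fun h => hq (h ⟨s, hsW, rfl⟩)
    · rintro _ ⟨z, -, rfl⟩; exact ⟨part q z, rfl⟩
    · rintro x hx y hy _ ⟨z, hz, rfl⟩
      refine ⟨tw M x y z, hWst x hx y hy z hz, ?_⟩
      show part q (tw M x y z) * b = tw M x y (part q z * b)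
      rw [hqtw x hx y hy, tw_mul_block hpM hB]
  refine ⟨g, fun z hz hzb => ?_, fun w hw => ?_⟩
  · by_contra hz0
    set K := supOn M (dc P g) ⊓ LinearMap.ker (LinearMap.mulRight (Res M) b) with hK
    have hKne : K ≠ ⊥ := fun h => hz0 (by
      have hm : z ∈ K := ⟨hz, hzb⟩
      rw [h] at hm
      exact (Submodule.mem_bot _).1 hm)
    obtain ⟨v, hv, hv0, hvinv⟩ := exists_invariant hpM hP K hKne fun x hx y hy z hz =>
      ⟨supOn_tw hx hy hz.1, by
        show tw M x y z * b = 0
        rw [← tw_mul_block hpM hB, show z * idemG M B = 0 from hz.2, map_zero]⟩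
    have hvc := eq_smul_of_invariant hv.1 hvinv
    have hvg : v.coeff g ≠ 0 := by
      intro h0
      apply hv0
      ext h
      by_cases hh : h ∈ dc P g
      · rw [hvc h hh, h0]; simp
      · rw [hv.1 h hh]; simp
    -- the invariant of the block
    have hu0T : ∃ u1 ∈ W, T u1 = u0 := by
      have := hTW.symm ▸ hu0W
      exact this
    obtain ⟨u1, hu1, hTu1⟩ := hu0T
    have hinj : Set.InjOn T W := by
      have hfin : Function.Surjective (T.restrict (p := W) (q := W) fun z hz =>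
          hTW ▸ Submodule.mem_map_of_mem hz) := fun ⟨w, hw⟩ => by
        obtain ⟨z, hz, hzw⟩ := (hTW.symm ▸ hw : w ∈ W.map T)
        exact ⟨⟨z, hz⟩, Subtype.ext hzw⟩
      have h2 := LinearMap.injective_iff_surjective.2 hfin
      intro a ha b' hb' hab
      exact congrArg Subtype.val (@h2 ⟨a, ha⟩ ⟨b', hb'⟩ (Subtype.ext hab))
    have hu1inv : ∀ x ∈ P, ∀ y ∈ P, tw M x y u1 = u1 := by
      intro x hx y hy
      refine hinj (hWst x hx y hy u1 hu1) hu1 ?_
      show part q (tw M x y u1) * b = T u1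
      rw [hqtw x hx y hy, ← tw_mul_block hpM hB]
      show tw M x y (T u1) = T u1
      rw [hTu1, hu0inv x hx y hy]
    have hpi : ∀ x ∈ P, ∀ y ∈ P, tw M x y (part q u1) = part q u1 := fun x hx y hy => by
      rw [← hqtw x hx y hy, hu1inv x hx y hy]
    have hpu : part q u1 = ((part q u1).coeff g * (v.coeff g)⁻¹) • v := by
      ext h
      by_cases hh : h ∈ dc P g
      · rw [eq_smul_of_invariant (hqsup u1) hpi h hh, MonoidAlgebra.coeff_smul,
          Finsupp.smul_apply, hvc h hh, smul_eq_mul, inv_mul_cancel_right₀ hvg]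
      · rw [hqsup u1 h hh, MonoidAlgebra.coeff_smul, Finsupp.smul_apply, hv.1 h hh, smul_zero]
    apply hu0
    rw [← hTu1]
    show part q u1 * b = 0
    rw [hpu, smul_mul_assoc, show v * b = 0 from hv.2, smul_zero]
  · obtain ⟨z, -, hzw⟩ := (hTW.symm ▸ hw : w ∈ W.map T)
    exact ⟨part q z, hqsup z, hzw⟩

/-- An element acting on `Q` and a fixed point of the double coset. -/
theorem exists_fixed_point (hpM : (p : AlgInt) ∈ M) (hB : IsPBlock M B) {P : Subgroup G} {g : G}
    (hspan : ∀ w ∈ blockSp M B, ∃ z ∈ supOn M (dc P g), z * idemG M B = w)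
    (hinj : ∀ z ∈ supOn M (dc P g), z * idemG M B = 0 → z = 0)
    {Q : Subgroup G} (hQ : IsPGroup p Q) (hQP : Q ≤ P) {x : G}
    (hx : ∀ u ∈ Q, x⁻¹ * u * x ∈ P) (hne : br Q (idemG M B) ≠ 0) :
    ∃ o ∈ dc P g, ∀ u ∈ Q, o⁻¹ * u * o = x⁻¹ * u * x := by
  classical
  haveI := charP_res (p := p) hpM
  set b := idemG M B with hb
  have hbb := isBlk_idemG hpM hB
  obtain ⟨c, hc, hbc⟩ := coeff_ne_zero_of_br_ne_zero hne
  set w := MonoidAlgebra.single x (1 : Res M) * b with hw
  obtain ⟨y, hy, hyw⟩ := hspan w ⟨_, rfl⟩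
  have hyfix : ∀ u ∈ Q, tw M u (x⁻¹ * u * x) y = y := by
    intro u hu
    refine sub_eq_zero.1 (hinj _ (Submodule.sub_mem _ (supOn_tw (hQP hu) (hx u hu) hy) hy) ?_)
    rw [sub_mul, ← tw_mul_block hpM hB, hyw, hw, tw_mul_block hpM hB, sub_eq_zero]
    congr 1
    ext h
    rw [coeff_tw, MonoidAlgebra.coeff_single, Finsupp.single_apply, Finsupp.single_apply]
    refine if_congr ⟨fun h1 => ?_, fun h1 => ?_⟩ rfl rfl
    · calc x = u * x * (x⁻¹ * u * x)⁻¹ := by group
        _ = h := by nth_rewrite 1 [h1]; group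
    · rw [← h1]; group
  set f : G → Res M := fun a => y.coeff a * b.coeff (a⁻¹ * (c * x)) with hf
  have hfsum : ∑ a, f a = b.coeff c := by
    rw [← coeff_mul_sum, hyw, hw, MonoidAlgebra.coeff_single_mul_apply, one_mul]
    have := hbb.fixed.coeff (Subgroup.mem_top x⁻¹) c
    rw [← mul_assoc]
    rwa [inv_inv] at this
  let act : MulAction Q G :=
    { smul := fun u a => (u : G) * a * (x⁻¹ * (u : G) * x)⁻¹
      one_smul := fun a => by show ((1 : Q) : G) * a * _ = a; simp
      mul_smul := fun u v a => by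
        show ((u * v : Q) : G) * a * _ = (u : G) * ((v : G) * a * _) * _
        simp [mul_assoc] }
  have hfinv : ∀ (u : Q) (a : G), f (@HSMul.hSMul Q G G (@instHSMul Q G act.toSMul) u a) = f a := by
    intro u a
    show f ((u : G) * a * (x⁻¹ * (u : G) * x)⁻¹) = f a
    have h1 := congrArg (fun z : (Res M)[G] => z.coeff a) (hyfix (u⁻¹ : Q) (u⁻¹ : Q).2)
    simp only [coeff_tw] at h1
    have h2 : y.coeff ((u : G) * a * (x⁻¹ * (u : G) * x)⁻¹) = y.coeff a := by
      rw [← h1]; congr 1; push_cast; group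
    simp only [hf, h2]
    congr 1
    have h3 := hbb.fixed.coeff (Subgroup.mem_top (x⁻¹ * (u : G) * x)) (a⁻¹ * (c * x))
    rw [← h3]
    congr 1
    have hcu : (u : G)⁻¹ * c = c * (u : G)⁻¹ :=
      Subgroup.mem_centralizer_iff.1 hc _ (Q.inv_mem u.2)
    calc ((u : G) * a * (x⁻¹ * (u : G) * x)⁻¹)⁻¹ * (c * x)
        = x⁻¹ * (u : G) * x * a⁻¹ * ((u : G)⁻¹ * c) * x := by group
      _ = _ := by rw [hcu]; group
  have key := BlockChar.sum_eq_sum_fixed (k := Res M) (α := G) (P := Q) hQ f hfinv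
  rw [hfsum] at key
  obtain ⟨o, ho, hfo⟩ := Finset.exists_ne_zero_of_sum_ne_zero (key ▸ hbc)
  refine ⟨o, by_contra fun h => hfo (by simp [hf, hy o h]), fun u hu => ?_⟩
  have h1 : u * o * (x⁻¹ * u * x)⁻¹ = o := (Finset.mem_filter.1 ho).2 ⟨u, hu⟩
  calc o⁻¹ * u * o = o⁻¹ * (u * o * (x⁻¹ * u * x)⁻¹) * (x⁻¹ * u * x) := by group
    _ = x⁻¹ * u * x := by rw [h1]; group

end Cfsg.Agent.Blocks.MinimalDim
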