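import Cfsg.Agent.Blocks.BlockDim
import Cfsg.Agent.Blocks.Defect
import Cfsg.Agent.Blocks.Lattice
import Cfsg.Agent.BlockChar.Bridge

/-!
The bi-invariant part of a block of minimal dimension.
-/

namespace Cfsg.Agent.Blocks.MinimalDim

open Cfsg Cfsg.Agent Cfsg.Agent.BlockChar Cfsg.Agent.Blocks Module
open scoped MonoidAlgebra ComplexConjugate

set_option autoImplicit false
set_option linter.unusedSectionVars false
set_option linter.style.haveILetI false
set_option linter.unusedVariables false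

universe u

variable {G : Type u} [Group G] [Fintype G] {p : ℕ} [Fact p.Prime] {M : Ideal AlgInt}
  [M.IsMaximal] {B : Set (IrrCharacter G)}

/-- Bi-invariant functions. -/
noncomputable def biInv (P : Subgroup G) : Submodule ℂ (G → ℂ) where
  carrier := {f | ∀ x ∈ P, ∀ y ∈ P, ∀ g, f (x * g * y) = f g}
  add_mem' := fun hf hg x hx y hy g => by simp [hf x hx y hy g, hg x hx y hy g]
  zero_mem' := fun _ _ _ _ _ => rfl
  smul_mem' := fun c f hf x hx y hy g => by simp [hf x hx y hy g]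

/-- The multiplicity of the trivial character on `P`. -/
noncomputable def mult (P : Subgroup G) (χ : G → ℂ) : ℂ :=
  haveI := Fintype.ofFinite P
  (Nat.card P : ℂ)⁻¹ * ∑ u : P, χ u

theorem mult_eq (P : Subgroup G) [Fintype P] (χ : G → ℂ) :
    mult P χ = (Nat.card P : ℂ)⁻¹ * ∑ u : P, χ u := by
  unfold mult; congr 1; exact Finset.sum_congr (by ext; simp) fun _ _ => rfl

open scoped Classical in
theorem sum_mult (hpM : (p : AlgInt) ∈ M) (hB : IsPBlock M B) (P : Subgroup G)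
    (hP : IsPGroup p P) :
    ∑ χ ∈ bf B, (χ : G → ℂ) 1 * mult P (χ : G → ℂ) =
      (Nat.card P : ℂ)⁻¹ * ((∑ χ ∈ bf B, charDegree (χ : G → ℂ) ^ 2 : ℕ) : ℂ) := by
  simp only [mult_eq]
  calc ∑ χ ∈ bf B, (χ : G → ℂ) 1 * ((Nat.card P : ℂ)⁻¹ * ∑ u : P, (χ : G → ℂ) u)
      = (Nat.card P : ℂ)⁻¹ * ∑ u : P, ∑ χ ∈ bf B, (χ : G → ℂ) 1 * (χ : G → ℂ) u := by
        simp only [Finset.mul_sum]
        rw [Finset.sum_comm]
        exact Finset.sum_congr rfl fun u _ => Finset.sum_congr rfl fun χ _ => by ring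
    _ = _ := by
      congr 1
      rw [Finset.sum_eq_single (1 : P)]
      · push_cast
        exact Finset.sum_congr rfl fun χ _ => by
          rw [charDegree_cast (Chars.irr_isCharacter χ), pow_two]
      · intro u _ hu
        have hdvd : p ∣ orderOf ((u : G)⁻¹) := by
          rw [orderOf_inv, Subgroup.orderOf_coe]
          obtain ⟨j, hj⟩ := (IsPGroup.iff_orderOf.1 hP) u
          rcases Nat.eq_zero_or_pos j with rfl | hj0
          · rw [pow_zero, orderOf_eq_one_iff] at hj; exact absurd hj hu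
          · rw [hj]; exact dvd_pow_self p hj0.ne'
        have h := blockCoeff_eq_zero_of_dvd hpM hB hdvd
        rw [blockCoeff, finsum_mem_bf, mul_eq_zero] at h
        refine Eq.trans (Finset.sum_congr rfl fun χ _ => ?_)
          (h.resolve_left (inv_ne_zero Chars.card_ne_zero))
        rw [Chars.char_inv_eq_conj (Chars.irr_isCharacter χ), Complex.conj_conj]
      · exact fun h => absurd (Finset.mem_univ _) h

theorem mult_nat (hpM : (p : AlgInt) ∈ M) (P : Subgroup G) (χ : IrrCharacter G) :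
    ∃ m : ℕ, mult P (χ : G → ℂ) = m := by
  classical
  obtain ⟨n, ρ, htr⟩ : ∃ (n : ℕ) (ρ : G →* Matrix (Fin n) (Fin n) ℂ),
      ∀ g, (ρ g).trace = (χ : G → ℂ) g := by
    obtain ⟨n, ρ, -, -, h, -, -⟩ := exists_locRep hpM χ.2
    exact ⟨n, ρ, h⟩
  set e : Matrix (Fin n) (Fin n) ℂ := (Nat.card P : ℂ)⁻¹ • ∑ u : P, ρ u with he
  have hmul : ∀ v : P, ρ v * e = e := fun v => by
    rw [he, mul_smul_comm, Finset.mul_sum]
    congr 1
    exact Fintype.sum_equiv (Equiv.mulLeft v) _ _ fun u => by simp [map_mul]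
  have hee : e * e = e := by
    conv_lhs => arg 1; rw [he]
    rw [smul_mul_assoc, Finset.sum_mul, Finset.sum_congr rfl fun v _ => hmul v, Finset.sum_const,
      Finset.card_univ, ← Nat.card_eq_fintype_card, ← Nat.cast_smul_eq_nsmul ℂ, smul_smul,
      inv_mul_cancel₀ Chars.card_ne_zero, one_smul]
  refine ⟨finrank ℂ (LinearMap.range (Matrix.toLin' e)), ?_⟩
  have h1 := (LinearMap.IsProj.trace (p := LinearMap.range (Matrix.toLin' e))
    (f := Matrix.toLin' e) ⟨fun v => ⟨v, rfl⟩, ?_⟩)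
  · rw [← h1, Matrix.trace_toLin'_eq, he, Matrix.trace_smul, Matrix.trace_sum, smul_eq_mul, mult_eq]
    simp only [htr]
  · rintro _ ⟨v, rfl⟩
    rw [Matrix.toLin'_apply, Matrix.toLin'_apply, Matrix.mulVec_mulVec, hee]

open scoped Classical in
/-- One function spans the bi-invariant part of the block. -/
theorem exists_spanning (hpM : (p : AlgInt) ∈ M) (hB : IsPBlock M B) (P : Subgroup G)
    (χ₀ : IrrCharacter G) (hχ0B : χ₀ ∈ B) (hm0 : mult P (χ₀ : G → ℂ) = 1)
    (hm : ∀ χ ∈ B, χ ≠ χ₀ → mult P (χ : G → ℂ) = 0) :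
    ∃ w : G → ℂ, ∀ f ∈ biInv P, conv f (blockCoeff B) ∈ ℂ ∙ w := by
  choose n ρ _ _ htr _ _ using fun χ : IrrCharacter G => exists_locRep hpM χ.2
  set e : ∀ χ, Matrix (Fin (n χ)) (Fin (n χ)) ℂ :=
    fun χ => (Nat.card P : ℂ)⁻¹ • ∑ u : P, ρ χ u with he
  have htre : ∀ χ, (e χ).trace = mult P (χ : G → ℂ) := fun χ => by
    simp [he, Matrix.trace_sum, htr, mult_eq]
  refine ⟨fun g => (Nat.card G : ℂ)⁻¹ * ((χ₀ : G → ℂ) 1 * (ρ χ₀ g⁻¹ * e χ₀).trace), fun f hf => ?_⟩
  set Z : ∀ χ, Matrix (Fin (n χ)) (Fin (n χ)) ℂ := fun χ => ∑ x, f x • ρ χ x with hZ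
  have hrhoZ : ∀ χ (u : P), ρ χ u * Z χ = Z χ ∧ Z χ * ρ χ u = Z χ := by
    intro χ u
    constructor
    · rw [hZ, Finset.mul_sum]
      refine Fintype.sum_equiv (Equiv.mulLeft (u : G)) _ _ fun x => ?_
      rw [mul_smul_comm, ← map_mul]
      show f x • _ = f ((u : G) * x) • _
      have h := hf u u.2 1 (one_mem P) x
      rw [mul_one] at h
      rw [h]
      rfl
    · rw [hZ, Finset.sum_mul]
      refine Fintype.sum_equiv (Equiv.mulRight (u : G)) _ _ fun x => ?_
      rw [smul_mul_assoc, ← map_mul]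
      show f x • _ = f (x * u) • _
      have h := hf 1 (one_mem P) u u.2 x
      rw [one_mul] at h
      rw [h]
      rfl
  have heZ : ∀ χ, e χ * Z χ = Z χ ∧ Z χ * e χ = Z χ := by
    intro χ
    constructor
    · rw [he, smul_mul_assoc, Finset.sum_mul, Finset.sum_congr rfl fun u _ => (hrhoZ χ u).1,
        Finset.sum_const, Finset.card_univ, ← Nat.card_eq_fintype_card,
        ← Nat.cast_smul_eq_nsmul ℂ, smul_smul, inv_mul_cancel₀ Chars.card_ne_zero, one_smul]
    · rw [he, mul_smul_comm, Finset.mul_sum, Finset.sum_congr rfl fun u _ => (hrhoZ χ u).2,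
        Finset.sum_const, Finset.card_univ, ← Nat.card_eq_fintype_card,
        ← Nat.cast_smul_eq_nsmul ℂ, smul_smul, inv_mul_cancel₀ Chars.card_ne_zero, one_smul]
  have hee : ∀ χ, e χ * e χ = e χ := by
    intro χ
    have hv : ∀ v : P, ρ χ v * e χ = e χ := fun v => by
      rw [he, mul_smul_comm, Finset.mul_sum]
      congr 1
      exact Fintype.sum_equiv (Equiv.mulLeft v) _ _ fun u => by simp [map_mul]
    conv_lhs => arg 1; rw [he]
    rw [smul_mul_assoc, Finset.sum_mul, Finset.sum_congr rfl fun v _ => hv v, Finset.sum_const,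
      Finset.card_univ, ← Nat.card_eq_fintype_card, ← Nat.cast_smul_eq_nsmul ℂ, smul_smul,
      inv_mul_cancel₀ Chars.card_ne_zero, one_smul]
  have hproj : ∀ χ, (finrank ℂ (LinearMap.range (Matrix.toLin' (e χ))) : ℂ) =
      mult P (χ : G → ℂ) := by
    intro χ
    rw [← htre, ← Matrix.trace_toLin'_eq]
    refine (LinearMap.IsProj.trace (p := LinearMap.range (Matrix.toLin' (e χ)))
      (f := Matrix.toLin' (e χ)) ⟨fun v => ⟨v, rfl⟩, ?_⟩).symm
    rintro _ ⟨v, rfl⟩
    rw [Matrix.toLin'_apply, Matrix.toLin'_apply, Matrix.mulVec_mulVec, hee]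
  have hZ0 : ∀ χ ∈ B, χ ≠ χ₀ → Z χ = 0 := by
    intro χ hχ hne
    have h := hproj χ
    rw [hm χ hχ hne, Nat.cast_eq_zero, Submodule.finrank_eq_zero, LinearMap.range_eq_bot,
      LinearEquiv.map_eq_zero_iff] at h
    rw [← (heZ χ).1, h, zero_mul]
  obtain ⟨c, hc⟩ : ∃ c : ℂ, Z χ₀ = c • e χ₀ := by
    have h := hproj χ₀
    rw [hm0, Nat.cast_eq_one, finrank_eq_one_iff'] at h
    obtain ⟨⟨v, hv⟩, -, hspan⟩ := h
    obtain ⟨c, hc⟩ := hspan ⟨Matrix.toLin' (e χ₀) (Matrix.toLin' (Z χ₀) v), ⟨_, rfl⟩⟩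
    refine ⟨c, Matrix.toLin'.injective (LinearMap.ext fun y => ?_)⟩
    obtain ⟨a, ha⟩ := hspan ⟨Matrix.toLin' (e χ₀) y, ⟨_, rfl⟩⟩
    have hc' := congrArg Subtype.val hc
    have ha' := congrArg Subtype.val ha
    simp only [SetLike.val_smul] at hc' ha'
    rw [map_smul, LinearMap.smul_apply, ← ha']
    conv_lhs => rw [← (heZ χ₀).2, Matrix.toLin'_mul, LinearMap.comp_apply, ← ha', map_smul,
      ← (heZ χ₀).1, Matrix.toLin'_mul, LinearMap.comp_apply, ← hc']
    rw [smul_comm]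
  refine Submodule.mem_span_singleton.2 ⟨c, funext fun g => ?_⟩
  rw [Pi.smul_apply, smul_eq_mul]
  symm
  calc conv f (blockCoeff B) g
      = (Nat.card G : ℂ)⁻¹ * ∑ χ ∈ bf B, (χ : G → ℂ) 1 * (ρ χ g⁻¹ * Z χ).trace := by
        simp only [conv, blockCoeff, finsum_mem_bf, Finset.mul_sum, hZ, Matrix.trace_sum,
          mul_smul_comm, Matrix.trace_smul, smul_eq_mul, ← map_mul, htr]
        rw [Finset.sum_comm]
        refine Finset.sum_congr rfl fun χ _ => Finset.sum_congr rfl fun x _ => ?_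
        rw [← Chars.char_inv_eq_conj (Chars.irr_isCharacter χ)]
        rw [mul_inv_rev, inv_inv]
        ring
    _ = _ := by
      rw [Finset.sum_eq_single χ₀]
      · rw [hc, mul_smul_comm, Matrix.trace_smul, smul_eq_mul]; ring
      · intro χ hχ hne; rw [hZ0 χ (mem_bf.1 hχ) hne, mul_zero, Matrix.trace_zero, mul_zero]
      · exact fun h => absurd (mem_bf.2 hχ0B) h

end Cfsg.Agent.Blocks.MinimalDim
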