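import Cfsg.Agent.Blocks.MinimalDim
import Mathlib.GroupTheory.GroupAction.Quotient

/-!
Nilpotency of a block of minimal dimension.
-/

namespace Cfsg.Agent.Blocks.MinimalDim

open Cfsg Cfsg.Agent Cfsg.Agent.BlockChar Cfsg.Agent.Blocks Module
open scoped MonoidAlgebra Pointwise

set_option autoImplicit false
set_option linter.unusedSectionVars false
set_option linter.style.haveILetI false

universe u

variable {G : Type u} [Group G] [Fintype G] {p : ℕ} [Fact p.Prime] {M : Ideal AlgInt}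
  [M.IsMaximal] {B : Set (IrrCharacter G)}

/-- The size of a double coset. -/
theorem ncard_dc_mul (P : Subgroup G) (g : G) :
    (dc P g).ncard * Nat.card (P ⊓ conjS g P : Subgroup G) = Nat.card P * Nat.card P := by
  classical
  letI : MulAction (P × P) G :=
    { smul := fun w a => (w.1 : G) * a * (w.2 : G)⁻¹
      one_smul := fun a => by show ((1 : P) : G) * a * ((1 : P) : G)⁻¹ = a; simp
      mul_smul := fun v w a => by
        show ((v.1 * w.1 : P) : G) * a * ((v.2 * w.2 : P) : G)⁻¹ =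
          (v.1 : G) * ((w.1 : G) * a * (w.2 : G)⁻¹) * (v.2 : G)⁻¹
        simp [mul_assoc] }
  have horb : MulAction.orbit (P × P) g = dc P g := by
    ext h
    constructor
    · rintro ⟨⟨x, y⟩, rfl⟩
      exact ⟨x, x.2, (y : G)⁻¹, P.inv_mem y.2, rfl⟩
    · rintro ⟨x, hx, y, hy, rfl⟩
      exact ⟨(⟨x, hx⟩, ⟨y⁻¹, P.inv_mem hy⟩), by show x * g * y⁻¹⁻¹ = _; rw [inv_inv]⟩
  have hst : Nat.card (MulAction.stabilizer (P × P) g) = Nat.card (P ⊓ conjS g P : Subgroup G) :=
    Nat.card_congr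
      { toFun := fun w => ⟨((w : P × P).1 : G), (w : P × P).1.2, mem_conjS.2 (by
          have h : ((w : P × P).1 : G) * g * ((w : P × P).2 : G)⁻¹ = g := w.2
          have : g⁻¹ * ((w : P × P).1 : G) * g = ((w : P × P).2 : G) := by
            rw [mul_inv_eq_iff_eq_mul] at h
            rw [mul_assoc, h, inv_mul_cancel_left]
          rw [this]; exact (w : P × P).2.2)⟩
        invFun := fun x => ⟨(⟨x, x.2.1⟩, ⟨g⁻¹ * (x : G) * g, mem_conjS.1 x.2.2⟩), by
          show (x : G) * g * (g⁻¹ * (x : G) * g)⁻¹ = g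
          group⟩
        left_inv := fun w => by
          have h : ((w : P × P).1 : G) * g * ((w : P × P).2 : G)⁻¹ = g := w.2
          rw [mul_inv_eq_iff_eq_mul] at h
          refine Subtype.ext (Prod.ext rfl (Subtype.ext ?_))
          show g⁻¹ * ((w : P × P).1 : G) * g = ((w : P × P).2 : G)
          rw [mul_assoc, h, inv_mul_cancel_left]
        right_inv := fun x => rfl }
  have h := MulAction.card_orbit_mul_card_stabilizer_eq_card_group (P × P) g
  simp only [← Nat.card_eq_fintype_card] at h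
  rw [horb, hst, Nat.card_prod, Nat.card_coe_set_eq] at h
  exact h

/-- A block of minimal dimension is nilpotent. -/
theorem nilpotent_of_minimal (hpM : (p : AlgInt) ∈ M) (hB : IsPBlock M B) {D : Subgroup G}
    (hD : IsDefectGroup p M B D) {a d : ℕ} (ha : (Nat.card G).factorization p = a)
    (hd : Nat.card D = p ^ d)
    (hmin : ∑ χ ∈ bf B, charDegree (χ : G → ℂ) ^ 2 = p ^ (2 * a - d)) :
    IsNilpotentBlock p M B := by
  classical
  haveI := charP_res (p := p) hpM
  have hbb := isBlk_idemG hpM hB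
  refine ⟨hB, fun Q e hQe x hxN _ hxr => ?_⟩
  obtain ⟨⟨hQp, -⟩, -, hof⟩ := (isBrauerPairOf_iff hpM).1 hQe
  have hQne : br Q (idemG M B) ≠ 0 := by
    intro h0
    have h1 : br Q (idemG M B) * idemS M e = idemS M e := hof
    rw [h0, zero_mul] at h1
    exact (isBlk_idemS hpM hQe.1.2).ne_zero h1.symm
  obtain ⟨P, hQP⟩ := hQp.exists_le_sylow
  have hPa : Nat.card (P : Subgroup G) = p ^ a := by rw [P.card_eq_multiplicity, ha]
  -- a defect group inside `P`
  obtain ⟨S, hDS⟩ := (isPGroup_defect hD).exists_le_sylow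
  obtain ⟨t, ht⟩ := MulAction.exists_smul_eq G S P
  set D' := conjS t D with hD'def
  have hDdef := (isDefectGroup_iff_idemG hpM hB D).mp hD
  have hD' := hDdef.conj hbb (Subgroup.mem_top t)
  have hD'P : D' ≤ (P : Subgroup G) := by
    intro u hu
    rw [hD'def, mem_conjS] at hu
    rw [← ht]
    show u ∈ MulAut.conj t • (S : Subgroup G)
    rw [Subgroup.mem_pointwise_smul_iff_inv_smul_mem]
    simpa [MulAut.smul_def] using hDS hu
  obtain ⟨g, hinj, hspan⟩ := exists_double_coset hpM hB P.isPGroup' hD ha hPa hd hmin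
  obtain ⟨g₀, hg₀, hg₀c⟩ := exists_fixed_point (p := p) hpM hB hspan hinj
    (Q := D') (x := 1) hD'.pgroup hD'P (fun u hu => by simpa using hD'P hu) hD'.ne_zero
  simp only [inv_one, one_mul, mul_one] at hg₀c
  have hcard : (dc (P : Subgroup G) g).ncard = p ^ (2 * a - d) := by
    rw [← finrank_supOn (M := M), ← hmin, ← BlockDim.finrank_block hpM hB]
    refine (LinearEquiv.ofBijective (LinearMap.codRestrict
      (LinearMap.range (LinearMap.mulRight (Res M) (idemG M B)))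
      ((LinearMap.mulRight (Res M) (idemG M B)).comp (supOn M (dc (P : Subgroup G) g)).subtype)
      fun z => ⟨z, rfl⟩) ⟨?_, ?_⟩).finrank_eq
    · rw [← LinearMap.ker_eq_bot, eq_bot_iff]
      intro z hz
      rw [LinearMap.mem_ker] at hz
      exact (Submodule.mem_bot _).2 (Subtype.ext (hinj z z.2 (congrArg Subtype.val hz)))
    · rintro ⟨w, hw⟩
      obtain ⟨z, hz, hzw⟩ := hspan w hw
      exact ⟨⟨z, hz⟩, Subtype.ext hzw⟩
  have hdc : dc (P : Subgroup G) g₀ = dc (P : Subgroup G) g := by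
    obtain ⟨x₁, hx₁, y₁, hy₁, rfl⟩ := hg₀
    ext h
    constructor
    · rintro ⟨a', ha', b', hb', rfl⟩
      exact ⟨a' * x₁, (P : Subgroup G).mul_mem ha' hx₁, y₁ * b', (P : Subgroup G).mul_mem hy₁ hb',
        by group⟩
    · rintro ⟨a', ha', b', hb', rfl⟩
      exact ⟨a' * x₁⁻¹, (P : Subgroup G).mul_mem ha' ((P : Subgroup G).inv_mem hx₁), y₁⁻¹ * b',
        (P : Subgroup G).mul_mem ((P : Subgroup G).inv_mem hy₁) hb', by group⟩
  have hR : D' = (P : Subgroup G) ⊓ conjS g₀ (P : Subgroup G) := by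
    refine Subgroup.eq_of_le_of_card_ge (fun u hu => ⟨hD'P hu, mem_conjS.2 ?_⟩) ?_
    · rw [hg₀c u hu]; exact hD'P hu
    · have h := ncard_dc_mul (P : Subgroup G) g₀
      rw [hdc, hcard, hPa] at h
      rw [hD'def, card_conjS, hd]
      have hda : d ≤ a := by
        have h2 := Subgroup.card_dvd_of_le hD'P
        rw [hD'def, card_conjS, hd, hPa] at h2
        exact (Nat.pow_dvd_pow_iff_le_right (Fact.out : p.Prime).one_lt).1 h2
      have h3 : p ^ a * p ^ a = p ^ (2 * a - d) * p ^ d := by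
        rw [← pow_add, ← pow_add]; congr 1; omega
      rw [h3] at h
      exact le_of_eq (Nat.eq_of_mul_eq_mul_left (pow_pos (Fact.out : p.Prime).pos _) h)
  -- the action of `x`
  have hnorm : ∀ u, u ∈ Q ↔ x⁻¹ * u * x ∈ Q := Subgroup.mem_normalizer_iff''.1 hxN
  obtain ⟨o, ho, hofix⟩ := exists_fixed_point (p := p) hpM hB hspan hinj
    (Q := Q) (x := x) hQp hQP (fun u hu => hQP ((hnorm u).1 hu)) hQne
  rw [← hdc] at ho
  obtain ⟨y₁, hy₁, y₂, hy₂, rfl⟩ := ho
  set w := y₁ * y₂ with hw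
  have hwP : w ∈ (P : Subgroup G) := (P : Subgroup G).mul_mem hy₁ hy₂
  have hact : ∀ u ∈ Q, x⁻¹ * u * x = w⁻¹ * u * w := by
    intro u hu
    have h1 : y₁⁻¹ * u * y₁ ∈ D' := by
      rw [hR]
      refine ⟨(P : Subgroup G).mul_mem ((P : Subgroup G).mul_mem ((P : Subgroup G).inv_mem hy₁)
        (hQP hu)) hy₁, mem_conjS.2 ?_⟩
      have h2 : g₀⁻¹ * (y₁⁻¹ * u * y₁) * g₀ =
          y₂ * ((y₁ * g₀ * y₂)⁻¹ * u * (y₁ * g₀ * y₂)) * y₂⁻¹ := by group
      rw [h2, hofix u hu]
      exact (P : Subgroup G).mul_mem ((P : Subgroup G).mul_mem hy₂ (hQP ((hnorm u).1 hu)))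
        ((P : Subgroup G).inv_mem hy₂)
    calc x⁻¹ * u * x = (y₁ * g₀ * y₂)⁻¹ * u * (y₁ * g₀ * y₂) := (hofix u hu).symm
      _ = y₂⁻¹ * (g₀⁻¹ * (y₁⁻¹ * u * y₁) * g₀) * y₂ := by group
      _ = w⁻¹ * u * w := by rw [hg₀c _ h1, hw]; group
  have hpow : ∀ (n : ℕ), ∀ u ∈ Q,
      (x ^ n)⁻¹ * u * x ^ n = (w ^ n)⁻¹ * u * w ^ n ∧ (x ^ n)⁻¹ * u * x ^ n ∈ Q := by
    intro n
    induction n with
    | zero => intro u hu; simpa using hu
    | succ n ih =>
      intro u hu
      obtain ⟨h1, h2⟩ := ih u hu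
      have h3 : (x ^ (n + 1))⁻¹ * u * x ^ (n + 1) = x⁻¹ * ((x ^ n)⁻¹ * u * x ^ n) * x := by
        rw [pow_succ]; group
      refine ⟨?_, by rw [h3]; exact (hnorm _).1 h2⟩
      rw [h3, hact _ h2, h1, pow_succ w]
      group
  obtain ⟨j, hj⟩ := P.isPGroup' ⟨w, hwP⟩
  have hwj : w ^ p ^ j = 1 := congrArg Subtype.val hj
  have hxj : x ^ p ^ j ∈ Subgroup.centralizer (Q : Set G) := by
    rw [Subgroup.mem_centralizer_iff]
    intro u hu
    have h := (hpow (p ^ j) u hu).1
    rw [hwj, inv_one, one_mul, mul_one, mul_assoc, inv_mul_eq_iff_eq_mul] at h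
    exact h
  obtain ⟨m, hm⟩ := exists_pow_eq_self_of_coprime (n := p ^ j) (x := x)
    (((Fact.out : p.Prime).coprime_iff_not_dvd.2 hxr).pow_left j)
  rw [← hm]
  exact Subgroup.pow_mem _ hxj m

end Cfsg.Agent.Blocks.MinimalDim
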