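import Cfsg.Agent.Blocks.StableCover
import Cfsg.Agent.Blocks.FirstMain
import Cfsg.Agent.BlockChar.SubAlg
import Cfsg.Agent.Chars.CosetComponent

/-!
Covering blocks and the normalizer of a defect group of the covered block.
-/

namespace Cfsg.Agent.Blocks

open Cfsg Cfsg.Agent Cfsg.Agent.BlockChar
open scoped MonoidAlgebra

set_option linter.style.haveILetI false
set_option linter.unusedSectionVars false

universe u

variable {G : Type u} [Group G] [Fintype G] {p : ℕ} [Fact p.Prime] {M : Ideal AlgInt}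
  [M.IsMaximal]

/-- Covering inside a subgroup, as non-vanishing of the product of the idempotents. -/
theorem coversIn_iff (hpM : (p : AlgInt) ∈ M) {H K : Subgroup G} (hKH : K ≤ H)
    (hnorm : H ≤ Subgroup.normalizer (K : Set G)) [Fintype K]
    {c : Set (IrrCharacter H)} (hc : IsPBlock M c) {e : Set (IrrCharacter K)}
    (he : IsPBlock M e) :
    (∃ ψ ∈ c, ∃ ξ ∈ e, classInner (fun l : K => (ψ : H → ℂ) (Subgroup.inclusion hKH l))
        (ξ : K → ℂ) ≠ 0) ↔
      idemS M c * idemS M e ≠ 0 := by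
  classical
  haveI : Fintype H := Fintype.ofFinite H
  haveI : Fintype (K.subgroupOf H) := Fintype.ofFinite _
  haveI : (K.subgroupOf H).Normal := ⟨fun n hn h =>
    Subgroup.mem_subgroupOf.2 ((Subgroup.mem_normalizer_iff.1 (hnorm h.2) _).1
      (Subgroup.mem_subgroupOf.1 hn))⟩
  set φ : K ≃* K.subgroupOf H := (Subgroup.subgroupOfEquivOfLe hKH).symm with hφ
  have hφc : ∀ l : K, ((φ l : K.subgroupOf H) : H) = Subgroup.inclusion hKH l := fun l => rfl
  have he' := isPBlock_mapSet φ he
  have hinner : ∀ (ψ : IrrCharacter H) (ξ' : IrrCharacter (K.subgroupOf H)),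
      classInner (fun l : K => (ψ : H → ℂ) (Subgroup.inclusion hKH l)) (irrEquiv φ ξ' : K → ℂ) =
        classInner (fun n : K.subgroupOf H => (ψ : H → ℂ) n) (ξ' : K.subgroupOf H → ℂ) := by
    intro ψ ξ'
    simp only [Chars.classInner_def, Nat.card_congr φ.toEquiv]
    congr 1
    refine Fintype.sum_equiv φ.toEquiv _ _ fun l => ?_
    rw [irrEquiv_apply]
    rfl
  have hidem : idemS M c * idemS M e =
      emb (Res M) H (idemG M c * idemS M (mapSet φ e)) := by
    rw [map_mul, emb_idemG]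
    congr 1
    have h1 : idem M (H.subtype.comp (K.subgroupOf H).subtype) (mapSet φ e) = idemS M e :=
      idem_mapSet (M := M) K.subtype_injective φ rfl e
    rw [← h1]
    ext g
    by_cases hg : g ∈ H
    · rw [show g = ((⟨g, hg⟩ : H) : G) from rfl, coeff_emb]
      by_cases hgK : (⟨g, hg⟩ : H) ∈ K.subgroupOf H
      · rw [show (⟨g, hg⟩ : H) = (K.subgroupOf H).subtype ⟨_, hgK⟩ from rfl, idemS, idem, idem,
          coeff_red (K.subgroupOf H).subtype_injective]
        exact coeff_red (M := M) (ι := H.subtype.comp (K.subgroupOf H).subtype)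
          (H.subtype_injective.comp (K.subgroupOf H).subtype_injective)
          (blockCoeff (mapSet φ e)) ⟨⟨g, hg⟩, hgK⟩
      · rw [idemS, idem, idem,
          coeff_red_of_notMem _ (g := (⟨g, hg⟩ : H)) (by rwa [Subgroup.range_subtype]),
          coeff_red_of_notMem]
        rintro ⟨z, hz⟩
        apply hgK
        have : (z : H) = ⟨g, hg⟩ := Subtype.ext hz
        rw [← this]
        exact z.2
    · rw [supportedIn_emb _ g hg, idem, coeff_red_of_notMem]
      rintro ⟨z, hz⟩
      exact hg (hz ▸ (z : H).2)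
  rw [hidem, map_ne_zero_iff _ emb_injective]
  constructor
  · rintro ⟨ψ, hψ, ξ, hξ, hne⟩
    refine Chars.Coset.idemG_mul_idemS_ne_zero hpM hc he'
      ⟨ψ, hψ, (irrEquiv φ).symm ξ, ?_, ?_⟩
    · show irrEquiv φ _ ∈ e
      rwa [Equiv.apply_symm_apply]
    · rwa [← hinner, Equiv.apply_symm_apply]
  · intro h
    obtain ⟨ψ, hψ, ξ', hξ', hne⟩ := covers_of_idem_mul_ne_zero hpM hc he' h
    exact ⟨ψ, hψ, irrEquiv φ ξ', hξ', by rwa [hinner]⟩

variable {N Q : Subgroup G}

/-- The Brauer image of a block at a defect group, inside a normal subgroup. -/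
theorem br_eq_of_inducedIn (hpM : (p : AlgInt) ∈ M) (hQN : Q ≤ N) [Fintype N]
    {d : Set (IrrCharacter N)} (hd : IsPBlock M d)
    (hdQ : IsDefectGroup p M d (Q.subgroupOf N))
    {e : Set (IrrCharacter ↥(Subgroup.normalizer (Q : Set G) ⊓ N))} (he : IsPBlock M e)
    (hed : IsInducedBlockIn M N (Subgroup.normalizer (Q : Set G) ⊓ N) e d) :
    br Q (idemS M d) = idemS M e := by
  classical
  haveI := charP_res (p := p) hpM
  set K := Subgroup.normalizer (Q : Set G) ⊓ N with hK
  set Q' := Q.subgroupOf N with hQ'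
  have hQm : Q'.map N.subtype = Q := by
    rw [hQ', Subgroup.subgroupOf_map_subtype, inf_eq_left.2 hQN]
  set K' := Subgroup.normalizer (Q' : Set N) with hK'
  have hKm : K'.map N.subtype = K := by
    ext g
    constructor
    · rintro ⟨x, hx, rfl⟩
      exact ⟨hQm ▸ (mem_normalizer_map_iff Q' x).2 hx, x.2⟩
    · rintro ⟨hg, hgN⟩
      exact ⟨⟨g, hgN⟩, (mem_normalizer_map_iff Q' ⟨g, hgN⟩).1 (by rwa [hQm]), rfl⟩
  obtain ⟨w, hw⟩ := exists_emb_eq (k := Res M) ((isBlk_idemS (G := G) hpM he).supp.mono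
    (inf_le_right : K ≤ N))
  have hwB : IsBlk K' w := (isBlk_emb_iff K' w).1 (by rw [hKm, hw]; exact isBlk_idemS hpM he)
  have hδ := isBlk_idemG (G := N) hpM hd
  have hD := (isDefectGroup_iff_idemG hpM hd Q').1 hdQ
  have hind : InducesIn (⊤ : Subgroup N) K' w (idemG M d) := by
    have h0 := (isInducedBlockIn_iff hpM (inf_le_right : K ≤ N) he hd).1 hed
    have hsm : ∀ (a : Res M) (x : (Res M)[N]),
        emb (Res M) N (a • x) = a • emb (Res M) N x := fun a x => by
      ext g
      by_cases hg : g ∈ N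
      · rw [show g = ((⟨g, hg⟩ : N) : G) from rfl, coeff_emb, MonoidAlgebra.coeff_smul,
          MonoidAlgebra.coeff_smul, Finsupp.smul_apply, Finsupp.smul_apply, coeff_emb]
      · rw [supportedIn_emb _ g hg, MonoidAlgebra.coeff_smul, Finsupp.smul_apply,
          supportedIn_emb _ g hg, smul_zero]
    have htr : ∀ x : (Res M)[N], trunc K (emb (Res M) N x) = emb (Res M) N (trunc K' x) := fun x => by
      ext g
      by_cases hg : g ∈ N
      · rw [show g = ((⟨g, hg⟩ : N) : G) from rfl, coeff_emb]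
        by_cases hgK : (⟨g, hg⟩ : N) ∈ K'
        · rw [coeff_trunc_of_mem _ hgK,
            coeff_trunc_of_mem _ (hKm ▸ Subgroup.mem_map_of_mem _ hgK : ((⟨g, hg⟩ : N) : G) ∈ K), coeff_emb]
        · rw [coeff_trunc_of_notMem _ hgK, coeff_trunc_of_notMem]
          rw [← hKm]
          rintro ⟨z, hz, hzg⟩
          exact hgK (by rwa [show z = (⟨g, hg⟩ : N) from Subtype.ext hzg] at hz)
      · rw [supportedIn_emb _ g hg, coeff_trunc_of_notMem _ (fun h : g ∈ K => hg (Subgroup.mem_inf.1 h).2)]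
    intro z hz a ha
    have hzN : CentralIn N (emb (Res M) N z) := by
      have h := (centralIn_emb_iff ⊤ z).2 hz
      rwa [← MonoidHom.range_eq_map, Subgroup.range_subtype] at h
    have hnil := h0 _ hzN a (by
      have h := ha.map (emb (Res M) N)
      rwa [map_sub, map_mul, hsm, emb_idemG] at h)
    rw [htr, ← hw, ← hsm, ← map_mul, ← map_sub] at hnil
    exact (IsNilpotent.map_iff emb_injective).1 hnil
  have hCK : Subgroup.centralizer (Q' : Set N) ≤ K' := centralizer_le_normalizer Q'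
  have hQK : Q' ≤ K' := Subgroup.le_normalizer
  have hbrw := br_blk_eq_self (p := p) hD.pgroup hQK le_rfl hwB
  obtain ⟨f, hf, hwf⟩ := exists_pair_of_br_ne_zero hwB hQK hD.pgroup hCK
    (by rw [hbrw]; exact hwB.ne_zero)
  have hdf := (inducesIn_iff_ofBlock le_top hf hQK hCK hwB hwf hδ).1 hind
  have hwf' : w * f = f := by
    unfold OfBlock at hwf
    rwa [hbrw] at hwf
  have h := congrArg (emb (Res M) N) (br_eq_blk_above le_top hδ hD hf hdf hwB hwf')
  rwa [emb_br, hQm, emb_idemG, hw] at h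

variable [hNn : N.Normal]

/-- Blocks of `N(Q)` over the Brauer image have a defect group meeting `N` in `Q`. -/
theorem exists_maxPair_over (hpM : (p : AlgInt) ∈ M) (hQ : IsPGroup p Q) (hQN : Q ≤ N)
    {δ ε c : (Res M)[G]} (hδ : IsBlk N δ) (hδQ : IsDef p N δ Q)
    (hε : IsBlk (Subgroup.normalizer (Q : Set G) ⊓ N) ε) (hbr : br Q δ = ε)
    (hc : IsBlk (Subgroup.normalizer (Q : Set G)) c) (hcε : c * ε ≠ 0) :
    ∃ D f, D ≤ Subgroup.normalizer (Q : Set G) ∧ D ⊓ N = Q ∧ IsMaxPair p D f ∧
      OfBlock c D f := by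
  classical
  haveI := charP_res (p := p) hpM
  set H := Subgroup.normalizer (Q : Set G) with hH
  have hQH : Q ≤ H := Subgroup.le_normalizer
  obtain ⟨D, hD⟩ := exists_isDef (p := p) hc
  have hQD : Q ≤ D := by
    obtain ⟨h, hh, hle⟩ := hD.maximal Q hQH hQ
      (by rw [br_blk_eq_self (p := p) hQ hQH le_rfl hc]; exact hc.ne_zero)
    have h1 := conjS_le (x := h⁻¹) hle
    rwa [conjS_inv_conjS, conjS_eq_self_of_mem_normalizer (H.inv_mem hh)] at h1
  have hKn : ∀ h : H, conjS (h : G) (H ⊓ N) = H ⊓ N := fun h => by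
    refine conjS_eq_self_of_mem_normalizer (Subgroup.mem_normalizer_iff.2 fun g => ?_)
    constructor
    · exact fun hg => ⟨H.mul_mem (H.mul_mem h.2 hg.1) (H.inv_mem h.2), hNn.conj_mem g hg.2 h⟩
    · intro hg
      have h1 := H.mul_mem (H.mul_mem (H.inv_mem h.2) hg.1) h.2
      have h2 := hNn.conj_mem _ hg.2 (h : G)⁻¹
      simp only [inv_inv] at h2
      simp only [mul_assoc, inv_mul_cancel_left, inv_mul_cancel, mul_one] at h1 h2
      exact ⟨h1, h2⟩
  let O : Finset (Res M)[G] := Finset.univ.image (fun h : H => cj (h : G) ε)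
  set E : (Res M)[G] := ∑ x ∈ O, x with hE
  have hOblk : ∀ x ∈ O, IsBlk (H ⊓ N) x := fun x hx => by
    obtain ⟨h, -, rfl⟩ := Finset.mem_image.1 hx
    have := hε.cj (h : G)
    rwa [hKn h] at this
  have hEε : E * ε = ε := by
    have hεO : ε ∈ O := Finset.mem_image.2 ⟨1, Finset.mem_univ _, by simp⟩
    rw [hE, Finset.sum_mul, Finset.sum_eq_single ε]
    · exact hε.idem
    · exact fun x hx hne => (hOblk x hx).orth hε hne
    · exact fun h => absurd hεO h
  have hEfix : Fixed H E := by
    intro y hy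
    rw [hE, map_sum]
    refine Finset.sum_nbij' (fun x => cj y x) (fun x => cj y⁻¹ x) ?_ ?_ (fun x _ => by simp)
      (fun x _ => by simp) (fun x _ => rfl)
    · intro x hx
      obtain ⟨h, -, rfl⟩ := Finset.mem_image.1 hx
      exact Finset.mem_image.2 ⟨⟨y, hy⟩ * h, Finset.mem_univ _, by rw [Subgroup.coe_mul, cj_mul]⟩
    · intro x hx
      obtain ⟨h, -, rfl⟩ := Finset.mem_image.1 hx
      exact Finset.mem_image.2 ⟨⟨y, hy⟩⁻¹ * h, Finset.mem_univ _, by
        rw [Subgroup.coe_mul, Subgroup.coe_inv, cj_mul]⟩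
  have hEc : CentralIn H E :=
    ⟨((CentralIn.sum fun x hx => (hOblk x hx).central).supp).mono inf_le_left, hEfix⟩
  have hEE : E * E = E := by
    conv_rhs => rw [hE]
    rw [hE, Finset.sum_mul]
    refine Finset.sum_congr rfl fun x hx => ?_
    rw [Finset.mul_sum, Finset.sum_eq_single x]
    · exact (hOblk x hx).idem
    · exact fun z hz hne => (hOblk x hx).orth (hOblk z hz) (Ne.symm hne)
    · exact fun h => absurd hx h
  have hEcc : E * c = c := (hc.prim E hEc hEE).resolve_left fun h0 => hcε (by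
    calc c * ε = c * (E * ε) := by rw [hEε]
      _ = (c * E) * ε := (mul_assoc _ _ _).symm
      _ = 0 := by rw [← hEc.comm hc.supp, h0, zero_mul])
  have hDN : D ⊓ N = Q := by
    refine (Subgroup.eq_of_le_of_card_ge (le_inf hQD hQN) ?_).symm
    set R := D ⊓ N with hR
    have hRp : IsPGroup p R := hD.pgroup.to_le inf_le_left
    have hne : br R E ≠ 0 := by
      intro h0
      apply hD.ne_zero
      rw [← br_br (inf_le_left : R ≤ D)]
      have hRH : R ≤ H := inf_le_left.trans hD.le
      rw [← hEcc, br_mul hRp (hEfix.mono hRH) (hc.fixed.mono hRH), h0, zero_mul, map_zero]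
    rw [hE, map_sum] at hne
    obtain ⟨x, hx, hx0⟩ := Finset.exists_ne_zero_of_sum_ne_zero hne
    obtain ⟨h, -, rfl⟩ := Finset.mem_image.1 hx
    set R' := conjS (h : G)⁻¹ R with hR'
    have hQR : Q ≤ R' := by
      have h1 := conjS_le (x := (h : G)⁻¹) (le_inf hQD hQN : Q ≤ R)
      rwa [conjS_eq_self_of_mem_normalizer (H.inv_mem h.2)] at h1
    have hR'N : R' ≤ N := by
      refine (conjS_le inf_le_right).trans (le_of_eq ?_)
      exact conjS_eq_self_of_mem_normalizer ((Subgroup.normalizer_eq_top N).ge (Subgroup.mem_top _))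
    have hne' : br R' δ ≠ 0 := by
      rw [← br_br hQR, hbr]
      intro h0
      apply hx0
      have h1 := congrArg (cj (k := Res M) (h : G)) h0
      rwa [map_zero, br_cj, hR', conjS_conjS_inv] at h1
    have := hδQ.card_le hR'N (isPGroup_conjS _ hRp) hne'
    rwa [hR', card_conjS] at this
  have hCD : Subgroup.centralizer (D : Set G) ≤ H :=
    (centralizer_anti hQD).trans (centralizer_le_normalizer Q)
  have hND : Subgroup.normalizer (D : Set G) ≤ H := by
    intro x hx
    refine mem_normalizer_of_conjS_eq ?_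
    rw [← hDN, show conjS x (D ⊓ N) = conjS x D ⊓ conjS x N from
      Subgroup.map_inf _ _ _ (MulAut.conj x).injective, conjS_eq_self_of_mem_normalizer hx,
      conjS_eq_self_of_mem_normalizer ((Subgroup.normalizer_eq_top N).ge (Subgroup.mem_top x))]
  obtain ⟨f, hf, hcf⟩ := exists_pair_of_br_ne_zero hc hD.le hD.pgroup hCD hD.ne_zero
  exact ⟨D, f, hD.le, hDN, ⟨hf, fun R g hs =>
    (isMaxPairIn_of_isDef hc hD hCD hf hcf).max R g (hs.norm.trans hND) hs⟩, hcf⟩

end Cfsg.Agent.Blocks
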