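import Cfsg.Agent.Blocks.Nagao
import Cfsg.Agent.Blocks.Defect
import Cfsg.Agent.Chars.GaloisValues
import Cfsg.Agent.Chars2.GaloisPerm
import Cfsg.Agent.DegreeGraph.RootField
import Mathlib.Data.ZMod.Units

/-!
The size of the set of characters conjugate under the automorphisms fixing the roots of unity of
order prime to `p`.
-/

namespace Cfsg.Agent.Blocks.PConjugate

open Cfsg Cfsg.Agent Cfsg.Agent.Blocks
open scoped ComplexConjugate

set_option autoImplicit false
set_option linter.unusedSectionVars false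
set_option linter.style.haveILetI false

universe u

/-- Sums of powers of a root of unity over the residues prime to `p`. -/
theorem sum_units_pow {p : ℕ} (hp : p.Prime) (a : ℕ) [NeZero (p ^ (a + 1))] {w : ℂ}
    (hw : w ^ p ^ (a + 1) = 1) :
    ∃ z : ℤ, ∑ u : (ZMod (p ^ (a + 1)))ˣ, w ^ (u : ZMod (p ^ (a + 1))).val = (p : ℂ) ^ a * z := by
  classical
  set P := p ^ (a + 1) with hP
  have hPe : P = p ^ a * p := pow_succ p a
  have h1 : ∑ u : (ZMod P)ˣ, w ^ (u : ZMod P).val =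
      ∑ j ∈ (Finset.range P).filter (fun j => ¬ p ∣ j), w ^ j := by
    refine Finset.sum_bij (fun u _ => (u : ZMod P).val) ?_ ?_ ?_ (fun _ _ => rfl)
    · intro u _
      refine Finset.mem_filter.2 ⟨Finset.mem_range.2 (ZMod.val_lt _), fun h => ?_⟩
      have := Nat.Coprime.coprime_dvd_left h (ZMod.val_coe_unit_coprime u)
      exact (hp.coprime_iff_not_dvd.1 this) (dvd_pow_self p (Nat.succ_ne_zero a))
    · intro u _ v _ h; exact Units.ext (ZMod.val_injective P h)
    · intro j hj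
      obtain ⟨hj1, hj2⟩ := Finset.mem_filter.1 hj
      have hc : Nat.Coprime j P := ((hp.coprime_iff_not_dvd.2 hj2).symm).pow_right _
      refine ⟨ZMod.unitOfCoprime j hc, Finset.mem_univ _, ?_⟩
      rw [ZMod.coe_unitOfCoprime, ZMod.val_natCast_of_lt (Finset.mem_range.1 hj1)]
  have h2 : ∑ j ∈ (Finset.range P).filter (fun j => p ∣ j), w ^ j =
      ∑ i ∈ Finset.range (p ^ a), (w ^ p) ^ i := by
    refine Finset.sum_bij' (fun j _ => j / p) (fun i _ => p * i) ?_ ?_ ?_ ?_ ?_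
    · intro j hj
      obtain ⟨hj1, -⟩ := Finset.mem_filter.1 hj
      refine Finset.mem_range.2 (Nat.div_lt_of_lt_mul ?_)
      rw [mul_comm, ← hPe]; exact Finset.mem_range.1 hj1
    · intro i hi
      refine Finset.mem_filter.2 ⟨Finset.mem_range.2 ?_, dvd_mul_right p i⟩
      rw [hPe, mul_comm (p ^ a)]
      exact Nat.mul_lt_mul_of_pos_left (Finset.mem_range.1 hi) hp.pos
    · intro j hj; exact Nat.mul_div_cancel' (Finset.mem_filter.1 hj).2
    · intro i _; exact Nat.mul_div_cancel_left i hp.pos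
    · intro j hj
      rw [← pow_mul, Nat.mul_div_cancel' (Finset.mem_filter.1 hj).2]
  have hgeom : ∀ (n : ℕ) (x : ℂ), x ^ n = 1 →
      ∑ i ∈ Finset.range n, x ^ i = if x = 1 then (n : ℂ) else 0 := by
    intro n x hx
    split_ifs with h
    · simp [h]
    · rw [geom_sum_eq h, hx, sub_self, zero_div]
  have h3 := Finset.sum_filter_add_sum_filter_not (Finset.range P) (fun j => p ∣ j) (fun j => w ^ j)
  rw [h2, ← h1, hgeom P w hw, hgeom (p ^ a) (w ^ p)
    (by rw [← pow_mul, ← pow_succ', hP] at *; exact hw)] at h3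
  refine ⟨(if w = 1 then (p : ℤ) else 0) - (if w ^ p = 1 then 1 else 0), ?_⟩
  rw [eq_sub_of_add_eq' h3, hPe]
  split_ifs <;> push_cast <;> ring

variable {G : Type u} [Group G] [Fintype G] {p : ℕ} [Fact p.Prime] {M : Ideal AlgInt}
  [M.IsMaximal]

theorem pow_card_eigen {n : ℕ} {χ : G → ℂ} (hχ : IsCharacter G χ) (g : G)
    (hg : g ^ n = 1) :
    ∃ (s : ℕ) (z : Fin s → ℂ), (∀ i, z i ^ n = 1) ∧ ∀ k : ℕ, χ (g ^ k) = ∑ i, z i ^ k := by
  obtain ⟨m, ρ, rfl⟩ := hχ
  obtain ⟨z, hz, hc, -, -⟩ := Chars.exists_eigenvalues ρ g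
  refine ⟨_, z, fun i => ?_, hc⟩
  obtain ⟨c, hc⟩ := orderOf_dvd_iff_pow_eq_one.2 hg
  rw [hc, pow_mul, hz i, one_pow]

theorem aut_char {σ : ℂ ≃+* ℂ} {N k : ℕ} (hN : Nat.card G = N)
    (hσ : ∀ z : ℂ, z ^ N = 1 → σ z = z ^ k) {χ : G → ℂ} (hχ : IsCharacter G χ) (g : G) :
    σ (χ g) = χ (g ^ k) := by
  obtain ⟨s, z, hz, hc⟩ := pow_card_eigen (n := N) hχ g (hN ▸ pow_card_eq_one')
  conv_lhs => rw [← pow_one g]
  rw [hc 1, hc k, map_sum]
  exact Finset.sum_congr rfl fun i _ => by rw [pow_one]; exact hσ _ (hz i)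

set_option maxHeartbeats 1000000 in
theorem main (hpM : (p : AlgInt) ∈ M) (χ : IrrCharacter G) {a m : ℕ}
    (ha : (Nat.card G).factorization p = a) (hm : p ^ a * m = Nat.card G) {r : ℕ}
    (hr : Nat.card {ψ : IrrCharacter G // ∃ σ : ℂ ≃+* ℂ,
      σ (Complex.exp (2 * Real.pi * Complex.I / (m : ℕ))) =
        Complex.exp (2 * Real.pi * Complex.I / (m : ℕ)) ∧
        (ψ : G → ℂ) = fun g => σ ((χ : G → ℂ) g)} = r) :
    (r * charDegree (χ : G → ℂ)).factorization p ≤ a ∧
      (p ^ a ∣ r * charDegree (χ : G → ℂ) → p ^ a ∣ charDegree (χ : G → ℂ)) := by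
  classical
  have hp : p.Prime := Fact.out
  have hcard0 : Nat.card G ≠ 0 := Nat.card_pos.ne'
  set P := p ^ a with hPdef
  haveI : NeZero P := ⟨pow_ne_zero _ hp.ne_zero⟩
  have hm0 : m ≠ 0 := fun h => hcard0 (by rw [← hm, h, mul_zero])
  have hpm : ¬ p ∣ m := fun h => by
    have : p ^ (a + 1) ∣ Nat.card G := by rw [← hm, pow_succ]; exact mul_dvd_mul_left _ h
    have := (hp.pow_dvd_iff_le_factorization hcard0).1 this
    omega
  have hcop : P.Coprime m := ((hp.coprime_iff_not_dvd.2 hpm)).pow_left a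
  obtain ⟨c1, hc11, hc12⟩ := Nat.chineseRemainder hcop 1 0
  obtain ⟨c0, hc01, hc02⟩ := Nat.chineseRemainder hcop 0 1
  let κ : (ZMod P)ˣ → ℕ := fun u => c1 * (u : ZMod P).val + c0
  have hκP : ∀ u, κ u ≡ (u : ZMod P).val [MOD P] := fun u => by
    have h := (hc11.mul_right (u : ZMod P).val).add hc01
    rwa [one_mul, add_zero] at h
  have hκm : ∀ u, κ u ≡ 1 [MOD m] := fun u => by
    have h := (hc12.mul_right (u : ZMod P).val).add hc02
    rwa [zero_mul, zero_add] at h
  have hmodN : ∀ {x y : ℕ}, x ≡ y [MOD P] → x ≡ y [MOD m] → x ≡ y [MOD Nat.card G] :=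
    fun h1 h2 => by
      rw [← hm]; exact (Nat.modEq_and_modEq_iff_modEq_mul hcop).1 ⟨h1, h2⟩
  have hpowmod : ∀ {x y : ℕ}, x ≡ y [MOD Nat.card G] → ∀ g : G, g ^ x = g ^ y := fun h g =>
    pow_eq_pow_iff_modEq.2 (h.of_dvd (orderOf_dvd_natCard g))
  have hκcop : ∀ u, (κ u).Coprime (Nat.card G) := fun u => by
    rw [← hm]
    refine Nat.Coprime.mul_right ?_ ?_
    · rw [Nat.Coprime, (hκP u).gcd_eq]; exact ZMod.val_coe_unit_coprime u
    · rw [Nat.Coprime, (hκm u).gcd_eq]; exact Nat.gcd_one_left m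
  have hκmul : ∀ u v, κ (u * v) ≡ κ u * κ v [MOD Nat.card G] := fun u v => by
    refine hmodN ?_ ?_
    · refine ((hκP _).trans ?_).trans ((hκP u).mul (hκP v)).symm
      rw [Units.val_mul, ZMod.val_mul]
      exact Nat.mod_modEq _ _
    · simpa using (hκm (u * v)).trans ((hκm u).mul (hκm v)).symm
  have hκ1 : κ 1 ≡ 1 [MOD Nat.card G] := by
    refine hmodN ((hκP 1).trans ?_) (hκm 1)
    rcases eq_or_ne P 1 with h | h
    · rw [h]; exact Nat.modEq_one
    · haveI : Fact (1 < P) := ⟨lt_of_le_of_ne (NeZero.one_le) (Ne.symm h)⟩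
      rw [Units.val_one, ZMod.val_one]
  choose σu hσu using fun u => OddChar.exists_aut_pow hcard0 (hκcop u)
  have hact : ∀ u (φ : IrrCharacter G) g,
      (Chars2.Cyc.gal (σu u) φ : G → ℂ) g = (φ : G → ℂ) (g ^ κ u) := fun u φ g =>
    aut_char rfl (hσu u) (Chars.irr_isCharacter φ) g
  letI : MulAction (ZMod P)ˣ (IrrCharacter G) :=
    { smul := fun u φ => Chars2.Cyc.gal (σu u) φ
      one_smul := fun φ => Subtype.ext (funext fun g => by
        show (Chars2.Cyc.gal (σu 1) φ : G → ℂ) g = _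
        rw [hact, hpowmod hκ1, pow_one])
      mul_smul := fun u v φ => Subtype.ext (funext fun g => by
        show (Chars2.Cyc.gal (σu (u * v)) φ : G → ℂ) g =
          (Chars2.Cyc.gal (σu u) (Chars2.Cyc.gal (σu v) φ) : G → ℂ) g
        rw [hact, hact, hact, ← pow_mul, hpowmod (hκmul u v)]) }
  have hsmul : ∀ (u : (ZMod P)ˣ) (φ : IrrCharacter G) (g : G),
      ((u • φ : IrrCharacter G) : G → ℂ) g = (φ : G → ℂ) (g ^ κ u) := hact
  set O := MulAction.orbit (ZMod P)ˣ χ with hO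
  -- the orbit
  have horb : ∀ ψ : IrrCharacter G, (∃ σ : ℂ ≃+* ℂ,
      σ (Complex.exp (2 * Real.pi * Complex.I / (m : ℕ))) =
        Complex.exp (2 * Real.pi * Complex.I / (m : ℕ)) ∧
        (ψ : G → ℂ) = fun g => σ ((χ : G → ℂ) g)) ↔ ψ ∈ O := by
    intro ψ
    set w := Complex.exp (2 * Real.pi * Complex.I / (m : ℕ)) with hw
    have hwp : IsPrimitiveRoot w m := Complex.isPrimitiveRoot_exp m hm0
    have hwN : w ^ Nat.card G = 1 := by
      rw [← hm, mul_comm, pow_mul, hwp.pow_eq_one, one_pow]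
    have hinjw : ∀ x y : ℕ, w ^ x = w ^ y ↔ x ≡ y [MOD m] := by
      intro x y
      rw [← pow_mod_orderOf, ← pow_mod_orderOf (n := y), ← hwp.eq_orderOf]
      exact ⟨fun h => hwp.pow_inj (Nat.mod_lt _ (Nat.pos_of_ne_zero hm0))
        (Nat.mod_lt _ (Nat.pos_of_ne_zero hm0)) h, fun h => by rw [show x % m = y % m from h]⟩
    constructor
    · rintro ⟨σ, hσw, hψ⟩
      have hN0 := hcard0
      haveI : NeZero (Nat.card G) := ⟨hcard0⟩
      have hω := Complex.isPrimitiveRoot_exp (Nat.card G) hcard0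
      obtain ⟨k, -, hk, hk2⟩ :=
        (hω.isPrimitiveRoot_iff).1 (hω.map_of_injective (f := σ) σ.injective)
      have hσz : ∀ z : ℂ, z ^ Nat.card G = 1 → σ z = z ^ k := by
        intro z hz
        obtain ⟨j, -, rfl⟩ := hω.eq_pow_of_pow_eq_one hz
        rw [map_pow, ← hk2, ← pow_mul, ← pow_mul, mul_comm k j]
      have hkm : k ≡ 1 [MOD m] := by
        have h := hσz w hwN
        rw [hσw] at h
        have h2 : w ^ 1 = w ^ k := by rw [pow_one]; exact h
        exact ((hinjw 1 k).1 h2).symm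
      have hkP : Nat.Coprime k P := hk.coprime_dvd_right ⟨m, hm.symm⟩
      refine ⟨ZMod.unitOfCoprime k hkP, Subtype.ext (funext fun g => ?_)⟩
      show ((ZMod.unitOfCoprime k hkP • χ : IrrCharacter G) : G → ℂ) g = _
      rw [hsmul, hψ]
      simp only
      rw [aut_char rfl hσz (Chars.irr_isCharacter χ) g]
      refine congrArg _ (hpowmod (hmodN ?_ ((hκm _).trans hkm.symm)) g)
      refine (hκP _).trans ?_
      rw [ZMod.coe_unitOfCoprime, ZMod.val_natCast]
      exact Nat.mod_modEq _ _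
    · rintro ⟨u, rfl⟩
      refine ⟨σu u, ?_, funext fun g => rfl⟩
      rw [hσu u w hwN]
      conv_rhs => rw [← pow_one w]
      exact (hinjw _ _).2 (hκm u)
  have hrO : O.toFinset.card = r := by
    rw [← hr, Nat.card_congr (Equiv.subtypeEquivRight horb), Nat.card_eq_fintype_card,
      ← Set.toFinset_card]
  have hO1 : ∀ ψ ∈ O, (ψ : G → ℂ) 1 = (χ : G → ℂ) 1 := by
    rintro ψ ⟨u, rfl⟩
    show ((u • χ : IrrCharacter G) : G → ℂ) 1 = _
    rw [hsmul, one_pow]
  have hdeg := charDegree_eq χ.2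
  set d1 := charDegree (χ : G → ℂ) with hd1
  -- the sum over the orbit
  set Ψ : G → ℂ := fun g => ∑ ψ ∈ O.toFinset, (ψ : G → ℂ) g with hΨ
  have hstab : ∀ g, ∑ u : (ZMod P)ˣ, ((u • χ : IrrCharacter G) : G → ℂ) g =
      (Nat.card (MulAction.stabilizer (ZMod P)ˣ χ) : ℂ) * Ψ g := by
    intro g
    rw [hΨ, Finset.mul_sum, ← Finset.sum_fiberwise_of_maps_to
      (t := O.toFinset) (g := fun u : (ZMod P)ˣ => u • χ)
      (fun u _ => Set.mem_toFinset.2 ⟨u, rfl⟩)]
    refine Finset.sum_congr rfl fun ψ hψ => ?_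
    obtain ⟨v, rfl⟩ := Set.mem_toFinset.1 hψ
    rw [Finset.sum_congr rfl fun u hu => by rw [(Finset.mem_filter.1 hu).2], Finset.sum_const,
      nsmul_eq_mul]
    congr 2
    rw [Nat.card_eq_fintype_card, ← Finset.card_univ]
    refine Finset.card_bij' (fun u _ => (⟨v⁻¹ * u, ?_⟩ : MulAction.stabilizer (ZMod P)ˣ χ))
      (fun s _ => v * (s : (ZMod P)ˣ)) (fun _ _ => Finset.mem_univ _) (fun s _ => ?_)
      (fun u _ => by simp) (fun s _ => by simp)
    · rename_i h
      rw [MulAction.mem_stabilizer_iff, mul_smul, (Finset.mem_filter.1 h).2, inv_smul_smul]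
    · refine Finset.mem_filter.2 ⟨Finset.mem_univ _, ?_⟩
      rw [mul_smul, MulAction.mem_stabilizer_iff.1 s.2]
  have hU : Nat.card (MulAction.stabilizer (ZMod P)ˣ χ) * r = Nat.totient P := by
    rw [← hrO, ← ZMod.card_units_eq_totient, Set.toFinset_card, ← Nat.card_eq_fintype_card,
      ← Nat.card_eq_fintype_card, Nat.card_coe_set_eq, ← MulAction.index_stabilizer,
      Subgroup.card_mul_index]
  have hr0 : r ≠ 0 := fun h => by
    rw [h, mul_zero] at hU
    exact (Nat.totient_pos.2 (Nat.pos_of_ne_zero (NeZero.ne P))).ne' hU.symm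
  -- integrality of the average
  have hint : ∀ g, MemLocalRing M (Ψ g / r) := by
    intro g
    rcases Nat.eq_zero_or_pos a with ha0 | ha0
    · have hr1 : r = 1 := by
        have h1 : Nat.totient P = 1 := by simp [hPdef, ha0]
        exact Nat.eq_one_of_mul_eq_one_left (hU.trans h1)
      rw [hr1, Nat.cast_one, div_one]
      exact memR_sum _ _ fun ψ _ => irr_memR ψ g
    obtain ⟨b, rfl⟩ : ∃ b, a = b + 1 := ⟨a - 1, by omega⟩
    obtain ⟨s, z, hz, hc⟩ := pow_card_eigen (n := Nat.card G) (Chars.irr_isCharacter χ) g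
      pow_card_eq_one'
    have hzc : ∀ i, (z i ^ c1) ^ p ^ (b + 1) = 1 := fun i => by
      obtain ⟨t, ht⟩ := (Nat.modEq_zero_iff_dvd).1 hc12
      rw [← pow_mul, ht, show m * t * p ^ (b + 1) = Nat.card G * t by rw [← hm, hPdef]; ring,
        pow_mul, hz i, one_pow]
    choose zz hzz using fun i => sum_units_pow hp b (hzc i)
    have hsum : (Nat.card (MulAction.stabilizer (ZMod P)ˣ χ) : ℂ) * Ψ g =
        (p : ℂ) ^ b * ∑ i, (zz i : ℂ) * z i ^ c0 := by
      rw [← hstab, Finset.sum_congr rfl fun u _ => by rw [hsmul, hc], Finset.sum_comm,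
        Finset.mul_sum]
      refine Finset.sum_congr rfl fun i _ => ?_
      rw [← mul_assoc, ← hzz i, Finset.sum_mul]
      exact Finset.sum_congr rfl fun u _ => by rw [← pow_mul, ← pow_add]
    have hst : (Nat.card (MulAction.stabilizer (ZMod P)ˣ χ) : ℂ) * r =
        (p : ℂ) ^ b * ((p - 1 : ℕ) : ℂ) := by
      rw [← Nat.cast_mul, hU, hPdef, Nat.totient_prime_pow_succ hp, Nat.cast_mul, Nat.cast_pow]
    have hst0 : (Nat.card (MulAction.stabilizer (ZMod P)ˣ χ) : ℂ) ≠ 0 :=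
      Nat.cast_ne_zero.2 Nat.card_pos.ne'
    have hp0 : (p : ℂ) ^ b ≠ 0 := pow_ne_zero _ (Nat.cast_ne_zero.2 hp.ne_zero)
    have hp1 : ((p - 1 : ℕ) : ℂ) ≠ 0 := Nat.cast_ne_zero.2 (by have := hp.two_le; omega)
    have heq : Ψ g / r = ((p - 1 : ℕ) : ℂ)⁻¹ * ∑ i, (zz i : ℂ) * z i ^ c0 := by
      rw [div_eq_iff (Nat.cast_ne_zero.2 hr0)]
      refine mul_left_cancel₀ hst0 ?_
      rw [hsum, show (Nat.card (MulAction.stabilizer (ZMod P)ˣ χ) : ℂ) *
        (((p - 1 : ℕ) : ℂ)⁻¹ * (∑ i, (zz i : ℂ) * z i ^ c0) * r) = ((p - 1 : ℕ) : ℂ)⁻¹ *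
          (∑ i, (zz i : ℂ) * z i ^ c0) * ((Nat.card (MulAction.stabilizer (ZMod P)ˣ χ) : ℂ) * r)
        by ring, hst]
      field_simp
    rw [heq]
    refine memR_mul (memR_inv_natCast hpM fun h => ?_) (memR_sum _ _ fun i _ =>
      memR_mul (memR_intCast _) (memR_of_isIntegral (IsIntegral.pow ?_ _)))
    · have := Nat.le_of_dvd (by have := hp.two_le; omega) h
      have := hp.two_le
      omega
    · exact ⟨Polynomial.X ^ Nat.card G - Polynomial.C 1,
        Polynomial.monic_X_pow_sub_C 1 hcard0, by simp [← Nat.card_eq_fintype_card, hz i]⟩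
  -- the idempotent of the orbit
  set E : G → ℂ := fun g => (χ : G → ℂ) 1 / (Nat.card G : ℂ) * conj (Ψ g) with hE
  have hEc : IsClassFunction G E := fun g h => by
    simp only [hE, hΨ]
    congr 2
    exact Finset.sum_congr rfl fun ψ _ => Chars.isClassFunction_irr ψ g h
  have homega : ∀ φ : IrrCharacter G, omega (φ : G → ℂ) E = if φ ∈ O then 1 else 0 := by
    intro φ
    have h1 : ∑ g, E g * (φ : G → ℂ) g = (χ : G → ℂ) 1 *
        ∑ ψ ∈ O.toFinset, classInner (φ : G → ℂ) (ψ : G → ℂ) := by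
      simp only [hE, hΨ, Chars.classInner_def, map_sum, Finset.mul_sum, Finset.sum_mul]
      rw [Finset.sum_comm]
      exact Finset.sum_congr rfl fun ψ _ => Finset.sum_congr rfl fun g _ => by
        rw [div_eq_mul_inv]; ring
    rw [omega, h1, Finset.sum_congr rfl fun ψ _ => Chars.classInner_irrCharacter φ ψ,
      Finset.sum_ite_eq]
    simp only [Set.mem_toFinset]
    split_ifs with h
    · rw [mul_one, hO1 φ h]; exact div_self (Chars.irr_apply_one_ne_zero χ.2)
    · rw [mul_zero, zero_div]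
  have hEval : ∀ g, E g = ((r * d1 : ℕ) : ℂ) / (Nat.card G : ℂ) * (Ψ g⁻¹ / r) := fun g => by
    simp only [hE, hdeg.1, hΨ, map_sum]
    rw [Finset.sum_congr rfl fun ψ _ => (Chars.char_inv_eq_conj (Chars.irr_isCharacter ψ) g).symm]
    push_cast
    field_simp
  have hqR : ∀ {j : ℕ}, p ^ (a + j) ∣ r * d1 →
      ∃ q : ℂ, MemLocalRing M q ∧ ((r * d1 : ℕ) : ℂ) / (Nat.card G : ℂ) = (p : ℂ) ^ j * q := by
    rintro j ⟨t, ht⟩
    refine ⟨(t : ℂ) * (m : ℂ)⁻¹, memR_mul (memR_natCast _) (memR_inv_natCast hpM hpm), ?_⟩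
    rw [ht, ← hm, hPdef, pow_add]
    push_cast
    have : (p : ℂ) ^ a ≠ 0 := pow_ne_zero _ (Nat.cast_ne_zero.2 hp.ne_zero)
    have : (m : ℂ) ≠ 0 := Nat.cast_ne_zero.2 hm0
    field_simp
  have hpI : MemLocalIdeal M (p : ℂ) := by
    have := (memI_natCast_iff hpM p).2 dvd_rfl
    exact this
  have hub : (r * d1).factorization p ≤ a := by
    by_contra hlt
    obtain ⟨q, hq, hqe⟩ := hqR (j := 1) ((hp.pow_dvd_iff_le_factorization
      (Nat.mul_ne_zero hr0 hdeg.2.ne')).2 (by omega))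
    have hEI : IFun M E := fun g => by
      rw [hEval, hqe, pow_one, mul_assoc]
      exact memI_mul_right hpI (memR_mul hq (hint _))
    have h := omega_memI hpM χ.2 hEc hEI
    rw [homega, if_pos (MulAction.mem_orbit_self χ)] at h
    exact not_memI_one h
  refine ⟨hub, fun hdvd => ?_⟩
  obtain ⟨q, hq, hqe⟩ := hqR (j := 0) hdvd
  have hER : RFun M E := fun g => by
    rw [hEval, hqe, pow_zero, one_mul]; exact memR_mul hq (hint _)
  have hblock : blockOf M (χ : G → ℂ) ⊆ O := by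
    intro ψ hψ
    by_contra hn
    have h := omega_congr (show SameBlock M (χ : G → ℂ) (ψ : G → ℂ) from hψ) hEc hER
    rw [homega, homega, if_pos (MulAction.mem_orbit_self χ), if_neg hn, sub_zero] at h
    exact not_memI_one h
  have hB := isPBlock_blockOf (M := M) χ
  set B := blockOf M (χ : G → ℂ) with hBdef
  obtain ⟨φ, hφ, hφ0⟩ := exists_height_zero (p := p) hB
  have he := degree_eq_height hpM hB hφ
  have hd1eq : charDegree (φ : G → ℂ) = d1 := by
    have h := hO1 φ (hblock hφ)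
    rw [(charDegree_eq φ.2).1, hdeg.1] at h
    exact_mod_cast h
  rw [hd1eq, hφ0, add_zero, ha] at he
  set d := blockDefect p B with hd
  have hda : d ≤ a := ha ▸ blockDefect_le B
  haveI : NeZero (p ^ d) := ⟨pow_ne_zero _ hp.ne_zero⟩
  have hdvdP : p ^ d ∣ P := pow_dvd_pow p hda
  have hzero : ∀ g : G, (χ : G → ℂ) g ≠ 0 → g ^ (p ^ d * m) = 1 := by
    intro g hg
    obtain ⟨D, hD, hx⟩ : ∃ D : Subgroup G, IsDefectGroup p M B D ∧ ppart p g ∈ D := by
      by_contra hno
      push Not at hno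
      exact hg (eq_zero_of_not_mem_defect hpM χ g hno)
    have hcardD := card_defectGroup hpM hB hD
    obtain ⟨y, hy1, hy2, -, hy4⟩ := isPPart_ppart (p := p) g
    have h1 : (ppart p g) ^ (p ^ d * m) = 1 := by
      have : (ppart p g) ^ Nat.card D = 1 := by
        exact orderOf_dvd_iff_pow_eq_one.1 (Subgroup.orderOf_dvd_natCard D hx)
      rw [hcardD] at this
      rw [pow_mul, this, one_pow]
    have h2 : y ^ (p ^ d * m) = 1 := by
      refine orderOf_dvd_iff_pow_eq_one.1 (dvd_mul_of_dvd_right ?_ _)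
      have h := orderOf_dvd_natCard y
      rw [← hm] at h
      exact (((hp.coprime_iff_not_dvd.2 hy4).pow_left a).symm).dvd_of_dvd_mul_left h
    rw [← hy1, hy2.mul_pow, h1, h2, one_mul]
  let f : (ZMod P)ˣ →* (ZMod (p ^ d))ˣ := ZMod.unitsMap hdvdP
  have hker : f.ker ≤ MulAction.stabilizer (ZMod P)ˣ χ := by
    intro u hu
    refine MulAction.mem_stabilizer_iff.2 (Subtype.ext (funext fun g => ?_))
    rw [hsmul]
    by_cases hg : (χ : G → ℂ) g = 0
    · rw [← aut_char rfl (hσu u) (Chars.irr_isCharacter χ) g, hg, map_zero]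
    · refine congrArg _ ?_
      conv_rhs => rw [← pow_one g]
      refine pow_eq_pow_iff_modEq.2 (Nat.ModEq.of_dvd (orderOf_dvd_iff_pow_eq_one.2 (hzero g hg))
        ((Nat.modEq_and_modEq_iff_modEq_mul (Nat.Coprime.coprime_dvd_left hdvdP hcop)).1 ⟨?_, hκm u⟩))
      refine ((hκP u).of_dvd hdvdP).trans ((ZMod.natCast_eq_natCast_iff _ _ _).1 ?_)
      rw [Nat.cast_one, ZMod.natCast_val]
      have h := congrArg Units.val (MonoidHom.mem_ker.1 hu)
      simpa [f, ZMod.unitsMap, ZMod.castHom_apply] using h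
  have hrdvd : r ∣ Nat.totient (p ^ d) := by
    have h1 : r = (MulAction.stabilizer (ZMod P)ˣ χ).index := by
      rw [MulAction.index_stabilizer, ← hrO, Set.ncard_eq_toFinset_card']
    have h2 : f.ker.index ∣ Nat.card (ZMod (p ^ d))ˣ := by
      rw [Subgroup.index_ker]; exact Subgroup.card_subgroup_dvd_card _
    rw [Nat.card_eq_fintype_card, ZMod.card_units_eq_totient] at h2
    exact h1 ▸ (Subgroup.index_dvd_of_le hker).trans h2
  rcases Nat.eq_zero_or_pos d with hd0 | hd0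
  · exact (hp.pow_dvd_iff_le_factorization hdeg.2.ne').2 (by omega)
  exfalso
  obtain ⟨b, hb⟩ : ∃ b, d = b + 1 := ⟨d - 1, by omega⟩
  rw [hb, Nat.totient_prime_pow_succ hp] at hrdvd
  have h2 := (hp.pow_dvd_iff_le_factorization (Nat.mul_ne_zero hr0 hdeg.2.ne')).1 hdvd
  rw [Nat.factorization_mul hr0 hdeg.2.ne', Finsupp.add_apply] at h2
  have h3 : r.factorization p ≤ b := by
    have hne : p ^ b * (p - 1) ≠ 0 :=
      Nat.mul_ne_zero (pow_ne_zero _ hp.ne_zero) (by have := hp.two_le; omega)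
    have := (Nat.factorization_le_iff_dvd hr0 hne).2 hrdvd p
    rwa [Nat.factorization_mul (pow_ne_zero _ hp.ne_zero) (by have := hp.two_le; omega),
      Finsupp.add_apply, hp.factorization_pow, Finsupp.single_eq_same,
      Nat.factorization_eq_zero_of_not_dvd (n := p - 1) (fun h => by
        have := Nat.le_of_dvd (by have := hp.two_le; omega) h
        have := hp.two_le
        omega), add_zero] at this
  omega

end Cfsg.Agent.Blocks.PConjugate
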