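import Cfsg.Agent.Blocks.PPrimeKer
import Cfsg.Agent.Blocks.Inflate
import Cfsg.Agent.Core.PLength
import Cfsg.Agent.S0938
import Cfsg.Agent.S4432

/-!
p-length one and restriction of the principal block to a Sylow normalizer.
-/

set_option autoImplicit false
set_option linter.style.haveILetI false
set_option linter.unusedSectionVars false

namespace Cfsg.Agent.Blocks

open scoped ComplexConjugate
open Cfsg Cfsg.Agent

universe u

variable {G : Type u} [Group G] [Fintype G] {p : ℕ} [Fact p.Prime] {M : Ideal AlgInt} [M.IsMaximal]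

theorem trivial_on_closure_of_irr_normalizer (hP : Subgroup G) {χ : IrrCharacter G}
    (hirr : IsIrrCharacter ↥(Subgroup.normalizer (hP : Set G))
      (fun n : ↥(Subgroup.normalizer (hP : Set G)) => (χ : G → ℂ) n))
    [Fintype hP] (hfix : ∑ x : hP, (χ : G → ℂ) x ≠ 0) (L : Subgroup G)
    (hL : L ≤ Subgroup.normalClosure (hP : Set G)) {g : G} (hg : g ∈ L) :
    (χ : G → ℂ) g = (χ : G → ℂ) 1 := by
  classical
  set N := Subgroup.normalizer (hP : Set G)
  haveI : Fintype N := Fintype.ofFinite _
  haveI : (hP.subgroupOf N).Normal := Subgroup.normal_in_normalizer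
  haveI : Fintype (hP.subgroupOf N) := Fintype.ofFinite _
  have hsum : ∑ x : hP.subgroupOf N, (χ : G → ℂ) ((x : N) : G) ≠ 0 := by
    have e : ∑ x : hP.subgroupOf N, (χ : G → ℂ) ((x : N) : G) = ∑ x : hP, (χ : G → ℂ) x :=
      Fintype.sum_equiv (Subgroup.subgroupOfEquivOfLe Subgroup.le_normalizer).toEquiv _ _
        fun x => rfl
    rw [e]; exact hfix
  have hker : hP ≤ Chars.charKer (Chars.irr_isCharacter χ) := by
    intro x hx
    rw [Chars.mem_charKer]
    exact apply_eq_one_of_sum_ne_zero (⟨_, hirr⟩ : IrrCharacter N) (hP.subgroupOf N) hsum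
      (hP.subgroupOf N) le_rfl (m := ⟨x, Subgroup.le_normalizer hx⟩) hx
  haveI := Chars.charKer_normal (Chars.irr_isCharacter χ)
  exact (Chars.mem_charKer (Chars.irr_isCharacter χ)).1
    (Subgroup.normalClosure_le_normal hker (hL hg))

/-- Irreducible restriction of the principal block to the Sylow normalizer forces p-length one. -/
theorem pLengthLE_one_of_irr (hpM : (p : AlgInt) ∈ M) (P : Sylow p G)
    (h : ∀ χ ∈ principalBlock M G, IsIrrCharacter ↥(Subgroup.normalizer ((P : Subgroup G) : Set G))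
      (fun n : ↥(Subgroup.normalizer ((P : Subgroup G) : Set G)) => (χ : G → ℂ) n)) :
    PLengthLE p 1 G := by
  classical
  have hp := (Fact.out : p.Prime)
  set L := Subgroup.normalClosure ((P : Subgroup G) : Set G) with hLdef
  haveI : L.Normal := Subgroup.normalClosure_normal
  haveI : Fintype L := Fintype.ofFinite _
  have hPL : (P : Subgroup G) ≤ L := Subgroup.le_normalClosure
  let S : Sylow p L := P.subtype hPL
  haveI : Fintype (S : Subgroup L) := Fintype.ofFinite _
  haveI : Fintype (P : Subgroup G) := Fintype.ofFinite _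
  let e : (S : Subgroup L) ≃* (P : Subgroup G) := Subgroup.subgroupOfEquivOfLe hPL
  have hb : IsPBlock M (principalBlock M L) := isPBlock_principal
  have hcov : ∃ χ ∈ principalBlock M G, ∃ θ ∈ principalBlock M L,
      classInner (fun n : L => (χ : G → ℂ) n) (θ : L → ℂ) ≠ 0 := by
    refine ⟨oneChar G, one_mem_principal, oneChar L, one_mem_principal, ?_⟩
    show classInner (fun _ : L => (1 : ℂ)) (fun _ : L => (1 : ℂ)) ≠ 0
    rw [Chars.classInner_self_irr (Chars.isIrrCharacter_one (G := L))]
    exact one_ne_zero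
  -- a fixed vector forces triviality
  have hone : ∀ θ : IrrCharacter L, θ ∈ principalBlock M L →
      ∑ x : (S : Subgroup L), (θ : L → ℂ) x ≠ 0 → θ = oneChar L := by
    intro θ hθ hne
    obtain ⟨χ, hχ, hχθ⟩ := S4432.result p M ⟨hp, inferInstance, hpM⟩ L _ isPBlock_principal _ hb
      hcov θ hθ
    have hres := Chars.isCharacter_restrict (Chars.irr_isCharacter χ) L
    obtain ⟨c, hc⟩ := Chars2.exists_multiplicities hres
    choose m hm using fun φ : IrrCharacter L => Chars.exists_classInner_eq_nat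
      (Chars.isCharacter_restrict (Chars.irr_isCharacter φ) (S : Subgroup L))
      (Chars.isCharacter_one (G := (S : Subgroup L)))
    have hsum : ∀ φ : IrrCharacter L, ∑ x : (S : Subgroup L), (φ : L → ℂ) x =
        (Nat.card (S : Subgroup L) : ℂ) * m φ := by
      intro φ
      rw [← hm φ, Chars.classInner_def, ← mul_assoc,
        mul_inv_cancel₀ (Chars.subgroup_card_ne_zero (S : Subgroup L)), one_mul]
      simp
    have hP : ∑ x : (P : Subgroup G), (χ : G → ℂ) x =
        (Nat.card (S : Subgroup L) : ℂ) * ((∑ φ : IrrCharacter L, c φ * m φ : ℕ) : ℂ) := by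
      rw [← Fintype.sum_equiv e.toEquiv (fun x => (χ : G → ℂ) ((x : L) : G)) _ (fun x => rfl),
        Finset.sum_congr rfl fun (x : (S : Subgroup L)) _ =>
          Chars2.apply_eq_sum (Chars.isClassFunction_of_isCharacter hres) (x : L),
        Finset.sum_comm, Nat.cast_sum, Finset.mul_sum]
      refine Finset.sum_congr rfl fun φ _ => ?_
      rw [hc, ← Finset.mul_sum, hsum, Nat.cast_mul]; ring
    have hm0 : c θ * m θ ≠ 0 := by
      refine Nat.mul_ne_zero (fun h0 => hχθ (by rw [hc, h0, Nat.cast_zero])) fun h0 => hne ?_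
      rw [hsum, h0, Nat.cast_zero, mul_zero]
    have hfix : ∑ x : (P : Subgroup G), (χ : G → ℂ) x ≠ 0 := by
      rw [hP]
      refine mul_ne_zero (Chars.subgroup_card_ne_zero (S : Subgroup L)) ?_
      rw [Nat.cast_ne_zero]
      exact fun h0 => hm0 (Finset.sum_eq_zero_iff.1 h0 θ (Finset.mem_univ _))
    by_contra hθ1
    apply hχθ
    have e2 : (fun n : L => (χ : G → ℂ) n) =
        ((χ : G → ℂ) 1) • ((oneChar L : IrrCharacter L) : L → ℂ) := funext fun n => by
      rw [Pi.smul_apply, smul_eq_mul, coe_oneChar, mul_one]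
      exact trivial_on_closure_of_irr_normalizer (P : Subgroup G) (h χ hχ) hfix L le_rfl n.2
    rw [e2, Chars.classInner_smul_left, Chars.classInner_irr_of_ne
      (oneChar L).2 θ.2 (fun h => hθ1 (Subtype.ext h).symm), mul_zero]
  -- regular elements are in the kernel
  have hker : ∀ y : L, ¬ p ∣ orderOf y → ∀ θ ∈ principalBlock M L,
      (θ : L → ℂ) y = (θ : L → ℂ) 1 := by
    have hkey : ∀ y : L, ¬ p ∣ orderOf y →
        ∑ θ ∈ Finset.univ.filter (· ∈ principalBlock M L), (θ : L → ℂ) y * (θ : L → ℂ) 1 =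
          (Nat.card (S : Subgroup L) : ℂ) := by
      intro y hy
      have h1 : ∀ θ ∈ Finset.univ.filter (· ∈ principalBlock M L),
          (θ : L → ℂ) y * ∑ x : (S : Subgroup L), conj ((θ : L → ℂ) x) =
            if θ = oneChar L then (Nat.card (S : Subgroup L) : ℂ) else 0 := by
        intro θ hθ
        split_ifs with he
        · subst he; simp [coe_oneChar]
        · by_contra hne
          apply he (hone θ (Finset.mem_filter.1 hθ).2 fun h0 => right_ne_zero_of_mul hne ?_)
          rw [← map_sum, h0, map_zero]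
      have h2 : ∀ x : (S : Subgroup L), x ≠ 1 →
          ∑ θ ∈ Finset.univ.filter (· ∈ principalBlock M L),
            (θ : L → ℂ) y * conj ((θ : L → ℂ) x) = 0 := by
        intro x hx
        refine block_orth_weak hpM hb hy ?_
        obtain ⟨k, hk⟩ := S.isPGroup' x
        rw [Subgroup.orderOf_coe]
        obtain ⟨j, -, hj⟩ := (Nat.dvd_prime_pow hp).1 (orderOf_dvd_of_pow_eq_one hk)
        rw [hj]
        refine dvd_pow_self p fun h0 => hx ?_
        rw [← orderOf_eq_one_iff, hj, h0, pow_zero]
      have h3 : ∑ θ ∈ Finset.univ.filter (· ∈ principalBlock M L),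
          (θ : L → ℂ) y * ∑ x : (S : Subgroup L), conj ((θ : L → ℂ) x) =
            (Nat.card (S : Subgroup L) : ℂ) := by
        rw [Finset.sum_congr rfl h1, Finset.sum_ite_eq', if_pos
          (Finset.mem_filter.2 ⟨Finset.mem_univ _, one_mem_principal⟩)]
      rw [← h3]
      simp only [Finset.mul_sum]
      rw [Finset.sum_comm, Finset.sum_eq_single (1 : (S : Subgroup L)) (fun x _ hx => h2 x hx)
        (fun h => absurd (Finset.mem_univ _) h)]
      refine Finset.sum_congr rfl fun θ _ => ?_
      rw [Subgroup.coe_one, (charDegree_eq θ.2).1, Complex.conj_natCast]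
    intro y hy θ hθ
    have h1 : ¬ p ∣ orderOf (1 : L) := by rw [orderOf_one]; exact hp.not_dvd_one
    have hsum := (hkey 1 h1).trans (hkey y hy).symm
    rw [← sub_eq_zero, ← Finset.sum_sub_distrib] at hsum
    have hre := congrArg Complex.re hsum
    rw [Complex.re_sum, Complex.zero_re] at hre
    have hnn : ∀ φ ∈ Finset.univ.filter (· ∈ principalBlock M L), 0 ≤
        ((φ : L → ℂ) 1 * (φ : L → ℂ) 1 - (φ : L → ℂ) y * (φ : L → ℂ) 1).re := by
      intro φ _
      rw [(charDegree_eq φ.2).1, ← sub_mul, Complex.mul_re, Complex.natCast_im, mul_zero, sub_zero,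
        Complex.sub_re, Complex.natCast_re]
      refine mul_nonneg (sub_nonneg.2 ?_) (Nat.cast_nonneg _)
      refine (Complex.re_le_norm _).trans ?_
      have := Chars.norm_le_of_isCharacter (Chars.irr_isCharacter φ) y
      rwa [(charDegree_eq φ.2).1, Complex.natCast_re] at this
    have h0 := (Finset.sum_eq_zero_iff_of_nonneg hnn).1 hre θ
      (Finset.mem_filter.2 ⟨Finset.mem_univ _, hθ⟩)
    rw [(charDegree_eq θ.2).1, ← sub_mul, Complex.mul_re, Complex.natCast_im, mul_zero, sub_zero,
      mul_eq_zero, Complex.sub_re, Complex.natCast_re, sub_eq_zero] at h0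
    rcases h0 with h0 | h0
    · have hn := Chars.norm_le_of_isCharacter (Chars.irr_isCharacter θ) y
      rw [(charDegree_eq θ.2).1, Complex.natCast_re] at hn
      have hre' : ((θ : L → ℂ) y).re = ‖(θ : L → ℂ) y‖ :=
        le_antisymm (Complex.re_le_norm _) (hn.trans h0.le)
      have him : ((θ : L → ℂ) y).im = 0 := by
        have h' := Complex.normSq_eq_norm_sq ((θ : L → ℂ) y)
        rw [← hre', Complex.normSq_apply] at h'
        exact mul_self_eq_zero.1 (by nlinarith [h'])
      rw [(charDegree_eq θ.2).1]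
      exact Complex.ext (by rw [Complex.natCast_re]; exact h0.symm) (by rw [him, Complex.natCast_im])
    · exact absurd h0 (Nat.cast_ne_zero.2 (charDegree_eq θ.2).2.ne')
  obtain ⟨K, hKn, hKset, hKp, -, -⟩ := S0938.result p M ⟨hp, inferInstance, hpM⟩ _ hb (oneChar L)
    one_mem_principal
  haveI := hKn
  have hKle : K ≤ pPrimeCore p L := Core.le_pPrimeCore hKn
    (Nat.Coprime.symm ((hp.coprime_iff_not_dvd).2 hKp))
  haveI : ((pPrimeCore p L).map L.subtype).Normal := Core.normal_map_subtype_of_characteristic _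
  have hOle : (pPrimeCore p L).map L.subtype ≤ pPrimeCore p G := by
    refine Core.le_pPrimeCore inferInstance ?_
    rw [Nat.card_congr ((pPrimeCore p L).equivMapOfInjective L.subtype L.subtype_injective).symm.toEquiv]
    exact Core.card_pPrimeCore_coprime p L
  rw [Core.pLengthLE_one_iff]
  have hLQ : L ≤ pPrimePCore p G := by
    rw [pPrimePCore, ← Subgroup.map_le_iff_le_comap]
    refine Core.le_pCore ((inferInstance : L.Normal).map _ (QuotientGroup.mk'_surjective _)) ?_
    rintro ⟨_, x, hx, rfl⟩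
    -- a power of `x` is regular
    set k := (orderOf (⟨x, hx⟩ : L)).factorization p
    refine ⟨k, Subtype.ext ?_⟩
    have hreg : ¬ p ∣ orderOf ((⟨x, hx⟩ : L) ^ p ^ k) := by
      rw [orderOf_pow_of_dvd (pow_ne_zero _ hp.ne_zero) (Nat.ordProj_dvd _ _)]
      exact Nat.not_dvd_ordCompl hp (orderOf_pos _).ne'
    have hmem : (⟨x, hx⟩ : L) ^ p ^ k ∈ K := by
      rw [← SetLike.mem_coe, hKset]
      exact fun θ hθ => hker _ hreg θ hθ
    simp only [Subgroup.coe_pow, Subgroup.coe_one]
    rw [← map_pow]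
    exact (QuotientGroup.eq_one_iff _).2 (hOle ⟨_, hKle hmem, rfl⟩)
  exact Nat.Coprime.symm ((hp.coprime_iff_not_dvd).2 fun hd =>
    P.not_dvd_index (dvd_trans hd (Subgroup.index_dvd_of_le (hPL.trans hLQ))))

/-- p-length one gives irreducible restriction of the principal block. -/
theorem irr_restrict_of_pLength_one (hpM : (p : AlgInt) ∈ M) (P : Sylow p G)
    (h : PLengthLE p 1 G) {χ : IrrCharacter G} (hχ : χ ∈ principalBlock M G) :
    IsIrrCharacter ↥(Subgroup.normalizer ((P : Subgroup G) : Set G))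
      (fun n : ↥(Subgroup.normalizer ((P : Subgroup G) : Set G)) => (χ : G → ℂ) n) := by
  classical
  have hp := (Fact.out : p.Prime)
  set O := pPrimeCore p G
  haveI : Fintype O := Fintype.ofFinite _
  have hOp : ¬ p ∣ Nat.card O :=
    hp.coprime_iff_not_dvd.1 (Core.card_pPrimeCore_coprime p G).symm
  have htriv : ∀ n ∈ O, (χ : G → ℂ) n = (χ : G → ℂ) 1 := fun n hn =>
    trivial_of_sameBlock hpM hOp (χ := oneChar G) hχ (fun _ => rfl) ⟨n, hn⟩
  obtain ⟨χ', hχ'⟩ := exists_descend χ.2 htriv
  rw [Core.pLengthLE_one_iff] at h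
  set Q := pPrimePCore p G with hQ
  haveI hQn : Q.Normal := by rw [hQ, pPrimePCore]; infer_instance
  have hPQ : (P : Subgroup G) ≤ Q := by
    intro x hx
    rw [← QuotientGroup.eq_one_iff]
    obtain ⟨k, hk⟩ := P.isPGroup' ⟨x, hx⟩
    have h1 : (x : G ⧸ Q) ^ p ^ k = 1 := by
      rw [← QuotientGroup.mk_pow, show x ^ p ^ k = 1 by simpa using congrArg Subtype.val hk,
        QuotientGroup.mk_one]
    have h2 : (x : G ⧸ Q) ^ Q.index = 1 := by rw [Subgroup.index_eq_card]; exact pow_card_eq_one'
    have := pow_gcd_eq_one.2 ⟨h1, h2⟩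
    rwa [(h.symm.pow_left k).gcd_eq_one, pow_one] at this
  set N := Subgroup.normalizer ((P : Subgroup G) : Set G)
  have hNQ : N ⊔ Q = ⊤ := P.normalizer_sup_eq_top' hPQ
  let r : N →* G ⧸ O := (QuotientGroup.mk' O).comp N.subtype
  have hr : Function.Surjective r := by
    intro y
    obtain ⟨g, rfl⟩ := QuotientGroup.mk'_surjective O y
    -- `Q = O ⊔ P`
    have hQOP : Q ≤ O ⊔ (P : Subgroup G) := by
      intro q hq
      let T : Sylow p (G ⧸ O) := P.mapSurjective (QuotientGroup.mk'_surjective O)
      have hq' : QuotientGroup.mk' O q ∈ pCore p (G ⧸ O) := hq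
      have hmem : QuotientGroup.mk' O q ∈ (P : Subgroup G).map (QuotientGroup.mk' O) :=
        Core.pCore_le_sylow T hq'
      rw [← Subgroup.mem_comap, Subgroup.comap_map_eq, QuotientGroup.ker_mk', sup_comm] at hmem
      exact hmem
    have hg : g ∈ O ⊔ N := by
      have htop : O ⊔ N = ⊤ := top_le_iff.1 (hNQ ▸ sup_le le_sup_right
        (hQOP.trans (sup_le le_sup_left (Subgroup.le_normalizer.trans le_sup_right))))
      rw [htop]; trivial
    obtain ⟨o, ho, n, hn, rfl⟩ := Subgroup.mem_sup_of_normal_left.1 hg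
    refine ⟨⟨n, hn⟩, ?_⟩
    show QuotientGroup.mk' O n = QuotientGroup.mk' O (o * n)
    rw [map_mul, show QuotientGroup.mk' O o = 1 from (QuotientGroup.eq_one_iff o).2 ho, one_mul]
  have := Chars.isIrrCharacter_comp_surjective χ'.2 r hr
  rw [hχ']
  exact this

end Cfsg.Agent.Blocks
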