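import Cfsg.Agent.S0071
import Cfsg.Agent.Transfer.QuaternionSection

/-! Fusion of the subgroups of order four of a quaternion Sylow `2`-subgroup. -/

set_option autoImplicit false

namespace Cfsg.Agent.Blocks.Q8Fusion

open Cfsg.Agent.S3742 (F Good)

universe u

theorem orbit_dec : ∀ u v : QuaternionGroup 2, Good u v → (∀ q, F u v (F u v (F u v q)) = q) →
    (¬ ∀ q, F u v q = q) → ∀ a b : QuaternionGroup 2, a * a ≠ 1 → b * b ≠ 1 →
    (a = b ∨ a = b⁻¹ ∨ F u v a = b ∨ F u v a = b⁻¹ ∨ F u v (F u v a) = b ∨ F u v (F u v a) = b⁻¹) := by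
  decide +kernel

theorem orbit {α : MulAut (QuaternionGroup 2)} (hα : α ≠ 1) (hodd : Odd (orderOf α))
    {a b : QuaternionGroup 2} (ha : a * a ≠ 1) (hb : b * b ≠ 1) :
    ∃ k : ℕ, (α ^ k) a = b ∨ (α ^ k) a = b⁻¹ := by
  have hα3 := Transfer.QSec.aut_cube α hodd
  have hF : ∀ q, F (α (.a 1)) (α (.xa 0)) q = α q := by
    intro q
    cases q with
    | a i =>
      show α (QuaternionGroup.a 1) ^ (ZMod.val i) = α (QuaternionGroup.a i)
      rw [← map_pow]; congr 1; revert i; decide +kernel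
    | xa i =>
      show α (QuaternionGroup.xa 0) * α (QuaternionGroup.a 1) ^ (ZMod.val i) = α (QuaternionGroup.xa i)
      rw [← map_pow, ← map_mul]; congr 1; revert i; decide +kernel
  have h := orbit_dec (α (.a 1)) (α (.xa 0))
    ⟨fun x y => by rw [hF, hF, hF, map_mul], fun x y h => α.injective (by rwa [hF, hF] at h)⟩
    (fun q => by
      rw [hF, hF, hF]
      have := MulEquiv.congr_fun hα3 q
      rwa [pow_succ, pow_two] at this)
    (fun h => hα (MulEquiv.ext fun q => by rw [← hF q, h q]; rfl)) a b ha hb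
  rw [hF, hF] at h
  rcases h with h | h | h | h | h | h
  · exact ⟨0, .inl h⟩
  · exact ⟨0, .inr h⟩
  · exact ⟨1, .inl h⟩
  · exact ⟨1, .inr h⟩
  · exact ⟨2, .inl h⟩
  · exact ⟨2, .inr h⟩

variable {G : Type u} [Group G] [Finite G] {S : Sylow 2 G}

theorem exists_sq_ne_one (e : (S : Subgroup G) ≃* QuaternionGroup 2) {A : Subgroup G}
    (hA : A ≤ S) (hA4 : Nat.card A = 4) :
    ∃ a : (S : Subgroup G), e a * e a ≠ 1 ∧ Subgroup.zpowers (a : G) = A := by
  classical
  haveI : Fintype A := Fintype.ofFinite A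
  have h2 : (Finset.univ.filter fun q : QuaternionGroup 2 => q * q = 1).card = 2 := by decide +kernel
  obtain ⟨a, haA, ha⟩ : ∃ a : (S : Subgroup G), (a : G) ∈ A ∧ e a * e a ≠ 1 := by
    by_contra hcon
    push Not at hcon
    have : Nat.card A ≤ 2 := by
      rw [Nat.card_eq_fintype_card, ← h2, ← Finset.card_univ]
      refine Finset.card_le_card_of_injOn (fun a : A => e ⟨a, hA a.2⟩) (fun a _ => ?_) ?_
      · simpa using hcon ⟨a, hA a.2⟩ a.2
      · intro x _ y _ hxy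
        exact Subtype.ext (Subtype.mk.inj (e.injective hxy))
    omega
  refine ⟨a, ha, Subgroup.eq_of_le_of_card_ge (Subgroup.zpowers_le.2 haA) ?_⟩
  rw [hA4, Nat.card_zpowers, Subgroup.orderOf_coe, ← MulEquiv.orderOf_eq e]
  have h4 : ∀ q : QuaternionGroup 2, q * q ≠ 1 → q * q * (q * q) = 1 := by decide +kernel
  have : orderOf (e a) = 4 := by
    refine orderOf_eq_prime_pow (p := 2) (n := 1) ?_ ?_
    · rw [pow_one, pow_two]; exact ha
    · rw [show (2 : ℕ) ^ (1 + 1) = 2 + 2 by norm_num, pow_add, pow_two]; exact h4 _ ha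
  omega

theorem exists_conj (e : (S : Subgroup G) ≃* QuaternionGroup 2)
    (hnc : ∀ N : Subgroup G, N.Normal → ¬ Subgroup.IsComplement' N (S : Subgroup G))
    (A B : Subgroup G) (hA : A ≤ S) (hB : B ≤ S) (hA4 : Nat.card A = 4) (hB4 : Nat.card B = 4) :
    ∃ n ∈ Subgroup.normalizer ((S : Subgroup G) : Set G),
      B = A.map (MulAut.conj n).toMonoidHom := by
  haveI : Fact (Nat.Prime 2) := ⟨Nat.prime_two⟩
  have h : ¬ ∀ Q : Subgroup G, Q ≤ (S : Subgroup G) → ∀ g ∈ Subgroup.normalizer (Q : Set G),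
      Nat.Coprime (orderOf g) 2 → g ∈ Subgroup.centralizer (Q : Set G) := fun h => by
    obtain ⟨N, hN, hN'⟩ := (Cfsg.Agent.S0071.result S).2 h
    exact hnc N hN hN'
  push Not at h
  obtain ⟨Q, hQ, g, hgN, hg2, hgC⟩ := h
  have hgo : Odd (orderOf g) := Nat.coprime_two_right.1 hg2
  obtain ⟨ι, hι, hr⟩ := Transfer.QSec.exists_q8 (n := 1) e hQ hgN hgo hgC
  have hQS : Q = (S : Subgroup G) := Subgroup.eq_of_le_of_card_ge hQ (by
    rw [← hr, Nat.card_congr e.toEquiv, Nat.card_congr (MonoidHom.ofInjective hι).toEquiv])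
  subst hQS
  set φ : Subgroup.normalizer ((S : Subgroup G) : Set G) →* MulAut (QuaternionGroup 2) :=
    (MulAut.congr e).toMonoidHom.comp (S : Subgroup G).normalizerMonoidHom with hφ
  have hφv : ∀ (n : Subgroup.normalizer ((S : Subgroup G) : Set G)) (x : (S : Subgroup G)),
      ((e.symm (φ n (e x)) : (S : Subgroup G)) : G) = (n : G) * x * (n : G)⁻¹ := by
    intro n x
    simp [hφ, MulAut.congr]; rfl
  set α := φ ⟨g, hgN⟩ with hα
  have hαo : Odd (orderOf α) := hgo.of_dvd_nat (by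
    rw [← Subgroup.orderOf_mk g hgN]; exact orderOf_map_dvd φ _)
  have hα1 : α ≠ 1 := fun h => hgC (Subgroup.mem_centralizer_iff.2 fun x hx => by
    have := hφv ⟨g, hgN⟩ ⟨x, hx⟩
    rw [← hα, h, MulAut.one_apply, e.symm_apply_apply] at this
    exact eq_mul_inv_iff_mul_eq.1 this)
  obtain ⟨a, ha, haA⟩ := exists_sq_ne_one e hA hA4
  obtain ⟨b, hb, hbB⟩ := exists_sq_ne_one e hB hB4
  obtain ⟨k, hk⟩ := orbit hα1 hαo ha hb
  refine ⟨g ^ k, Subgroup.pow_mem _ hgN k, ?_⟩
  have hv := hφv (⟨g, hgN⟩ ^ k) a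
  rw [map_pow, ← hα] at hv
  rw [← haA, ← hbB, MonoidHom.map_zpowers]
  show _ = Subgroup.zpowers (g ^ k * (a : G) * (g ^ k)⁻¹)
  rcases hk with h | h
  · rw [h, e.symm_apply_apply] at hv
    rw [hv]; rfl
  · rw [h, ← map_inv, e.symm_apply_apply, Subgroup.coe_inv] at hv
    rw [← Subgroup.zpowers_inv, hv]; rfl

end Cfsg.Agent.Blocks.Q8Fusion
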