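import Cfsg.Agent.Blocks.PPrimeKer
import Cfsg.Agent.Blocks.Defect
import Cfsg.Agent.Chars2.DegreeInherit
import Cfsg.Agent.S0938

/-!
Heights in a block with a normal defect group.
-/

namespace Cfsg.Agent.Blocks

open Cfsg Cfsg.Agent
open scoped ComplexConjugate commutatorElement

set_option linter.style.haveILetI false
set_option linter.unusedSectionVars false

universe u

variable {G : Type u} [Group G] [Fintype G] {p : ℕ} [Fact p.Prime] {M : Ideal AlgInt} [M.IsMaximal]

/-- The sums over the cosets of a normal subgroup vanish with the sum over the subgroup. -/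
theorem coset_sum_eq_zero (χ : IrrCharacter G) (S : Subgroup G) [hSn : S.Normal] [Fintype S]
    (h : ∑ s : S, (χ : G → ℂ) s = 0) (x : G) : ∑ s : S, (χ : G → ℂ) ((s : G) * x) = 0 := by
  classical
  obtain ⟨n, ρ, htr⟩ := exists_matrixRep χ.2
  set E := ∑ s : S, ρ (s : G) with hE
  have hEc : ∀ g, E * ρ g = ρ g * E := by
    intro g
    simp only [hE, Finset.sum_mul, Finset.mul_sum, ← map_mul]
    refine Fintype.sum_equiv ((MulAut.conjNormal g⁻¹ : MulAut S).toEquiv) _ _ fun a => ?_
    congr 1
    simp [MulAut.conjNormal_apply, mul_assoc]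
  obtain ⟨c, hc⟩ := matrix_scalar_of_commute ρ (by rw [funext htr]; exact χ.2) E hEc
  have hn : (n : ℂ) ≠ 0 := by
    have := Chars.irr_apply_one_ne_zero χ.2
    rw [← htr 1, map_one, Matrix.trace_one, Fintype.card_fin] at this
    exact this
  have hc0 : c = 0 := by
    have h1 : E.trace = 0 := by rw [hE, Matrix.trace_sum]; simpa only [htr] using h
    rw [hc, Matrix.trace_smul, Matrix.trace_one, Fintype.card_fin, smul_eq_mul, mul_eq_zero] at h1
    exact h1.resolve_right hn
  have : ∀ s : S, (χ : G → ℂ) ((s : G) * x) = (ρ (s : G) * ρ x).trace := fun s => by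
    rw [← map_mul, htr]
  rw [Finset.sum_congr rfl fun s _ => this s, ← Matrix.trace_sum, ← Finset.sum_mul, ← hE, hc, hc0,
    zero_smul, zero_mul, Matrix.trace_zero]

/-- A value on a `p'`-element commuting with a `p`-group `D` is in the local ideal when no linear
constituent of `D` occurs. -/
theorem memI_value_of_sum_eq_zero (hpM : (p : AlgInt) ∈ M) {D : Subgroup G} [D.Normal]
    (hD : IsPGroup p D) {g : G} (hg : g ∈ Subgroup.centralizer (D : Set G)) (χ : IrrCharacter G)
    [Fintype (commutator D)] (h0 : ∑ s : commutator D, (χ : G → ℂ) ((s : D) : G) = 0) :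
    MemLocalIdeal M ((χ : G → ℂ) g) := by
  classical
  set C := Subgroup.zpowers g with hC
  have hcomm : ∀ (d : D) (c : C), Commute (d : G) (c : G) := fun d c => by
    obtain ⟨i, hi⟩ := Subgroup.mem_zpowers_iff.1 c.2
    rw [← hi]
    exact Commute.zpow_right (Subgroup.mem_centralizer_iff.1 hg d d.2) i
  set Φ : D × C →* G := MonoidHom.noncommCoprod D.subtype C.subtype hcomm with hΦ
  haveI : Fintype D := Fintype.ofFinite _
  haveI : Fintype C := Fintype.ofFinite _
  set F : D × C → ℂ := fun e => (χ : G → ℂ) (Φ e) with hF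
  have hFc : IsCharacter (D × C) F := Chars.isCharacter_comp (Chars.irr_isCharacter χ) Φ
  obtain ⟨m, hm, hsum⟩ := Chars.exists_eq_sum_nsmul hFc
  -- the coset sums vanish
  have hS : ∀ x : G, ∑ s : commutator D, (χ : G → ℂ) (((s : D) : G) * x) = 0 := by
    intro x
    haveI : ((commutator D).map D.subtype).Normal := inferInstance
    letI : Fintype ((commutator D).map D.subtype) := Fintype.ofFinite _
    let eq := ((commutator D).equivMapOfInjective D.subtype D.subtype_injective).toEquiv
    have h1 : ∑ s : (commutator D).map D.subtype, (χ : G → ℂ) s = 0 := by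
      rw [← h0]
      exact (Fintype.sum_equiv eq _ _ fun s => rfl).symm
    rw [← coset_sum_eq_zero χ _ h1 x]
    exact Fintype.sum_equiv eq _ _ fun s => rfl
  have hlin : ∀ η : IrrCharacter (D × C), (η : D × C → ℂ) 1 = 1 → m η = 0 := by
    intro η hη
    obtain ⟨φ, hφ⟩ := Chars.exists_hom_of_degree_one (Chars.irr_isCharacter η) hη
    have hker : ∀ s : commutator D, φ ((s : D), 1) = 1 := fun s =>
      MonoidHom.mem_ker.1 (Abelianization.commutator_subset_ker (φ.comp (MonoidHom.inl D C)) s.2)
    have h1 : ∀ s : commutator D,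
        ∑ e : D × C, F e * conj ((η : D × C → ℂ) e) =
          ∑ e : D × C, F (((s : D), 1) * e) * conj ((η : D × C → ℂ) e) := by
      intro s
      refine (Fintype.sum_equiv (Equiv.mulLeft (((s : D), 1) : D × C)) _ _ fun e => ?_).symm
      simp only [Equiv.coe_mulLeft]
      congr 2
      rw [hφ]
      show (φ e : ℂ) = (φ (((s : D), 1) * e) : ℂ)
      rw [map_mul, hker s, one_mul]
    have h2 : (Nat.card (commutator D) : ℂ) * ∑ e : D × C, F e * conj ((η : D × C → ℂ) e) = 0 := by
      rw [Nat.card_eq_fintype_card, ← nsmul_eq_mul, ← Finset.card_univ, ← Finset.sum_const,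
        Finset.sum_congr rfl fun s _ => h1 s, Finset.sum_comm]
      refine Finset.sum_eq_zero fun e _ => ?_
      rw [← Finset.sum_mul]
      have : ∑ s : commutator D, F (((s : D), 1) * e) = 0 := by
        simp only [hF, map_mul]
        rw [show ∑ s : commutator D, (χ : G → ℂ) (Φ ((s : D), 1) * Φ e) =
          ∑ s : commutator D, (χ : G → ℂ) (((s : D) : G) * Φ e) from
            Finset.sum_congr rfl fun s _ => congrArg (χ : G → ℂ) (congrArg (· * Φ e) (mul_one ((s : D) : G)))]
        exact hS (Φ e)
      rw [this, zero_mul]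
    have h3 := hm η
    rw [Chars.classInner_def, (mul_eq_zero.1 h2).resolve_left
      (Nat.cast_ne_zero.2 Nat.card_pos.ne'), mul_zero] at h3
    exact_mod_cast h3.symm
  have hval : ∀ η : IrrCharacter (D × C), (η : D × C → ℂ) 1 ≠ 1 →
      MemLocalIdeal M ((η : D × C → ℂ) (1, ⟨g, Subgroup.mem_zpowers g⟩)) := by
    intro η hη
    obtain ⟨hd, hpos⟩ := charDegree_eq η.2
    have hz : ((1 : D), (⟨g, Subgroup.mem_zpowers g⟩ : C)) ∈ Subgroup.center (D × C) := by
      refine Subgroup.mem_center_iff.2 fun e => Prod.ext (by simp) ?_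
      exact mul_comm' _ _
    have hidx : (Subgroup.center (D × C)).index ∣ Nat.card D := by
      have hle : (MonoidHom.inr D C).range ≤ Subgroup.center (D × C) := by
        rintro _ ⟨c, rfl⟩
        refine Subgroup.mem_center_iff.2 fun e => Prod.ext (by simp) ?_
        exact mul_comm' _ _
      refine (Subgroup.index_dvd_of_le hle).trans (dvd_of_eq ?_)
      have h1 := Subgroup.card_mul_index (MonoidHom.inr D C).range
      rw [Nat.card_prod, ← Nat.card_congr (MonoidHom.ofInjective
        (f := MonoidHom.inr D C) (fun a b h => congrArg Prod.snd h)).toEquiv, mul_comm] at h1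
      exact Nat.eq_of_mul_eq_mul_right Nat.card_pos h1
    obtain ⟨k, hk⟩ := hD.exists_card_eq
    have hdvd : charDegree (η : D × C → ℂ) ∣ p ^ k := hk ▸
      (Chars2.charDegree_dvd_index (A := Subgroup.center (D × C))
        (fun a ha b hb => (Subgroup.mem_center_iff.1 hb a)) η).trans hidx
    obtain ⟨j, -, hj⟩ := (Nat.dvd_prime_pow (Fact.out : p.Prime)).1 hdvd
    have hpd : p ∣ charDegree (η : D × C → ℂ) := by
      rcases j with _ | j
      · exact absurd (by rw [hd, hj, pow_zero, Nat.cast_one]) hη
      · exact hj ▸ dvd_pow_self p j.succ_ne_zero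
    have hcc := centralChar_memR hpM η ((1 : D), (⟨g, Subgroup.mem_zpowers g⟩ : C))
    have htop : Subgroup.centralizer ({((1 : D), (⟨g, Subgroup.mem_zpowers g⟩ : C))} : Set (D × C)) = ⊤ := by
      refine top_le_iff.1 fun e _ => Subgroup.mem_centralizer_singleton_iff.2 ?_
      exact Subgroup.mem_center_iff.1 hz e
    have : (η : D × C → ℂ) (1, ⟨g, Subgroup.mem_zpowers g⟩) =
        (charDegree (η : D × C → ℂ) : ℂ) *
          centralChar (η : D × C → ℂ) (1, ⟨g, Subgroup.mem_zpowers g⟩) := by
      rw [centralChar, htop, Subgroup.index_top, Nat.cast_one, one_mul, hd,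
        mul_div_cancel₀ _ (Nat.cast_ne_zero.2 hpos.ne')]
    rw [this]
    exact memI_mul_right ((memI_natCast_iff hpM _).2 hpd) hcc
  have hχg : (χ : G → ℂ) g = F (1, ⟨g, Subgroup.mem_zpowers g⟩) := congrArg (χ : G → ℂ) (one_mul g).symm
  rw [hχg, hsum, Finset.sum_apply]
  refine memI_sum _ _ fun η _ => ?_
  simp only [Pi.smul_apply, nsmul_eq_mul]
  by_cases hη : (η : D × C → ℂ) 1 = 1
  · rw [hlin η hη, Nat.cast_zero, zero_mul]; exact memI_zero
  · exact memI_mul_left (memR_natCast _) (hval η hη)

theorem comm_iff_height_zero (hpM : (p : AlgInt) ∈ M) {B : Set (IrrCharacter G)}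
    (hB : IsPBlock M B) {D : Subgroup G} [D.Normal] (hD : IsDefectGroup p M B D) :
    (∀ a ∈ D, ∀ c ∈ D, a * c = c * a) ↔ ∀ χ ∈ B, blockHeight p B (χ : G → ℂ) = 0 := by
  classical
  have hp := (Fact.out : p.Prime)
  have hDp := isPGroup_defect hD
  constructor
  · intro hab χ hχ
    have h1 := Chars2.charDegree_dvd_index (A := D) hab χ
    have h2 : (charDegree (χ : G → ℂ)).factorization p ≤ D.index.factorization p :=
      (Nat.factorization_le_iff_dvd (charDegree_eq χ.2).2.ne'
        Subgroup.index_ne_zero_of_finite).2 h1 p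
    have h3 := degree_eq_height hpM hB hχ
    have h4 : blockDefect p B + D.index.factorization p = (Nat.card G).factorization p := by
      rw [← Subgroup.card_mul_index D, Nat.factorization_mul Nat.card_pos.ne'
        Subgroup.index_ne_zero_of_finite, Finsupp.add_apply, card_defectGroup hpM hB hD,
        hp.factorization_pow, Finsupp.single_eq_same]
    omega
  · intro hall
    letI : Fintype (commutator D) := Fintype.ofFinite _
    obtain ⟨g, hg, hgD⟩ := isDefectGroup_iff.1 hD
    have hgC : g ∈ Subgroup.centralizer (D : Set G) := le_centralizer_singleton_iff.1 hgD.1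
    letI : Fintype ((commutator D).map D.subtype) := Fintype.ofFinite _
    have hker : ∀ χ ∈ B, ∀ s ∈ (commutator D).map D.subtype,
        (χ : G → ℂ) s = (χ : G → ℂ) 1 := by
      intro χ hχ s hs
      by_cases h0 : ∑ t : commutator D, (χ : G → ℂ) ((t : D) : G) = 0
      · exact absurd (memI_value_of_sum_eq_zero hpM hDp hgC χ h0)
          (not_memI_value_of_height_zero hpM hB hχ (hall χ hχ) hg)
      · refine apply_eq_one_of_sum_ne_zero χ ((commutator D).map D.subtype) (fun h => h0 ?_)
          ((commutator D).map D.subtype) le_rfl hs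
        rw [← h]
        exact Fintype.sum_equiv
          ((commutator D).equivMapOfInjective D.subtype D.subtype_injective).toEquiv _ _ fun t => rfl
    obtain ⟨χ₀, hχ₀⟩ := block_nonempty hB
    obtain ⟨K, -, hK, hKp, -, -⟩ :=
      S0938.result p M ⟨hp, inferInstance, hpM⟩ B hB χ₀ hχ₀
    intro a ha c hc
    have hmem : ((⁅(⟨a, ha⟩ : D), ⟨c, hc⟩⁆ : D) : G) ∈ (K : Set G) := by
      rw [hK]
      intro χ hχ
      exact hker χ hχ _ (Subgroup.mem_map_of_mem _
        (Subgroup.commutator_mem_commutator (Subgroup.mem_top _) (Subgroup.mem_top _)))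
    obtain ⟨k, hk⟩ := IsPGroup.iff_orderOf.1 hDp ⁅(⟨a, ha⟩ : D), ⟨c, hc⟩⁆
    have hk0 : k = 0 := by
      by_contra hne
      apply hKp
      refine ((dvd_pow_self p hne).trans (dvd_of_eq ?_)).trans
        (orderOf_dvd_natCard (⟨_, hmem⟩ : K))
      rw [Subgroup.orderOf_mk, Subgroup.orderOf_coe, hk]
    rw [hk0, pow_zero, orderOf_eq_one_iff, commutatorElement_eq_one_iff_mul_comm] at hk
    exact congrArg Subtype.val hk

end Cfsg.Agent.Blocks
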