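import Cfsg.Agent.Blocks.BrauerBlock
import Cfsg.Agent.BlockChar.StarInner
import Cfsg.Agent.Chars.GaloisValues

/-!
The trace of an automorphism on the span of the regular restrictions of a block is a natural
number; in consequence each `p`-section contributes nonnegatively to the number of `p`-rational
characters of a block.
-/

set_option autoImplicit false
set_option linter.unusedSectionVars false
set_option linter.style.haveILetI false
set_option maxHeartbeats 1000000
set_option synthInstance.maxHeartbeats 400000

namespace Cfsg.Agent.Blocks.SectionTrace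

open Cfsg Cfsg.Agent Cfsg.Agent.BlockChar Cfsg.Agent.Blocks
open scoped ComplexConjugate

universe u

variable {p : ℕ} [Fact p.Prime] {M : Ideal AlgInt} [M.IsMaximal]
variable {G : Type u} [Group G] [Fintype G]

theorem centralChar_comp_equiv (χ : G → ℂ) (e : G ≃* G) (g : G) :
    centralChar (fun x => χ (e x)) g = centralChar χ (e g) := by
  have h : (Subgroup.centralizer ({e g} : Set G)).index =
      (Subgroup.centralizer ({g} : Set G)).index := by
    have hc : Subgroup.centralizer ({e g} : Set G) =
        (Subgroup.centralizer ({g} : Set G)).map e.toMonoidHom := by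
      ext x
      rw [Subgroup.mem_map_equiv, Subgroup.mem_centralizer_singleton_iff,
        Subgroup.mem_centralizer_singleton_iff]
      constructor
      · intro h
        apply e.injective
        simpa using h
      · intro h
        have := congrArg e h
        simpa using this
    rw [hc]
    exact Subgroup.index_map_of_bijective (f := e.toMonoidHom) e.bijective _
  simp only [centralChar, h, map_one]

/-- The trace of an automorphism on a block, over the regular elements. -/
theorem exists_aut_trace (hpM : (p : AlgInt) ∈ M) {b : Set (IrrCharacter G)} (hb : IsPBlock M b)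
    (e : G ≃* G) : ∃ r : ℕ,
    ∑ s ∈ regs p G, kerB b (e s) s = (Nat.card G : ℂ) * (r : ℂ) := by
  classical
  have heo : ∀ s, orderOf (e s) = orderOf s := fun s => MulEquiv.orderOf_eq e s
  let c : IrrCharacter G → IrrCharacter G := fun θ =>
    ⟨fun x => (θ : G → ℂ) (e x), Chars.isIrrCharacter_comp_equiv θ.2 e⟩
  have hreg : ∀ (α β : IrrCharacter G), ∑ s ∈ regs p G, (α : G → ℂ) s * conj ((β : G → ℂ) s) =
      (Nat.card G : ℂ) * regInner p (α : G → ℂ) (β : G → ℂ) := fun α β => by
    rw [regInner, mul_inv_cancel_left₀ Chars.card_ne_zero]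
  have hsum : ∑ s ∈ regs p G, kerB b (e s) s =
      ∑ θ ∈ bf b, ∑ s ∈ regs p G, (c θ : G → ℂ) s * conj ((θ : G → ℂ) s) := by
    simp only [kerB]
    exact Finset.sum_comm
  by_cases hst : ∀ θ ∈ b, c θ ∈ b
  · have hcinj : Function.Injective c := fun α β h => Subtype.ext (funext fun x => by
      have h' := congrFun (congrArg Subtype.val h) (e.symm x)
      simpa [c] using h')
    have himg : (bf b).image c = bf b := Finset.eq_of_subset_of_card_le
      (fun θ hθ => by
        obtain ⟨α, hα, rfl⟩ := Finset.mem_image.1 hθ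
        exact mem_bf.2 (hst α (mem_bf.1 hα)))
      (by rw [Finset.card_image_of_injective _ hcinj])
    have hbc : ∀ g, blockCoeff b (e g) = blockCoeff b g := by
      intro g
      rw [blockCoeff_eq_sum, Finset.sum_apply, Finset.sum_apply, filter_eq_bf]
      conv_rhs => rw [← himg, Finset.sum_image fun α _ β _ h => hcinj h]
      refine Finset.sum_congr rfl fun θ _ => ?_
      simp only [eFun, c, map_one]
    obtain ⟨φ, d, m, z, -, -, -, hφi, hdec, hz, hσ, hfac⟩ :=
      BrauerBlock.exists_ibr_full hpM hb
    have hN : ∀ i, ∃ N : Fin (blockRank p b) → ℕ,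
        ∀ s, φ i (e s) = ∑ j, (N j : ℂ) * φ j s := by
      intro i
      obtain ⟨n, σ, hσi, hσb⟩ := hσ i
      have hb1 : MonoidAlgebra.lift (Res M) (Matrix (Fin n) (Fin n) (Res M)) G
          (σ.comp e.toMonoidHom) (idemG M b) = 1 := by
        rw [← hσb]
        have hexp : idemG M b = ∑ g, (idemG M b).coeff g • MonoidAlgebra.single g (1 : Res M) := by
          ext a
          simp [MonoidAlgebra.coeff_sum, Finsupp.single_apply]
        conv_lhs => rw [hexp, map_sum]
        conv_rhs => rw [hexp, map_sum, ← e.toEquiv.sum_comp]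
        refine Finset.sum_congr rfl fun g _ => ?_
        rw [map_smul, map_smul, MonoidAlgebra.lift_single, MonoidAlgebra.lift_single,
          show (idemG M b).coeff g = res M (blockCoeff b g) from
            coeff_red (ι := MonoidHom.id G) Function.injective_id _ g,
          show (idemG M b).coeff (e.toEquiv g) = res M (blockCoeff b (e.toEquiv g)) from
            coeff_red (ι := MonoidHom.id G) Function.injective_id _ _]
        show _ = res M (blockCoeff b (e g)) • _
        rw [hbc]
        rfl
      obtain ⟨N, hN⟩ := hfac n _ hb1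
      refine ⟨N, fun s => ?_⟩
      have h1 := congrFun hN s
      rw [EigenLift.bchar_comp σ e.toMonoidHom (heo s), Finset.sum_apply] at h1
      rw [hσi]
      exact h1
    choose N hN using hN
    refine ⟨∑ i, N i i, ?_⟩
    have hortho : ∀ i j, ∑ θ ∈ bf b, (m θ i : ℂ) * regInner p (φ j) (θ : G → ℂ) =
        if i = j then 1 else 0 := by
      intro i j
      have hvan : ∀ x, p ∣ orderOf x → ∑ θ ∈ bf b, (m θ i : ℂ) * (θ : G → ℂ) x = 0 := by
        intro x hx
        have hs0 : ∑ l, starRingEnd ℂ (∑ θ ∈ bf b, (m θ l : ℂ) * (θ : G → ℂ) x) • φ l = 0 := by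
          funext s
          rw [Finset.sum_apply, Pi.zero_apply]
          by_cases hs : p ∣ orderOf s
          · refine Finset.sum_eq_zero fun l _ => ?_
            rw [Pi.smul_apply, hz l, Finset.sum_apply]
            simp [pRegularPart, IsPRegular, hs]
          · have horth := block_orth_weak hpM hb hs hx
            rw [filter_eq_bf] at horth
            rw [← horth]
            simp only [Pi.smul_apply, smul_eq_mul, map_sum, map_mul, map_natCast, Finset.sum_mul]
            rw [Finset.sum_comm]
            refine Finset.sum_congr rfl fun χ hχ => ?_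
            have h1 := congrFun (hdec χ (mem_bf.1 hχ)) s
            simp only [pRegularPart, IsPRegular, hs, not_false_eq_true, if_true,
              Finset.sum_apply, Pi.smul_apply, smul_eq_mul] at h1
            rw [h1, Finset.sum_mul]
            exact Finset.sum_congr rfl fun l _ => by ring
        have := Fintype.linearIndependent_iff.1 hφi _ hs0 i
        exact (map_eq_zero_iff _ (starRingEnd ℂ).injective).1 this
      have hzm : ∀ i' : Fin (blockRank p b), ∑ χ ∈ bf b, (z j χ : ℂ) * (m χ i' : ℂ) =
          if j = i' then 1 else 0 := by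
        intro i'
        have h1 : φ j = ∑ l, (∑ χ ∈ bf b, (z j χ : ℂ) * (m χ l : ℂ)) • φ l := by
          conv_lhs => rw [hz j]
          simp only [Finset.sum_smul, mul_smul]
          rw [Finset.sum_comm]
          refine Finset.sum_congr rfl fun χ hχ => ?_
          rw [hdec χ (mem_bf.1 hχ), Finset.smul_sum]
        have h2 : ∑ l, ((∑ χ ∈ bf b, (z j χ : ℂ) * (m χ l : ℂ)) - if j = l then 1 else 0) • φ l
            = 0 := by
          simp only [sub_smul, Finset.sum_sub_distrib, ite_smul, one_smul, zero_smul,
            Finset.sum_ite_eq, Finset.mem_univ, if_true, ← h1, sub_self]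
        exact sub_eq_zero.1 (Fintype.linearIndependent_iff.1 hφi _ h2 i')
      have hχΦ : ∀ χ ∈ bf b, ∑ θ ∈ bf b, (m θ i : ℂ) *
          regInner p (pRegularPart p (χ : G → ℂ)) (θ : G → ℂ) = (m χ i : ℂ) := by
        intro χ hχ
        have h1 : ∀ θ : IrrCharacter G, regInner p (pRegularPart p (χ : G → ℂ)) (θ : G → ℂ) =
            (Nat.card G : ℂ)⁻¹ * ∑ g ∈ regs p G, (χ : G → ℂ) g * conj ((θ : G → ℂ) g) := by
          intro θ
          rw [regInner]
          congr 1
          refine Finset.sum_congr rfl fun g hg => ?_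
          simp [pRegularPart, IsPRegular, mem_regs.1 hg]
        calc ∑ θ ∈ bf b, (m θ i : ℂ) * regInner p (pRegularPart p (χ : G → ℂ)) (θ : G → ℂ)
            = (Nat.card G : ℂ)⁻¹ * ∑ g ∈ regs p G,
                (χ : G → ℂ) g * conj (∑ θ ∈ bf b, (m θ i : ℂ) * (θ : G → ℂ) g) := by
              simp only [h1, map_sum, map_mul, map_natCast, Finset.mul_sum]
              rw [Finset.sum_comm]
              exact Finset.sum_congr rfl fun _ _ => Finset.sum_congr rfl fun _ _ => by ring
          _ = (Nat.card G : ℂ)⁻¹ * ∑ g,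
                (χ : G → ℂ) g * conj (∑ θ ∈ bf b, (m θ i : ℂ) * (θ : G → ℂ) g) := by
              congr 1
              refine Finset.sum_subset (Finset.subset_univ _) fun g _ hg => ?_
              rw [mem_regs, not_not] at hg
              rw [hvan g hg, map_zero, mul_zero]
          _ = ∑ θ ∈ bf b, (m θ i : ℂ) * classInner (χ : G → ℂ) (θ : G → ℂ) := by
              simp only [Chars.classInner_def, map_sum, map_mul, map_natCast, Finset.mul_sum]
              rw [Finset.sum_comm]
              exact Finset.sum_congr rfl fun _ _ => Finset.sum_congr rfl fun _ _ => by ring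
          _ = _ := by
              simp [Chars.classInner_irrCharacter, hχ]
      calc ∑ θ ∈ bf b, (m θ i : ℂ) * regInner p (φ j) (θ : G → ℂ)
          = ∑ χ ∈ bf b, (z j χ : ℂ) * ∑ θ ∈ bf b, (m θ i : ℂ) *
              regInner p (pRegularPart p (χ : G → ℂ)) (θ : G → ℂ) := by
            conv_lhs => rw [hz j]
            simp only [regInner, Finset.sum_apply, Pi.smul_apply, smul_eq_mul, Finset.sum_mul,
              Finset.mul_sum]
            rw [Finset.sum_congr rfl fun _ _ => Finset.sum_comm, Finset.sum_comm]
            exact Finset.sum_congr rfl fun _ _ => Finset.sum_congr rfl fun _ _ =>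
              Finset.sum_congr rfl fun _ _ => by ring
        _ = ∑ χ ∈ bf b, (z j χ : ℂ) * (m χ i : ℂ) :=
            Finset.sum_congr rfl fun χ hχ => by rw [hχΦ χ hχ]
        _ = _ := by rw [hzm i]; simp [eq_comm]
    rw [hsum]
    calc ∑ θ ∈ bf b, ∑ s ∈ regs p G, (c θ : G → ℂ) s * conj ((θ : G → ℂ) s)
        = ∑ θ ∈ bf b, ∑ i, ∑ j, (m θ i : ℂ) * (N i j : ℂ) *
            ((Nat.card G : ℂ) * regInner p (φ j) (θ : G → ℂ)) := by
          refine Finset.sum_congr rfl fun θ hθ => ?_
          simp only [regInner, mul_inv_cancel_left₀ (Chars.card_ne_zero (G := G)), Finset.mul_sum]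
          rw [Finset.sum_congr rfl fun i _ => Finset.sum_comm, Finset.sum_comm]
          refine Finset.sum_congr rfl fun s hs => ?_
          have hs' : ¬ p ∣ orderOf (e s) := by rw [heo]; exact mem_regs.1 hs
          have h1 := congrFun (hdec θ (mem_bf.1 hθ)) (e s)
          simp only [pRegularPart, IsPRegular, hs', not_false_eq_true, if_true, Finset.sum_apply,
            Pi.smul_apply, smul_eq_mul, hN] at h1
          show (θ : G → ℂ) (e s) * _ = _
          rw [h1, Finset.sum_mul]
          refine Finset.sum_congr rfl fun i _ => ?_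
          rw [Finset.mul_sum, Finset.sum_mul]
          exact Finset.sum_congr rfl fun j _ => by ring
      _ = (Nat.card G : ℂ) * ∑ i, ∑ j, (N i j : ℂ) *
            ∑ θ ∈ bf b, (m θ i : ℂ) * regInner p (φ j) (θ : G → ℂ) := by
          simp only [Finset.mul_sum]
          rw [Finset.sum_comm]
          refine Finset.sum_congr rfl fun i _ => ?_
          rw [Finset.sum_comm]
          exact Finset.sum_congr rfl fun _ _ => Finset.sum_congr rfl fun _ _ => by ring
      _ = _ := by
          simp only [hortho, mul_ite, mul_one, mul_zero, Finset.sum_ite_eq, Finset.mem_univ,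
            if_true, Nat.cast_sum]
  · refine ⟨0, ?_⟩
    rw [Nat.cast_zero, mul_zero, hsum]
    refine Finset.sum_eq_zero fun θ hθ => ?_
    rw [hreg, regInner_eq_zero hpM, mul_zero]
    intro hsame
    push Not at hst
    obtain ⟨α, hα, hcα⟩ := hst
    refine hcα (mem_of_sameBlock hb (mem_bf.1 hθ) fun g => ?_)
    have h1 := memI_sub (sameBlock_of_mem hb (mem_bf.1 hθ) hα (e g)) (hsame g)
    simp only [c, centralChar_comp_equiv] at h1 ⊢
    have h2 := memI_sub h1 (memI_zero)
    have h3 : centralChar (θ : G → ℂ) g - centralChar (α : G → ℂ) (e g) =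
        ((centralChar (θ : G → ℂ) (e g) - centralChar (α : G → ℂ) (e g)) -
          (centralChar (θ : G → ℂ) (e g) - centralChar (θ : G → ℂ) g)) := by ring
    rw [h3]
    exact h1

theorem sum_block_column₂ {u : G} {H : Subgroup G} [Fintype H]
    (hH : H = Subgroup.centralizer ({u} : Set G))
    (hu : ∃ k : ℕ, orderOf u = p ^ k) (hpM : (p : AlgInt) ∈ M) {B : Set (IrrCharacter G)}
    (hB : IsPBlock M B) {t s : H} (ht : ¬ p ∣ orderOf t) (hs : ¬ p ∣ orderOf s)
    [DecidablePred fun b => IsInducedBlock M H b B] :
    kerB B (u * (t : G)) (u * (s : G)) =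
      ∑ b ∈ (blockFinset M H).filter (fun b => IsInducedBlock M H b B), kerB b t s := by
  classical
  calc kerB B (u * (t : G)) (u * (s : G))
      = ∑ χ ∈ bf B, ∑ b ∈ blockFinset M H, ∑ b' ∈ blockFinset M H,
          secPart u b χ t * conj (secPart u b' χ s) := by
        refine Finset.sum_congr rfl fun χ _ => ?_
        rw [← Finset.sum_mul_sum, ← map_sum, sum_sec_eq hH hu hpM, sum_sec_eq hH hu hpM]
    _ = ∑ b ∈ blockFinset M H, ∑ b' ∈ blockFinset M H,
          ∑ χ ∈ bf B, secPart u b χ t * conj (secPart u b' χ s) := by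
        rw [Finset.sum_comm]
        exact Finset.sum_congr rfl fun b _ => Finset.sum_comm
    _ = _ := by
        rw [Finset.sum_filter]
        refine Finset.sum_congr rfl fun b hb => ?_
        split_ifs with hind
        · rw [Finset.sum_eq_single b]
          · rw [sum_sec_block hH hu hpM hind (mem_blockFinset.1 hb) ht hs, if_pos rfl]
          · intro b' hb' hne
            rw [sum_sec_block hH hu hpM hind (mem_blockFinset.1 hb') ht hs, if_neg hne.symm]
          · exact fun h => absurd hb h
        · refine Finset.sum_eq_zero fun b' _ => Finset.sum_eq_zero fun χ hχ => ?_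
          obtain ⟨B', hB'⟩ := induced_defined_sec hH hu hpM (mem_blockFinset.1 hb)
          rw [secPart_eq_zero hH hu hpM hB' (fun h => hind ?_) ht, zero_mul]
          rwa [← blocks_eq_of_inter hB'.2.1 hB h (mem_bf.1 hχ)]

/-- Each `p`-section contributes a natural multiple of the order of the centralizer. -/
theorem exists_section_trace (hpM : (p : AlgInt) ∈ M) {B : Set (IrrCharacter G)}
    (hB : IsPBlock M B) {u : G} (hu : ∃ t : ℕ, orderOf u = p ^ t) [Fintype (cz u)] {k : ℕ}
    (hk : k.Coprime (Nat.card G)) (hkm : ∀ s : G, ¬ p ∣ orderOf s → s ^ k = s) :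
    ∃ r : ℕ, ∑ s ∈ regs p (cz u), kerB B ((u * (s : G)) ^ k) (u * (s : G)) = (r : ℂ) := by
  classical
  have hH : cz u = Subgroup.centralizer ({u} : Set G) := cz_eq u
  have hpow : ∀ s : cz u, s ∈ regs p (cz u) → (u * (s : G)) ^ k = u ^ k * (s : G) := fun s hs => by
    rw [(mem_cz.1 s.2).mul_pow, hkm (s : G) (by rw [Subgroup.orderOf_coe]; exact mem_regs.1 hs)]
  by_cases hconj : IsConj u (u ^ k)
  · obtain ⟨x, hx⟩ := isConj_iff.1 hconj
    have hgen : ∃ l : ℕ, (u ^ k) ^ l = u := by
      obtain ⟨t, ht⟩ := hu
      have hc : k.Coprime (orderOf u) :=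
        Nat.Coprime.coprime_dvd_right (orderOf_dvd_natCard u) hk
      obtain ⟨l, -, hl⟩ := Nat.exists_mul_mod_eq_of_coprime (k := orderOf u) (n := k) 1 hc
        (orderOf_pos u).ne'
      refine ⟨l, ?_⟩
      rw [← pow_mul, ← pow_mod_orderOf, hl, pow_mod_orderOf, pow_one]
    have hmem : ∀ s : cz u, x⁻¹ * (s : G) * x ∈ cz u := fun s => by
      obtain ⟨l, hl⟩ := hgen
      have hs : Commute (u ^ k) (s : G) := (mem_cz.1 s.2).pow_left k
      rw [← hx] at hs
      refine mem_cz.2 ?_
      show u * (x⁻¹ * (s : G) * x) = x⁻¹ * (s : G) * x * u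
      have h2 : x * u * x⁻¹ * (s : G) = (s : G) * (x * u * x⁻¹) := hs.eq
      calc u * (x⁻¹ * (s : G) * x) = x⁻¹ * (x * u * x⁻¹ * (s : G)) * x := by group
        _ = x⁻¹ * ((s : G) * (x * u * x⁻¹)) * x := by rw [h2]
        _ = _ := by group
    let f : cz u →* cz u :=
      { toFun := fun s => ⟨x⁻¹ * (s : G) * x, hmem s⟩
        map_one' := Subtype.ext (by simp)
        map_mul' := fun a b => Subtype.ext (by
          show x⁻¹ * ((a : G) * b) * x = x⁻¹ * a * x * (x⁻¹ * b * x)
          group) }
    have hfi : Function.Injective f := fun a b h => Subtype.ext (by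
      have h' : x⁻¹ * (a : G) * x = x⁻¹ * (b : G) * x := congrArg Subtype.val h
      simpa using h')
    let e : cz u ≃* cz u := MulEquiv.ofBijective f (Finite.injective_iff_bijective.1 hfi)
    have hterm : ∀ s ∈ regs p (cz u), kerB B ((u * (s : G)) ^ k) (u * (s : G)) =
        ∑ b ∈ (blockFinset M (cz u)).filter (fun b => IsInducedBlock M (cz u) b B),
          kerB b (e s) s := by
      intro s hs
      have hes : ¬ p ∣ orderOf (e s) := by rw [MulEquiv.orderOf_eq]; exact mem_regs.1 hs
      rw [← sum_block_column₂ hH hu hpM hB hes (mem_regs.1 hs), hpow s hs]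
      simp only [kerB]
      refine Finset.sum_congr rfl fun χ _ => ?_
      congr 1
      rw [← hx]
      show (χ : G → ℂ) (x * u * x⁻¹ * (s : G)) = (χ : G → ℂ) (u * (x⁻¹ * (s : G) * x))
      rw [← Chars.isClassFunction_irr χ (u * (x⁻¹ * (s : G) * x)) x]
      congr 1
      group
    rw [Finset.sum_congr rfl hterm, Finset.sum_comm]
    have hr : ∀ b ∈ (blockFinset M (cz u)).filter (fun b => IsInducedBlock M (cz u) b B),
        ∃ r : ℕ, ∑ s ∈ regs p (cz u), kerB b (e s) s = (r : ℂ) := fun b hb => by
      obtain ⟨r, hr⟩ := exists_aut_trace hpM (mem_blockFinset.1 (Finset.mem_filter.1 hb).1) e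
      exact ⟨Nat.card (cz u) * r, by rw [hr]; push_cast; rfl⟩
    choose! r hr using hr
    refine ⟨∑ b ∈ (blockFinset M (cz u)).filter (fun b => IsInducedBlock M (cz u) b B), r b, ?_⟩
    push_cast
    exact Finset.sum_congr rfl hr
  · refine ⟨0, ?_⟩
    rw [Nat.cast_zero]
    refine Finset.sum_eq_zero fun s hs => ?_
    have hpp : ppart p (u * (s : G)) = u :=
      ppart_mul (mem_cz.1 s.2) hu (by rw [Subgroup.orderOf_coe]; exact mem_regs.1 hs)
    rw [kerB, ← filter_eq_bf]
    refine block_orth hpM hB fun h => hconj ?_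
    rw [ppart_pow, hpp] at h
    exact h.symm

end Cfsg.Agent.Blocks.SectionTrace
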