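import Cfsg.Agent.Chars.CoveringBlocks
import Cfsg.Agent.BlockChar.LocalBlock
import Cfsg.Agent.BlockChar.PairDict

/-!
A covered block fixed by a defect group of the covering block.
-/

namespace Cfsg.Agent.Blocks

open Cfsg Cfsg.Agent Cfsg.Agent.BlockChar
open scoped MonoidAlgebra

set_option linter.style.haveILetI false
set_option linter.unusedSectionVars false

universe u

variable {G : Type u} [Group G] [Fintype G] {p : ℕ} [Fact p.Prime] {M : Ideal AlgInt}
  [M.IsMaximal] {N : Subgroup G} [hNn : N.Normal] [Fintype N]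

/-- A block under the idempotent of a covered orbit is covered. -/
theorem covers_of_orbit_mul (hpM : (p : AlgInt) ∈ M) {B : Set (IrrCharacter G)} (hB : IsPBlock M B)
    {b : Set (IrrCharacter N)} (hb : IsPBlock M b) {χ : IrrCharacter G} (hχ : χ ∈ B)
    {θ : IrrCharacter N} (hθ : θ ∈ b)
    (hcon : classInner (fun n : N => (χ : G → ℂ) n) (θ : N → ℂ) ≠ 0)
    {c : Set (IrrCharacter N)} (hc : IsPBlock M c)
    (h : (red M N.subtype (blockCoeff (orbitSet (G := G) b)) * idemS M c : (Res M)[G]) =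
      idemS M c) :
    ∃ χ ∈ B, ∃ θ ∈ c, classInner (fun n : N => (χ : G → ℂ) n) (θ : N → ℂ) ≠ 0 := by
  obtain ⟨ξ, hξ⟩ := block_nonempty hc
  have hA := rFun_blockCoeff_union hpM fun a a' ha e => orbitSet_sameBlock (G := G) hb ha e
  have h2 := (red_mul_idem_iff N.subtype_injective hpM hc hξ
    (isClassFunction_blockCoeff _) hA (Chars.Coset.idem_orbit hpM hb)).1 h
  have hξA : ξ ∈ orbitSet (G := G) b := by
    by_contra hn
    rw [omega_blockCoeff_not_mem hn, zero_sub] at h2
    exact not_memI_one (M := M) (by simpa using memI_neg h2)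
  obtain ⟨x, hx⟩ := hξA
  refine ⟨χ, hχ, conjIrr θ x⁻¹, ?_, by rwa [constituent_conjIrr]⟩
  refine mem_of_sameBlock hc hξ ?_
  have h3 := sameBlock_conjIrr (G := G) (sameBlock_of_mem hb hx hθ) x⁻¹
  rwa [conjIrr_conjIrr, inv_mul_cancel, conjIrr_one] at h3

/-- A block of `N` not annihilated by `B` is covered by it. -/
theorem covers_of_idem_mul_ne_zero (hpM : (p : AlgInt) ∈ M) {B : Set (IrrCharacter G)}
    (hB : IsPBlock M B) {c : Set (IrrCharacter N)} (hc : IsPBlock M c)
    (h : idemG M B * idemS M c ≠ 0) :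
    ∃ χ ∈ B, ∃ θ ∈ c, classInner (fun n : N => (χ : G → ℂ) n) (θ : N → ℂ) ≠ 0 := by
  classical
  obtain ⟨χ, hχ⟩ := block_nonempty hB
  obtain ⟨θ, hθ⟩ := exists_constituent (N := N) χ
  have hb := isPBlock_blockOf (M := M) θ
  refine covers_of_orbit_mul hpM hB hb hχ (mem_blockOf_self θ) hθ hc ?_
  refine ((isBlk_idemS hpM hc).prim _ Chars.Coset.central_orbit
    (Chars.Coset.idem_orbit hpM hb)).resolve_left fun h0 => h ?_
  rw [← Chars.Coset.idemG_mul_orbit hpM hB hb hχ (mem_blockOf_self θ) hθ, mul_assoc, h0, mul_zero]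

theorem exists_stable_covered (hpM : (p : AlgInt) ∈ M) {B : Set (IrrCharacter G)}
    (hB : IsPBlock M B) {b : Set (IrrCharacter N)} (hb : IsPBlock M b)
    (hcov : ∃ χ ∈ B, ∃ θ ∈ b, classInner (fun n : N => (χ : G → ℂ) n) (θ : N → ℂ) ≠ 0)
    {P : Subgroup G} (hP : IsPGroup p P) (hbr : br P (idemG M B) ≠ 0) :
    ∃ c : Set (IrrCharacter N), IsPBlock M c ∧ (∀ x ∈ P, StabilizesBlock N c x) ∧
      (∃ χ ∈ B, ∃ θ ∈ c, classInner (fun n : N => (χ : G → ℂ) n) (θ : N → ℂ) ≠ 0) ∧
      br P (idemS M c) ≠ 0 := by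
  classical
  haveI := charP_res (p := p) hpM
  obtain ⟨χ, hχ, θ, hθ, hcon⟩ := hcov
  have hBblk := isBlk_idemG hpM hB
  set e : (Res M)[G] := red M N.subtype (blockCoeff (orbitSet (G := G) b)) with he
  have hec : CentralIn N e := Chars.Coset.central_orbit
  have hee : e * e = e := Chars.Coset.idem_orbit hpM hb
  have heG : Fixed (⊤ : Subgroup G) e := by
    rw [he, ← Chars.Coset.red_liftCoeff]
    have h := centralIn_red (M := M) (ι := MonoidHom.id G) Function.injective_id
      (isClassFunction_liftCoeff (conjInv_orbitSet (G := G) b))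
    exact fixed_of_coeff fun x _ g => h.fixed.coeff (MonoidHom.mem_range.2 ⟨x, rfl⟩) g
  have h1 : br P e ≠ 0 := by
    intro h0
    apply hbr
    rw [← Chars.Coset.idemG_mul_orbit hpM hB hb hχ hθ hcon, ← he,
      br_mul hP (hBblk.fixed.mono le_top) (heG.mono le_top), h0, mul_zero]
  obtain ⟨g, hg, hne⟩ := coeff_ne_zero_of_br_ne_zero h1
  have hPN : ∀ u ∈ P, conjS u N = N := fun u _ => conjS_eq_self_of_mem_normalizer
    ((Subgroup.normalizer_eq_top N).ge (Subgroup.mem_top u))
  letI act : MulAction P ↥(blks (Res M) N) :=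
    { smul := fun u a => ⟨cj (u : G) a.1, mem_blks.2 (by
        simpa [hPN u u.2] using (mem_blks.1 a.2).cj (u : G))⟩
      one_smul := fun a => Subtype.ext (by
        show cj ((1 : P) : G) a.1 = a.1
        simp)
      mul_smul := fun u w a => Subtype.ext (by
        show cj ((u * w : P) : G) a.1 = cj (u : G) (cj (w : G) a.1)
        rw [Subgroup.coe_mul, cj_mul]) }
  set f : ↥(blks (Res M) N) → Res M := fun a => if e * a.1 = a.1 then a.1.coeff g else 0 with hf
  have hinv : ∀ (u : P) (a : ↥(blks (Res M) N)), f (u • a) = f a := by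
    intro u a
    have hu : (u • a).1 = cj (u : G) a.1 := rfl
    have hiff : e * cj (u : G) a.1 = cj (u : G) a.1 ↔ e * a.1 = a.1 := by
      conv_lhs => rw [← heG u (Subgroup.mem_top _), ← map_mul]
      exact (cj (u : G)).injective.eq_iff
    simp only [hf, hu, hiff, coeff_cj]
    have hug : (u : G)⁻¹ * g * (u : G) = g := by
      rw [mul_assoc, ← Subgroup.mem_centralizer_iff.1 hg _ u.2, inv_mul_cancel_left]
    rw [hug]
  have hsum : ∑ a, f a = e.coeff g := by
    conv_rhs => rw [eq_sum_blks hec hee]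
    rw [MonoidAlgebra.coeff_sum, Finset.sum_filter, Finset.sum_apply']
    rw [← Finset.sum_coe_sort (blks (Res M) N)]
    refine Finset.sum_congr rfl fun a _ => ?_
    simp only [hf]
    split_ifs <;> simp
  have hsum := (BlockChar.sum_eq_sum_fixed hP f hinv).symm.trans hsum
  obtain ⟨⟨z, hz⟩, hz1, hz2⟩ := Finset.exists_ne_zero_of_sum_ne_zero (hsum.trans_ne hne)
  have hzb := mem_blks.1 hz
  simp only [hf, ne_eq, ite_eq_right_iff, not_forall] at hz2
  obtain ⟨hze, hzg⟩ := hz2
  have hzfix : Fixed P z := fun u hu =>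
    congrArg Subtype.val ((Finset.mem_filter.1 hz1).2 ⟨u, hu⟩)
  obtain ⟨c, hc, rfl⟩ := exists_idemS_eq hpM hzb
  refine ⟨c, hc, (fixed_idemS_iff hpM hc fun x hx =>
    (Subgroup.normalizer_eq_top N).ge (Subgroup.mem_top x)).1 hzfix, ?_,
    br_ne_zero_of_coeff hg hzg⟩
  exact covers_of_orbit_mul hpM hB hb hχ hθ hcon hc hze

end Cfsg.Agent.Blocks
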