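import Cfsg.Agent.BlockChar.PPowerIndex
import Cfsg.Agent.BlockChar.SubAlg

/-!
A stable block of a normal subgroup of `p`-power index has a defect group outside it.
-/

namespace Cfsg.Agent.Blocks

open Cfsg Cfsg.Agent Cfsg.Agent.BlockChar
open scoped MonoidAlgebra

set_option linter.style.haveILetI false
set_option linter.unusedSectionVars false

universe u

variable {G : Type u} [Group G] [Fintype G] {p : ℕ} [Fact p.Prime] {M : Ideal AlgInt}
  [M.IsMaximal]

theorem exists_br_sup (hpM : (p : AlgInt) ∈ M) {N K : Subgroup G} [N.Normal] (hNK : N ≤ K) {k : ℕ}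
    (hidx : N.relIndex K = p ^ k) {β : (Res M)[G]} (hN : IsBlk N β) (hK : IsBlk K β) :
    ∃ R : Subgroup G, R ≤ K ∧ IsPGroup p R ∧ br R β ≠ 0 ∧ N ⊔ R = K := by
  classical
  haveI := charP_res (p := p) hpM
  haveI : Fintype K := Fintype.ofFinite K
  obtain ⟨w, rfl⟩ := exists_emb_eq hK.supp
  have hm : (N.subgroupOf K).map K.subtype = N := by
    rw [Subgroup.subgroupOf_map_subtype, inf_eq_left.2 hNK]
  have htop : (⊤ : Subgroup K).map K.subtype = K := by
    rw [← MonoidHom.range_eq_map, Subgroup.range_subtype]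
  have h1 : IsBlk (⊤ : Subgroup K) w := (isBlk_emb_iff ⊤ w).1 (by rwa [htop])
  have h2 : IsBlk (N.subgroupOf K) w := (isBlk_emb_iff _ w).1 (by rwa [hm])
  obtain ⟨D, hD⟩ := exists_isDef (p := p) h1
  obtain ⟨hsup, -⟩ := sup_eq_top_and_isDef hpM (N := N.subgroupOf K) hidx h1 h2 hD
  refine ⟨D.map K.subtype, Subgroup.map_subtype_le D, hD.pgroup.map _, ?_, ?_⟩
  · rw [← emb_br]
    exact fun h => hD.ne_zero (emb_injective (h.trans (map_zero (emb (Res M) K)).symm))
  · have := congrArg (Subgroup.map K.subtype) hsup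
    rwa [Subgroup.map_sup, hm, htop] at this

end Cfsg.Agent.Blocks
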