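import Cfsg.Agent.Blocks.FirstMain
import Cfsg.Agent.Blocks.Kulshammer
import Cfsg.Agent.Blocks.Orth
import Cfsg.Agent.BlockChar.Exact
import Mathlib.GroupTheory.SchurZassenhaus
import Mathlib.LinearAlgebra.Dimension.Constructions

/-!
The number of blocks with a Sylow `p`-subgroup as defect group.
-/

namespace Cfsg.Agent.Blocks

open Cfsg Cfsg.Agent Cfsg.Agent.BlockChar
open scoped MonoidAlgebra

set_option linter.style.haveILetI false
set_option linter.unusedSectionVars false

universe u v

set_option synthInstance.maxHeartbeats 100000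

variable {G : Type u} [Group G] [Fintype G] {p : ℕ} [Fact p.Prime]

/-- The `p`-regular elements centralizing a normal Sylow `p`-subgroup form a subgroup. -/
theorem exists_regSubgroup {P : Subgroup G} [hPn : P.Normal] (hP : IsPGroup p P)
    (hidx : ¬ p ∣ P.index) :
    ∃ K : Subgroup G, ∀ g : G, g ∈ K ↔ (¬ p ∣ orderOf g ∧ g ∈ Subgroup.centralizer (P : Set G)) := by
  have hp := (Fact.out : p.Prime)
  set C := Subgroup.centralizer (P : Set G) with hC
  set Z := P.subgroupOf C with hZ
  have hZi : ¬ p ∣ Z.index := fun h => hidx (h.trans (Subgroup.relIndex_dvd_index_of_normal P C))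
  have hZp : IsPGroup p Z := by
    rw [hZ, Subgroup.subgroupOf]
    exact hP.comap_of_injective C.subtype C.subtype_injective
  have hcop : Nat.Coprime (Nat.card Z) Z.index := by
    obtain ⟨n, hn⟩ := hZp.exists_card_eq
    rw [hn]
    exact (hp.coprime_iff_not_dvd.2 hZi).pow_left n
  obtain ⟨L, hL⟩ := Subgroup.exists_right_complement'_of_coprime hcop
  refine ⟨L.map C.subtype, fun g => ?_⟩
  have hLcard : ¬ p ∣ Nat.card L := by rw [← hL.symm.index_eq_card]; exact hZi
  constructor
  · rintro ⟨l, hl, rfl⟩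
    refine ⟨fun h => hLcard ?_, l.2⟩
    have := orderOf_dvd_natCard (⟨l, hl⟩ : L)
    rw [Subgroup.orderOf_mk, ← Subgroup.orderOf_coe] at this
    exact h.trans this
  · rintro ⟨hg, hgC⟩
    obtain ⟨⟨⟨z, hz⟩, ⟨l, hl⟩⟩, hzl⟩ := hL.2 ⟨g, hgC⟩
    have hzl' : (z : G) * (l : G) = g := congrArg Subtype.val hzl
    have hcomm : Commute (z : G) (l : G) :=
      Subgroup.mem_centralizer_iff.1 l.2 _ (Subgroup.mem_subgroupOf.1 hz)
    have h1 : orderOf (l : G) ∣ Nat.card L := by
      rw [Subgroup.orderOf_coe, ← Subgroup.orderOf_mk l hl]; exact orderOf_dvd_natCard _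
    have h2 : (z : G) ^ (orderOf g * Nat.card L) = 1 := by
      have : (g * (l : G)⁻¹) = z := by rw [← hzl', mul_inv_cancel_right]
      have hc : Commute g (l : G)⁻¹ := by
        rw [← hzl']; exact ((hcomm.mul_left (Commute.refl _))).inv_right
      rw [← this, hc.mul_pow, pow_mul, pow_orderOf_eq_one, one_pow, one_mul, inv_pow,
        mul_comm, pow_mul, orderOf_dvd_iff_pow_eq_one.1 h1, one_pow, inv_one]
    obtain ⟨k, hk⟩ := IsPGroup.iff_orderOf.1 hZp ⟨z, hz⟩
    rw [Subgroup.orderOf_mk, ← Subgroup.orderOf_coe] at hk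
    have hz1 : (z : G) = 1 := by
      rw [← orderOf_eq_one_iff, hk]
      have hd : p ^ k ∣ orderOf g * Nat.card L := hk ▸ orderOf_dvd_of_pow_eq_one h2
      rcases k with _ | k
      · rfl
      · rcases hp.dvd_mul.1 ((dvd_pow_self p k.succ_ne_zero).trans hd) with h | h
        · exact absurd h hg
        · exact absurd h hLcard
    exact ⟨l, hl, by rw [← hzl', hz1, one_mul]; rfl⟩

section alg

variable {k : Type v} [Field k] [CharP k p]

/-- A nilpotent central element supported on a `p'`-subgroup is zero. -/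
theorem eq_zero_of_nilpotent {K : Subgroup G} (hK : ∀ g ∈ K, ¬ p ∣ orderOf g) {z : k[G]}
    (hz : CentralIn (⊤ : Subgroup G) z) (hzK : SupportedIn K z) (hn : IsNilpotent z) : z = 0 := by
  classical
  have hp := (Fact.out : p.Prime)
  ext h
  rw [MonoidAlgebra.coeff_zero]
  show z.coeff h = 0
  by_cases hhK : h ∈ K
  swap
  · exact hzK h hhK
  set a := z * MonoidAlgebra.single h⁻¹ (1 : k) with ha
  have hcomm : Commute z (MonoidAlgebra.single h⁻¹ (1 : k)) :=
    hz.comm (fun g hg => absurd (Subgroup.mem_top g) hg)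
  obtain ⟨N, hN⟩ := hn
  have hcoef : ∀ x : G, a.coeff x = z.coeff (x * h) := by
    intro x
    rw [ha, coeff_mul_sum, Finset.sum_eq_single (x * h)]
    · rw [MonoidAlgebra.coeff_single_apply, if_pos (by group), mul_one]
    · intro y _ hy
      rw [MonoidAlgebra.coeff_single_apply, if_neg (fun e => hy ?_), mul_zero]
      have := congrArg (fun w => y * w * h) e.symm
      simpa [mul_assoc] using this.symm
    · simp
  have h1 := coeff_pow_ppow (p := p) a N
  have hNle : N ≤ p ^ N := (Nat.lt_pow_self hp.one_lt).le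
  rw [ha, hcomm.mul_pow, pow_eq_zero_of_le hNle hN, zero_mul, MonoidAlgebra.coeff_zero, ← ha,
    Finset.sum_eq_single (1 : G)] at h1
  · rw [hcoef, one_mul] at h1
    exact (pow_eq_zero_iff (pow_ne_zero _ hp.ne_zero)).1 h1.symm
  · intro x hx hx1
    rw [hcoef]
    refine hzK _ fun hxh => hx1 ?_
    have hxK : x ∈ K := by simpa using K.mul_mem hxh (K.inv_mem hhK)
    obtain ⟨j, -, hj⟩ := (Nat.dvd_prime_pow hp).1
      (orderOf_dvd_of_pow_eq_one (Finset.mem_filter.1 hx).2)
    rw [← orderOf_eq_one_iff, hj]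
    rcases j with _ | j
    · rfl
    · exact absurd (hj ▸ dvd_pow_self p j.succ_ne_zero) (hK x hxK)
  · simp

end alg

variable {M : Ideal AlgInt} [M.IsMaximal]

set_option maxHeartbeats 1000000 in
theorem card_blocks_normal_sylow (hpM : (p : AlgInt) ∈ M) {P : Subgroup G} [hPn : P.Normal]
    (hP : IsPGroup p P) (hidx : ¬ p ∣ P.index) :
    Nat.card {B : Set (IrrCharacter G) // IsPBlock M B} =
      Nat.card {C : ConjClasses G // ∀ g : G, ConjClasses.mk g = C →
        ¬ p ∣ orderOf g ∧ g ∈ Subgroup.centralizer (P : Set G)} := by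
  classical
  haveI := charP_res (p := p) hpM
  obtain ⟨K, hK⟩ := exists_regSubgroup hP hidx
  set s := blks (Res M) (⊤ : Subgroup G) with hs
  set Cl := {C : ConjClasses G // ∀ g : G, ConjClasses.mk g = C →
    ¬ p ∣ orderOf g ∧ g ∈ Subgroup.centralizer (P : Set G)}
  have hbK : ∀ b ∈ s, SupportedIn K b := by
    intro b hb g hg
    obtain ⟨B, hB, rfl⟩ := exists_idemG_eq hpM (mem_blks.1 hb)
    rw [coeff_idemG]
    have h0 : blockCoeff B g = 0 := by
      by_cases h : p ∣ orderOf g
      · exact blockCoeff_eq_zero_of_dvd hpM hB h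
      · exact blockCoeff_eq_zero_of_notMem_centralizer hpM hP hB fun h' => hg ((hK g).2 ⟨h, h'⟩)
    rw [h0, res_zero]
  choose rep hrep using fun C : Cl => ConjClasses.mk_surjective (α := G) C.1
  let Z : (↥s → (Res M)) →ₗ[(Res M)] (Res M)[G] := Fintype.linearCombination (Res M) (fun b : ↥s => (b : (Res M)[G]))
  have hZ : ∀ c, Z c = ∑ b : ↥s, c b • (b : (Res M)[G]) := fun c => Fintype.linearCombination_apply _ _ _
  have hZc : ∀ c, CentralIn (⊤ : Subgroup G) (Z c) := fun c => by
    rw [hZ]; exact CentralIn.sum fun b _ => (mem_blks.1 b.2).central.smul _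
  have hZK : ∀ c g, g ∉ K → (Z c).coeff g = 0 := by
    intro c g hg
    rw [hZ, MonoidAlgebra.coeff_sum, Finsupp.finsetSum_apply]
    exact Finset.sum_eq_zero fun b _ => (hbK b b.2).smul (c b) g hg
  have hKconj : ∀ x g : G, g ∈ K → x * g * x⁻¹ ∈ K := by
    intro x g hg
    obtain ⟨h1, h2⟩ := (hK g).1 hg
    refine (hK _).2 ⟨?_, (inferInstance : (Subgroup.centralizer (P : Set G)).Normal).conj_mem g h2 x⟩
    rwa [← MulAut.conj_apply, MulEquiv.orderOf_eq]
  have hcls : ∀ g ∈ K, ∃ C : Cl, ConjClasses.mk g = C.1 := by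
    intro g hg
    refine ⟨⟨ConjClasses.mk g, fun g' hg' => ?_⟩, rfl⟩
    obtain ⟨x, rfl⟩ := isConj_iff.1 (ConjClasses.mk_eq_mk_iff_isConj.1 hg').symm
    exact (hK _).1 (hKconj x g hg)
  have hconst : ∀ z : (Res M)[G], CentralIn (⊤ : Subgroup G) z → ∀ a b : G, IsConj a b →
      z.coeff a = z.coeff b := by
    intro z hz a b hab
    obtain ⟨x, rfl⟩ := isConj_iff.1 hab
    exact (hz.fixed.coeff (Subgroup.mem_top x) a).symm
  let Φ : (↥s → (Res M)) →ₗ[(Res M)] (Cl → (Res M)) :=
    { toFun := fun c C => (Z c).coeff (rep C)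
      map_add' := fun c d => by funext C; simp [map_add]
      map_smul' := fun a c => by funext C; simp [map_smul] }
  have hinj : Function.Injective Φ := by
    rw [injective_iff_map_eq_zero]
    intro c hc
    have h0 : Z c = 0 := by
      ext g
      rw [MonoidAlgebra.coeff_zero]
      show (Z c).coeff g = 0
      by_cases hg : g ∈ K
      · obtain ⟨C, hC⟩ := hcls g hg
        rw [hconst _ (hZc c) g (rep C) (ConjClasses.mk_eq_mk_iff_isConj.1 (hC.trans (hrep C).symm))]
        exact congrFun hc C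
      · exact hZK c g hg
    funext b
    have h1 := congrArg (fun z => z * (b : (Res M)[G])) h0
    simp only [hZ, Finset.sum_mul, zero_mul] at h1
    rw [Finset.sum_eq_single b] at h1
    · rw [Algebra.smul_mul_assoc, (mem_blks.1 b.2).idem, smul_eq_zero] at h1
      exact h1.resolve_right (mem_blks.1 b.2).ne_zero
    · intro b' _ hb'
      rw [Algebra.smul_mul_assoc, (mem_blks.1 b'.2).orth (mem_blks.1 b.2) (fun h => hb' (Subtype.ext h)),
        smul_zero]
    · exact fun h => absurd (Finset.mem_univ _) h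
  have hsurj : Function.Surjective Φ := by
    intro f
    set z : (Res M)[G] := ∑ g : G, MonoidAlgebra.single g
      (if h : ∃ C : Cl, ConjClasses.mk g = C.1 then f h.choose else 0) with hz
    have hzc : ∀ g, z.coeff g =
        if h : ∃ C : Cl, ConjClasses.mk g = C.1 then f h.choose else 0 := by
      intro g
      rw [hz, MonoidAlgebra.coeff_sum, Finsupp.finsetSum_apply, Finset.sum_eq_single g]
      · rw [MonoidAlgebra.coeff_single_apply, if_pos rfl]
      · intro y _ hy
        rw [MonoidAlgebra.coeff_single_apply, if_neg hy]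
      · simp
    have hzK : SupportedIn K z := by
      intro g hg
      rw [hzc, dif_neg]
      rintro ⟨C, hC⟩
      exact hg ((hK g).2 (C.2 g hC))
    have hzf : CentralIn (⊤ : Subgroup G) z := by
      refine ⟨fun g hg => absurd (Subgroup.mem_top g) hg, fun x _ => ?_⟩
      ext g
      rw [coeff_cj, hzc, hzc]
      simp only [show ConjClasses.mk (x⁻¹ * g * x) = ConjClasses.mk g from
        ConjClasses.mk_eq_mk_iff_isConj.2 (isConj_iff.2 ⟨x, by group⟩)]
    have hsc : ∀ b : ↥s, ∃ c : (Res M), z * (b : (Res M)[G]) = c • (b : (Res M)[G]) := by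
      intro b
      obtain ⟨c, hc⟩ := exists_scalar (mem_blks.1 b.2) hzf
      refine ⟨c, sub_eq_zero.1 (eq_zero_of_nilpotent (p := p) (K := K) (fun g hg => ((hK g).1 hg).1)
        ((hzf.mul (mem_blks.1 b.2).central).sub ((mem_blks.1 b.2).central.smul c))
        ((hzK.mul (hbK b b.2)).sub ((hbK b b.2).smul c)) hc)⟩
    choose c hc using hsc
    refine ⟨c, funext fun C => ?_⟩
    have hzZ : Z c = z := by
      rw [hZ, ← Finset.sum_congr rfl (fun b _ => hc b), ← Finset.mul_sum,
        Finset.sum_coe_sort s (fun b => b), sum_blks, mul_one]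
    show (Z c).coeff (rep C) = f C
    have hex : ∃ C' : Cl, ConjClasses.mk (rep C) = C'.1 := ⟨C, hrep C⟩
    rw [hzZ, hzc, dif_pos hex]
    exact congrArg f (Subtype.ext (hex.choose_spec.symm.trans (hrep C)))
  have hfin := (LinearEquiv.ofBijective Φ ⟨hinj, hsurj⟩).finrank_eq
  rw [Module.finrank_fintype_fun_eq_card, Module.finrank_fintype_fun_eq_card] at hfin
  rw [Nat.card_eq_fintype_card (α := Cl), ← hfin, ← Nat.card_eq_fintype_card]
  refine Nat.card_congr (Equiv.ofBijective (fun B => (⟨idemG M B.1,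
    mem_blks.2 (isBlk_idemG hpM B.2)⟩ : ↥s)) ⟨fun B B' h => ?_, fun b => ?_⟩)
  · exact Subtype.ext ((idemG_inj hpM B.2 B'.2).1 (congrArg Subtype.val h))
  · obtain ⟨B, hB, hBb⟩ := exists_idemG_eq hpM (mem_blks.1 b.2)
    exact ⟨⟨B, hB⟩, Subtype.ext hBb⟩

/-- Blocks with a Sylow defect group and `p`-regular classes of the normalizer. -/
theorem card_full_defect_blocks (hpM : (p : AlgInt) ∈ M) (P : Sylow p G) :
    Nat.card {B : Set (IrrCharacter G) // IsPBlock M B ∧ IsDefectGroup p M B (P : Subgroup G)} =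
      Nat.card {C : ConjClasses (Subgroup.normalizer ((P : Subgroup G) : Set G)) //
        ∀ n : Subgroup.normalizer ((P : Subgroup G) : Set G), ConjClasses.mk n = C →
          ¬ p ∣ orderOf n ∧ (n : G) ∈ Subgroup.centralizer ((P : Subgroup G) : Set G)} := by
  classical
  set N := Subgroup.normalizer ((P : Subgroup G) : Set G) with hN
  set PN : Sylow p N := P.subtype Subgroup.le_normalizer with hPN
  have hPNeq : (PN : Subgroup N) = (P : Subgroup G).subgroupOf N := rfl
  haveI hn : (PN : Subgroup N).Normal := by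
    rw [hPNeq]; exact Subgroup.normal_in_normalizer
  have hidx : ¬ p ∣ (PN : Subgroup N).index := PN.not_dvd_index
  have hall : ∀ b : Set (IrrCharacter N), IsPBlock M b → IsDefectGroup p M b (PN : Subgroup N) := by
    intro b hb
    obtain ⟨D, hD⟩ := exists_isDefectGroup hpM hb
    have hle := le_defect_of_normal hpM hb hD hn PN.isPGroup'
    rwa [PN.is_maximal' (isPGroup_defect hD) hle] at hD
  have key : Nat.card {B : Set (IrrCharacter G) // IsPBlock M B ∧ IsDefectGroup p M B (P : Subgroup G)} =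
      Nat.card {b : Set (IrrCharacter N) // IsPBlock M b} := by
    obtain ⟨hfwd, hback⟩ := first_main (p := p) hpM (P : Subgroup G)
    choose f hf using fun B : {B : Set (IrrCharacter G) //
      IsPBlock M B ∧ IsDefectGroup p M B (P : Subgroup G)} => hback B.1 B.2.1 B.2.2
    refine Nat.card_congr (Equiv.ofBijective (fun B => ⟨f B, (hf B).1.1⟩) ⟨fun B B' h => ?_,
      fun b => ?_⟩)
    · have h' : f B = f B' := congrArg Subtype.val h
      exact Subtype.ext (isInducedBlock_unique _ hpM (hf B).1.2.2 (h' ▸ (hf B').1.2.2))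
    · obtain ⟨B, hB, hD, hind⟩ := hfwd b.1 b.2 (hall b.1 b.2)
      exact ⟨⟨B, hB, hD⟩, Subtype.ext ((hf ⟨B, hB, hD⟩).2 b.1 ⟨b.2, hall b.1 b.2, hind⟩).symm⟩
  rw [key, card_blocks_normal_sylow hpM PN.isPGroup' hidx]
  refine Nat.card_congr (Equiv.subtypeEquivRight fun C => forall_congr' fun n => imp_congr_right
    fun _ => and_congr_right fun _ => ?_)
  rw [Subgroup.mem_centralizer_iff, Subgroup.mem_centralizer_iff]
  constructor
  · intro h x hx
    exact congrArg Subtype.val (h ⟨x, Subgroup.le_normalizer hx⟩ hx)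
  · intro h x hx
    exact Subtype.ext (h x hx)

end Cfsg.Agent.Blocks
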